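import Cfsg.Agent.FGS75.Tree4724.Defs
import Cfsg.Agent.Perm.PrimeDegree
import Cfsg.Agent.Char.DefectZero
import Cfsg.Agent.Char.Linear
import Cfsg.Agent.Char.Orthogonality
import Cfsg.Agent.Char.Kernel
import Mathlib.GroupTheory.Transfer
import Mathlib.GroupTheory.SpecificGroups.Cyclic
import Mathlib.GroupTheory.GroupAction.Primitive
import Mathlib.RingTheory.IntegralDomain
import Mathlib.LinearAlgebra.Trace

/-!
The basic structure of a transitive group of prime degree with one character of degree `p` and a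
TI complement in the Sylow normalizer.
-/

set_option autoImplicit false
set_option linter.style.haveILetI false
set_option linter.unusedSectionVars false

namespace Cfsg.Agent.FGS75.Tree4724

open Cfsg MulAction
open scoped commutatorElement
open scoped Classical

universe u v

section Group

variable {G : Type u} [Group G] {α : Type v} [MulAction G α] [FaithfulSMul G α] [Fintype α]
  [IsPretransitive G α] {p : ℕ} [hp : Fact p.Prime]

/-- A Sylow `p`-subgroup is self-centralizing. -/
private theorem cent_sylow [Finite G] (hα : Fintype.card α = p) (P : Sylow p G) :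
    Subgroup.centralizer ((P : Subgroup G) : Set G) = P := by
  have hcard := PermLib.card_sylow_of_prime_degree hα P
  obtain ⟨⟨σ, hσP⟩, hσ⟩ := exists_prime_orderOf_dvd_card' (G := (P : Subgroup G)) p hcard.symm.dvd
  rw [← Subgroup.orderOf_coe] at hσ
  change orderOf σ = p at hσ
  have hz : Subgroup.zpowers σ = (P : Subgroup G) := by
    refine Subgroup.eq_of_le_of_card_ge (Subgroup.zpowers_le.2 hσP) ?_
    rw [Nat.card_zpowers, hσ, hcard]
  obtain ⟨e, he⟩ := PermLib.exists_coords hα hσ
  have hpow : ∀ n : ℕ, ∀ j, σ ^ n • e j = e (j + n) := fun n => by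
    induction n with
    | zero => intro j; simp
    | succ n ih => intro j; rw [pow_succ', mul_smul, ih, he, Nat.cast_succ, add_assoc]
  apply le_antisymm
  · intro g hg
    have hc : Commute g σ := (Subgroup.mem_centralizer_iff.1 hg σ hσP).symm
    set c := e.symm (g • e 0) with hcdef
    have key : g = σ ^ c.val := by
      refine PermLib.eq_of_coordMap_eq e (funext fun j => ?_)
      obtain ⟨n, rfl⟩ := ZMod.natCast_zmod_surjective j
      have h1 : e (n : ZMod p) = σ ^ n • e 0 := by rw [hpow, zero_add]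
      simp only [PermLib.coordMap]
      congr 1
      rw [hpow c.val, ZMod.natCast_zmod_val, h1, ← mul_smul, (hc.pow_right n).eq, mul_smul]
      rw [show g • e 0 = e c by simp [hcdef], hpow, add_comm]
    rw [key]
    exact Subgroup.pow_mem _ hσP _
  · intro g hg
    refine Subgroup.mem_centralizer_iff.2 fun h hh => ?_
    rw [SetLike.mem_coe, ← hz] at hh
    rw [← hz] at hg
    obtain ⟨i, rfl⟩ := Subgroup.mem_zpowers_iff.1 hh
    obtain ⟨j, rfl⟩ := Subgroup.mem_zpowers_iff.1 hg
    rw [← zpow_add, ← zpow_add, add_comm]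

/-- Every nontrivial normal subgroup contains the Sylow `p`-subgroup. -/
private theorem sylow_le_normal [Finite G] (hα : Fintype.card α = p) (P : Sylow p G)
    (K : Subgroup G) [K.Normal] (hK : K ≠ ⊥) : (P : Subgroup G) ≤ K := by
  haveI : Nonempty α := by
    rw [← Fintype.card_pos_iff, hα]; exact hp.out.pos
  haveI : IsPreprimitive G α := IsPreprimitive.of_prime_card (by
    rw [Nat.card_eq_fintype_card, hα]; exact hp.out)
  have hfix : fixedPoints K α ≠ .univ := by
    intro h
    refine hK ((Subgroup.eq_bot_iff_forall _).2 fun k hk => ?_)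
    refine FaithfulSMul.eq_of_smul_eq_smul (α := α) fun x => ?_
    have hx : x ∈ fixedPoints K α := h ▸ Set.mem_univ x
    rw [one_smul]
    exact hx ⟨k, hk⟩
  haveI := IsQuasiPreprimitive.isPretransitive_of_normal (G := G) (X := α) hfix
  have hdvd : p ∣ Nat.card K := by
    rw [← hα, ← Nat.card_eq_fintype_card]; exact PermLib.card_dvd_card
  obtain ⟨⟨x, hxK⟩, hx⟩ := exists_prime_orderOf_dvd_card' (G := K) p hdvd
  rw [← Subgroup.orderOf_coe] at hx
  change orderOf x = p at hx
  have hxp : IsPGroup p (Subgroup.zpowers x) :=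
    IsPGroup.of_card (n := 1) (by rw [Nat.card_zpowers, hx, pow_one])
  obtain ⟨Q, hQ⟩ := hxp.exists_le_sylow
  have hQe : (Q : Subgroup G) = Subgroup.zpowers x := by
    refine (Subgroup.eq_of_le_of_card_ge hQ ?_).symm
    rw [PermLib.card_sylow_of_prime_degree hα Q, Nat.card_zpowers, hx]
  obtain ⟨g, hg⟩ := exists_smul_eq G Q P
  intro y hy
  rw [← hg, Sylow.coe_subgroup_smul] at hy
  obtain ⟨z, hz, rfl⟩ := hy
  rw [SetLike.mem_coe, hQe] at hz
  exact Subgroup.Normal.conj_mem ‹_› z (Subgroup.zpowers_le.2 hxK hz) g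

omit [MulAction G α] [FaithfulSMul G α] [Fintype α] [IsPretransitive G α] hp in
private theorem degree_eq_of_charDegree {χ : G → ℂ} (hχ : IsIrrCharacter G χ) {n : ℕ}
    (h : charDegree χ = n) : χ 1 = n := by
  obtain ⟨m, -, hm⟩ := Char.irr_one_pos hχ
  rw [charDegree, hm] at h
  simp at h
  rw [hm, h]

omit [MulAction G α] [FaithfulSMul G α] [Fintype α] [IsPretransitive G α] hp in
private theorem charDegree_eq_of_degree {χ : G → ℂ} {n : ℕ} (h : χ 1 = n) :
    charDegree χ = n := by
  simp [charDegree, h]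

omit [MulAction G α] [FaithfulSMul G α] [Fintype α] [IsPretransitive G α] in
/-- A degree `p` character vanishing on `P#` is nonzero on a fixed-point-free complement. -/
private theorem ne_zero_on_compl [Fintype G] (P : Sylow p G)
    (hcard : Nat.card (P : Subgroup G) = p)
    {χ : G → ℂ} (hχ : IsCharacter G χ) (hdeg : χ 1 = (p : ℂ))
    (hvan : ∀ u ∈ (P : Subgroup G), u ≠ 1 → χ u = 0)
    {x : G} (hx : x ∈ Subgroup.normalizer ((P : Subgroup G) : Set G))
    (hfpf : ∀ u ∈ (P : Subgroup G), x * u * x⁻¹ = u → u = 1) : χ x ≠ 0 := by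
  have hcl := Char.isCharacter_isClassFunction hχ
  have hsurj : ∀ u ∈ (P : Subgroup G), χ (x * u) = χ x := by
    intro u hu
    have hmem : ∀ w ∈ (P : Subgroup G), x⁻¹ * w * x * w⁻¹ ∈ (P : Subgroup G) := fun w hw =>
      mul_mem ((Subgroup.mem_normalizer_iff''.1 hx w).1 hw) (inv_mem hw)
    let f : ↥(P : Subgroup G) → ↥(P : Subgroup G) := fun w => ⟨_, hmem (w : G) w.2⟩
    have hf : Function.Injective f := by
      intro a b hab
      have h : x⁻¹ * (a : G) * x * (a : G)⁻¹ = x⁻¹ * (b : G) * x * (b : G)⁻¹ :=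
        congrArg Subtype.val hab
      set d := (b : G)⁻¹ * (a : G) with hd
      have hdP : d ∈ (P : Subgroup G) := mul_mem (inv_mem b.2) a.2
      have hax : x⁻¹ * (a : G) * x ∈ (P : Subgroup G) :=
        (Subgroup.mem_normalizer_iff''.1 hx _).1 a.2
      have h2 : x⁻¹ * d * x = d := by
        calc x⁻¹ * d * x = (x⁻¹ * (b : G) * x)⁻¹ * (x⁻¹ * (a : G) * x) := by rw [hd]; group
          _ = (x⁻¹ * (b : G) * x)⁻¹ * ((x⁻¹ * (a : G) * x * (a : G)⁻¹) * (a : G)) := by group
          _ = (b : G)⁻¹ * (a : G) := by rw [h]; group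
          _ = d := hd.symm
      have h3 : x * d * x⁻¹ = d := by
        calc x * d * x⁻¹ = x * (x⁻¹ * d * x) * x⁻¹ := by rw [h2]
          _ = d := by group
      exact Subtype.ext (inv_mul_eq_one.1 (hfpf d hdP h3)).symm
    obtain ⟨w, hw⟩ := (Finite.injective_iff_surjective.1 hf) ⟨u, hu⟩
    have hw' : x⁻¹ * (w : G) * x * (w : G)⁻¹ = u := congrArg Subtype.val hw
    have : x * u = (w : G) * x * (w : G)⁻¹ := by rw [← hw']; group
    rw [this, hcl]
  obtain ⟨n, ρ, rfl⟩ := hχ
  set A : Module.End ℂ (Fin n → ℂ) := ∑ u : (P : Subgroup G), ρ (u : G) with hA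
  have htrA : LinearMap.trace ℂ _ A = (p : ℂ) := by
    rw [hA, map_sum, Finset.sum_eq_single (1 : (P : Subgroup G))]
    · simpa [Representation.character] using hdeg
    · intro u _ hu
      exact hvan u u.2 fun h => hu (Subtype.ext h)
    · simp
  have hAA : A * A = (p : ℂ) • A := by
    have h1 : ∀ u : (P : Subgroup G), ρ (u : G) * A = A := fun u => by
      rw [hA, Finset.mul_sum]
      simp_rw [← map_mul, ← Subgroup.coe_mul]
      exact Fintype.sum_equiv (Equiv.mulLeft u) _ _ fun v => rfl
    conv_lhs => arg 1; rw [hA]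
    rw [Finset.sum_mul, Finset.sum_congr rfl fun u _ => h1 u, Finset.sum_const, Finset.card_univ,
      ← Nat.card_eq_fintype_card, hcard, Nat.cast_smul_eq_nsmul]
  have hp0 : (p : ℂ) ≠ 0 := Nat.cast_ne_zero.2 hp.out.ne_zero
  set E₁ : Module.End ℂ (Fin n → ℂ) := (p : ℂ)⁻¹ • A with hE₁
  have hidem : IsIdempotentElem E₁ := by
    rw [IsIdempotentElem, hE₁, smul_mul_smul_comm, hAA, smul_smul]
    congr 1
    field_simp
  have hproj : LinearMap.IsProj (LinearMap.range E₁) E₁ :=
    (LinearMap.isProj_range_iff_isIdempotentElem E₁).2 hidem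
  have hrk : Module.finrank ℂ (LinearMap.range E₁) = 1 := by
    have h := hproj.trace
    rw [hE₁, map_smul, htrA, smul_eq_mul, inv_mul_cancel₀ hp0] at h
    exact_mod_cast h.symm
  obtain ⟨⟨v, hv⟩, hv0, hspan⟩ := finrank_eq_one_iff'.1 hrk
  have hxA : ρ x * A = A * ρ x := by
    rw [hA, Finset.mul_sum, Finset.sum_mul]
    let c : (P : Subgroup G) ≃ (P : Subgroup G) :=
      { toFun := fun u => ⟨x * u * x⁻¹, (Subgroup.mem_normalizer_iff.1 hx _).1 u.2⟩
        invFun := fun u => ⟨x⁻¹ * u * x, (Subgroup.mem_normalizer_iff''.1 hx _).1 u.2⟩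
        left_inv := fun u => Subtype.ext (by simp [mul_assoc])
        right_inv := fun u => Subtype.ext (by simp [mul_assoc]) }
    refine Fintype.sum_equiv c _ _ fun u => ?_
    simp [c, ← map_mul, mul_assoc]
  have hxE : ρ x * E₁ = E₁ * ρ x := by rw [hE₁, mul_smul_comm, hxA, smul_mul_assoc]
  obtain ⟨c, hc⟩ : ∃ c : ℂ, ρ x v = c • v := by
    have hm : ρ x v ∈ LinearMap.range E₁ := by
      obtain ⟨w, hw⟩ := hv
      exact ⟨ρ x w, by rw [← hw]; exact (LinearMap.congr_fun hxE w).symm⟩
    obtain ⟨c, hc⟩ := hspan ⟨_, hm⟩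
    exact ⟨c, (congrArg Subtype.val hc).symm⟩
  have hv0' : v ≠ 0 := fun h => hv0 (Subtype.ext h)
  have hc0 : c ≠ 0 := by
    rintro rfl
    rw [zero_smul] at hc
    apply hv0'
    have h := congrArg (ρ x⁻¹) hc
    rwa [← Module.End.mul_apply, ← map_mul, inv_mul_cancel, map_one, map_zero] at h
  have hEx : ρ x * E₁ = c • E₁ := by
    refine LinearMap.ext fun w => ?_
    obtain ⟨a, ha⟩ := hspan ⟨E₁ w, ⟨w, rfl⟩⟩
    have ha' : a • v = E₁ w := congrArg Subtype.val ha
    change ρ x (E₁ w) = c • E₁ w
    rw [← ha', map_smul, hc, smul_comm]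
  intro h0
  have key : LinearMap.trace ℂ _ (ρ x * E₁) = c := by
    rw [hEx, map_smul, hE₁, map_smul, htrA, smul_eq_mul, smul_eq_mul, inv_mul_cancel₀ hp0, mul_one]
  apply hc0
  rw [← key, hE₁, mul_smul_comm, map_smul, hA, Finset.mul_sum, map_sum]
  rw [Finset.sum_eq_zero fun u _ => ?_, smul_zero]
  rw [← map_mul]
  exact (hsurj u u.2).trans h0

end Group

variable {α : Type u} [Fintype α] [DecidableEq α]

/-- The hypotheses of the theorem give the normalized configuration. -/
theorem cfg_of_hyp {p : ℕ} [Fact p.Prime] (hα : Fintype.card α = p) (G : Subgroup (Equiv.Perm α))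
    [MulAction.IsPretransitive G α]
    (huniq : ∃! χ : IrrCharacter G, charDegree (χ : G → ℂ) = p) (P : Sylow p G) (E : Subgroup G)
    (hPE : (P : Subgroup G) ⊔ E = Subgroup.normalizer ((P : Subgroup G) : Set G))
    (hPE' : (P : Subgroup G) ⊓ E = ⊥)
    (hNE : Nat.card (Subgroup.normalizer (E : Set G)) = 2 * Nat.card E)
    (hTI : ∀ g : G, g ∉ Subgroup.normalizer (E : Set G) →
      E ⊓ E.map (MulAut.conj g).toMonoidHom = ⊥) : Cfg P E := by
  have hp : p.Prime := Fact.out
  have hcardP : Nat.card (P : Subgroup G) = p := PermLib.card_sylow_of_prime_degree hα P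
  have hcentP := cent_sylow hα P
  have hEN : E ≤ Subgroup.normalizer ((P : Subgroup G) : Set G) := hPE ▸ le_sup_right
  haveI hPcyc : IsCyclic (P : Subgroup G) := isCyclic_of_prime_card hcardP
  have hcomm : ∀ a ∈ (P : Subgroup G), ∀ b ∈ (P : Subgroup G), a * b = b * a :=
    fun a ha b hb => congrArg Subtype.val
      ((IsCyclic.commGroup (α := (P : Subgroup G))).mul_comm ⟨a, ha⟩ ⟨b, hb⟩)
  -- `E` embeds into the automorphisms of `P`
  let φ : E →* MulAut (P : Subgroup G) :=
    (Subgroup.normalizerMonoidHom (P : Subgroup G)).comp (Subgroup.inclusion hEN)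
  have hφ : Function.Injective φ := by
    rw [injective_iff_map_eq_one]
    intro x hx
    have hmem : Subgroup.inclusion hEN x ∈
        (Subgroup.normalizerMonoidHom (P : Subgroup G)).ker := hx
    rw [Subgroup.normalizerMonoidHom_ker, Subgroup.mem_subgroupOf, hcentP] at hmem
    have : (x : G) ∈ (P : Subgroup G) ⊓ E := ⟨hmem, x.2⟩
    rw [hPE', Subgroup.mem_bot] at this
    exact Subtype.ext this
  haveI : Fact (Nat.card (P : Subgroup G)).Prime := ⟨hcardP.symm ▸ hp⟩
  let ι : E →* (ZMod (Nat.card (P : Subgroup G)))ˣ :=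
    (IsCyclic.mulAutMulEquiv (P : Subgroup G)).toMonoidHom.comp φ
  have hι : Function.Injective ι :=
    (IsCyclic.mulAutMulEquiv (P : Subgroup G)).injective.comp hφ
  haveI hEcyc : IsCyclic E := isCyclic_of_injective ι hι
  have hdvd : Nat.card E ∣ p - 1 := by
    have h := Subgroup.card_dvd_of_injective φ hφ
    rwa [IsCyclic.card_mulAut, hcardP, Nat.totient_prime hp] at h
  have hfpf : ∀ x ∈ E, x ≠ 1 → ∀ u ∈ (P : Subgroup G), x * u * x⁻¹ = u → u = 1 := by
    intro x hxE hx1 u hu hxu
    by_contra hu1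
    have hzu : Subgroup.zpowers u = (P : Subgroup G) := by
      refine Subgroup.eq_of_le_of_card_ge (Subgroup.zpowers_le.2 hu) ?_
      have hne : orderOf u ≠ 1 := mt orderOf_eq_one_iff.1 hu1
      have hd : orderOf u ∣ p := hcardP ▸ Subgroup.orderOf_dvd_natCard _ hu
      rw [Nat.card_zpowers, hcardP, (hp.eq_one_or_self_of_dvd _ hd).resolve_left hne]
    have hc : Commute x u := by
      have h := congrArg (· * x) hxu
      simpa [mul_assoc, Commute, SemiconjBy] using h
    have : x ∈ Subgroup.centralizer ((P : Subgroup G) : Set G) := by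
      refine Subgroup.mem_centralizer_iff.2 fun y hy => ?_
      rw [SetLike.mem_coe, ← hzu, Subgroup.mem_zpowers_iff] at hy
      obtain ⟨i, rfl⟩ := hy
      exact (hc.zpow_right i).eq.symm
    rw [hcentP] at this
    have hbot : x ∈ (P : Subgroup G) ⊓ E := ⟨this, hxE⟩
    rw [hPE', Subgroup.mem_bot] at hbot
    exact hx1 hbot
  obtain ⟨ψ, hψ, hψu⟩ := huniq
  have hψ1 : (ψ : G → ℂ) 1 = (p : ℂ) := degree_eq_of_charDegree ψ.2 hψ
  haveI hGnt : Nontrivial G := by
    refine Finite.one_lt_card_iff_nontrivial.1 ?_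
    have := Subgroup.card_le_card_group (P : Subgroup G)
    have := hp.two_le
    omega
  -- the complement is nontrivial
  have hE1 : 1 < Nat.card E := by
    by_contra hc
    have hEbot : E = ⊥ := by
      refine Subgroup.eq_bot_of_card_eq _ ?_
      have := Nat.card_pos (α := E)
      omega
    rw [hEbot, sup_bot_eq] at hPE
    have hNC : Subgroup.normalizer ((P : Subgroup G) : Set G) ≤
        Subgroup.centralizer ((P : Subgroup G) : Set G) := by rw [← hPE, hcentP]
    have hK := MonoidHom.ker_transferSylow_isComplement' P hNC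
    have hKbot : (MonoidHom.transferSylow P hNC).ker = ⊥ := by
      by_contra h
      have hle := sylow_le_normal hα P _ h
      have : (P : Subgroup G) = ⊥ := le_bot_iff.1 (hK.disjoint.le_bot.trans' (le_inf hle le_rfl))
      rw [this, Subgroup.card_bot] at hcardP
      exact hp.one_lt.ne hcardP
    have htop : (P : Subgroup G) = ⊤ := by
      rw [hKbot] at hK
      exact Subgroup.isComplement'_bot_left.1 hK
    have hab : ∀ a b : G, a * b = b * a := fun a b =>
      hcomm a (htop ▸ Subgroup.mem_top a) b (htop ▸ Subgroup.mem_top b)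
    have h1 := Char.irr_degree_one_of_comm hab ψ.2
    rw [hψ1] at h1
    exact hp.one_lt.ne (by exact_mod_cast h1.symm)
  have hp5 : 5 ≤ p := by
    have h2 := hp.two_le
    have hle : Nat.card E ≤ p - 1 := Nat.le_of_dvd (by omega) hdvd
    by_contra hc
    have hne4 : p ≠ 4 := by rintro rfl; norm_num at hp
    have hp3 : p = 3 := by omega
    subst hp3
    have hG6 : Nat.card G ≤ 6 := by
      refine (Nat.le_of_dvd (Nat.card_pos) (Subgroup.card_subgroup_dvd_card G)).trans ?_
      rw [Nat.card_perm, Nat.card_eq_fintype_card, hα]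
      rfl
    have hsum := Char.sum_irr_degree_sq (G := G)
    have hdeg : ∀ χ : IrrCharacter G, ∃ d : ℕ, (χ : G → ℂ) 1 = d := fun χ =>
      (Char.irr_one_pos χ.2).imp fun _ h => h.2
    choose d hd using hdeg
    simp_rw [hd] at hsum
    have hsum' : ∑ χ : IrrCharacter G, d χ ^ 2 = Nat.card G := by exact_mod_cast hsum
    have h9 : d ψ ^ 2 ≤ Nat.card G := hsum' ▸
      Finset.single_le_sum (f := fun χ => d χ ^ 2) (fun _ _ => Nat.zero_le _) (Finset.mem_univ ψ)
    have hd3 : d ψ = 3 := by exact_mod_cast (hd ψ).symm.trans hψ1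
    rw [hd3] at h9
    omega
  -- the character of degree `p` vanishes on `P#`
  have hvan : ∀ u ∈ (P : Subgroup G), u ≠ 1 → (ψ : G → ℂ) u = 0 := by
    intro u hu hu1
    refine Char.irr_defect_zero_vanish' ψ.2 (n := 1) (d := p) hp ?_ hψ1 (by rw [pow_one]) u ?_
    · intro h
      have h' := P.card_eq_multiplicity
      rw [hcardP] at h'
      have := (hp.pow_dvd_iff_le_factorization Nat.card_pos.ne').1 h
      have h1 : (Nat.card G).factorization p = 1 := by
        refine (Nat.pow_right_injective hp.two_le ?_)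
        simpa using h'.symm
      omega
    · have hd : orderOf u ∣ p := hcardP ▸ Subgroup.orderOf_dvd_natCard _ hu
      rw [(hp.eq_one_or_self_of_dvd _ hd).resolve_left (mt orderOf_eq_one_iff.1 hu1)]
  -- perfectness
  have hperf : commutator G = ⊤ := by
    have hall : ∀ f : G →* ℂˣ, f = 1 := by
      intro f
      have hirr := Char.isIrrCharacter_mul_monoidHom ψ.2 f
      have heq : (⟨_, hirr⟩ : IrrCharacter G) = ψ := hψu _ (charDegree_eq_of_degree (by
        simp [hψ1]))
      have hfx : ∀ x ∈ E, f x = 1 := by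
        intro x hxE
        rcases eq_or_ne x 1 with rfl | hx1
        · exact map_one f
        have hne := ne_zero_on_compl P hcardP (Char.isCharacter_of_irr ψ.2) hψ1 hvan
          (hEN hxE) (hfpf x hxE hx1)
        have h := congrFun (congrArg Subtype.val heq) x
        simp only at h
        exact Units.val_eq_one.1 ((mul_eq_right₀ hne).1 h)
      haveI := Finite.one_lt_card_iff_nontrivial.1 hE1
      obtain ⟨⟨x, hxE⟩, hx1⟩ := exists_ne (1 : E)
      have hx1' : x ≠ 1 := fun h => hx1 (Subtype.ext h)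
      have hxN := hEN hxE
      have hfP : ∀ u ∈ (P : Subgroup G), f u = 1 := by
        intro u hu
        have hmem : ∀ w : (P : Subgroup G), x * (w : G) * x⁻¹ * (w : G)⁻¹ ∈ (P : Subgroup G) :=
          fun w => mul_mem ((Subgroup.mem_normalizer_iff.1 hxN _).1 w.2) (inv_mem w.2)
        let F : ↥(P : Subgroup G) → ↥(P : Subgroup G) := fun w => ⟨_, hmem w⟩
        have hF : Function.Injective F := by
          intro a b hab
          have h : x * (a : G) * x⁻¹ * (a : G)⁻¹ = x * (b : G) * x⁻¹ * (b : G)⁻¹ :=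
            congrArg Subtype.val hab
          set d := (b : G)⁻¹ * (a : G) with hd
          have h2 : x * d * x⁻¹ = d := by
            calc x * d * x⁻¹ = (x * (b : G) * x⁻¹)⁻¹ *
                  ((x * (a : G) * x⁻¹ * (a : G)⁻¹) * (a : G)) := by rw [hd]; group
              _ = d := by rw [h, hd]; group
          exact Subtype.ext
            (inv_mul_eq_one.1 (hfpf x hxE hx1' d (mul_mem (inv_mem b.2) a.2) h2)).symm
        obtain ⟨w, hw⟩ := (Finite.injective_iff_surjective.1 hF) ⟨u, hu⟩
        have hw' : x * (w : G) * x⁻¹ * (w : G)⁻¹ = u := congrArg Subtype.val hw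
        rw [← hw', map_mul, map_mul, map_mul, map_inv, map_inv, hfx x hxE]
        simp
      have hNker : Subgroup.normalizer ((P : Subgroup G) : Set G) ≤ f.ker := by
        rw [← hPE]
        exact sup_le (fun u hu => hfP u hu) (fun u hu => hfx u hu)
      have htop : Subgroup.normalizer ((P : Subgroup G) : Set G) ⊔ f.ker = ⊤ :=
        Sylow.normalizer_sup_eq_top' (N := f.ker) P (fun u hu => hfP u hu)
      rw [sup_eq_right.2 hNker] at htop
      ext g
      have : g ∈ f.ker := htop ▸ Subgroup.mem_top g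
      rw [MonoidHom.mem_ker] at this
      rw [this, MonoidHom.one_apply]
    rw [← Subgroup.index_eq_one, ← Char.card_monoidHom_complex]
    haveI : Subsingleton (G →* ℂˣ) := ⟨fun a b => (hall a).trans (hall b).symm⟩
    exact Nat.card_unique
  refine
    { prime_five := hp5
      cardP := hcardP
      centP := hcentP
      normP := hPE
      disj := hPE'
      cardNE := hNE
      ti := hTI
      cyclicE := hEcyc
      one_lt := hE1
      dvd := hdvd
      fpf := hfpf
      simple := ⟨fun K hK => ?_⟩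
      perfect := hperf
      uniq := ⟨ψ, hψ, hψu⟩
      index_p := ?_ }
  · haveI := hK
    rcases eq_or_ne K ⊥ with h | h
    · exact Or.inl h
    refine Or.inr ?_
    have hPK := sylow_le_normal hα P K h
    have htop : Subgroup.normalizer ((P : Subgroup G) : Set G) ⊔ K = ⊤ :=
      Sylow.normalizer_sup_eq_top' (N := K) P hPK
    have hle : (Subgroup.normalizer ((P : Subgroup G) : Set G)) ⊔ K ≤ E ⊔ K := by
      rw [← hPE]
      exact sup_le (sup_le (hPK.trans le_sup_right) le_sup_left) le_sup_right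
    have hEK : E ⊔ K = ⊤ := top_le_iff.1 (htop.symm.le.trans hle)
    let q := QuotientGroup.mk' K
    have hab : ∀ a b : G ⧸ K, a * b = b * a := by
      have hsur : ∀ a : G ⧸ K, ∃ e : E, q e = a := by
        intro a
        obtain ⟨g, rfl⟩ := QuotientGroup.mk'_surjective K a
        have hg : g ∈ E ⊔ K := hEK ▸ Subgroup.mem_top g
        obtain ⟨e, he, k, hk, rfl⟩ := Subgroup.mem_sup_of_normal_right.1 hg
        refine ⟨⟨e, he⟩, ?_⟩
        simp [q, hk]
      intro a b
      obtain ⟨e, rfl⟩ := hsur a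
      obtain ⟨e', rfl⟩ := hsur b
      rw [← map_mul, ← map_mul]
      exact congrArg q (congrArg Subtype.val
        ((IsCyclic.commGroup (α := E)).mul_comm e e'))
    rw [eq_top_iff, ← hperf, commutator_def, Subgroup.commutator_le]
    intro a _ b _
    rw [← QuotientGroup.eq_one_iff (N := K)]
    change q ⁅a, b⁆ = 1
    rw [map_commutatorElement, commutatorElement_eq_one_iff_mul_comm]
    exact hab _ _
  · haveI : Nonempty α := by rw [← Fintype.card_pos_iff, hα]; exact hp.pos
    obtain ⟨a⟩ := ‹Nonempty α›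
    refine ⟨stabilizer G a, ?_⟩
    rw [index_stabilizer_of_transitive, Nat.card_eq_fintype_card, hα]

end Cfsg.Agent.FGS75.Tree4724
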