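import Cfsg.Prelude.Def_Blocks
import Mathlib.GroupTheory.Abelianization.Defs
import Mathlib.GroupTheory.Subgroup.Simple

/-!
Shared hypotheses for the theorem on groups of prime degree with one character of degree `p` and a
TI complement.
-/

set_option autoImplicit false

namespace Cfsg.Agent.FGS75.Tree4724

open Cfsg
open scoped Classical

universe u

variable {G : Type u} [Group G]

/-- `g` is conjugate to a nonidentity element of `E`. -/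
def InE (E : Subgroup G) (g : G) : Prop := g ≠ 1 ∧ ∃ h : G, h * g * h⁻¹ ∈ E

/-- The normalized hypotheses. -/
structure Cfg {p : ℕ} (P : Sylow p G) (E : Subgroup G) : Prop where
  prime_five : 5 ≤ p
  cardP : Nat.card P = p
  centP : Subgroup.centralizer ((P : Subgroup G) : Set G) = P
  normP : (P : Subgroup G) ⊔ E = Subgroup.normalizer ((P : Subgroup G) : Set G)
  disj : (P : Subgroup G) ⊓ E = ⊥
  cardNE : Nat.card (Subgroup.normalizer (E : Set G)) = 2 * Nat.card E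
  ti : ∀ g : G, g ∉ Subgroup.normalizer (E : Set G) →
    E ⊓ E.map (MulAut.conj g).toMonoidHom = ⊥
  cyclicE : IsCyclic E
  one_lt : 1 < Nat.card E
  dvd : Nat.card E ∣ p - 1
  fpf : ∀ x ∈ E, x ≠ 1 → ∀ u ∈ (P : Subgroup G), x * u * x⁻¹ = u → u = 1
  simple : IsSimpleGroup G
  perfect : commutator G = ⊤
  uniq : ∃! χ : IrrCharacter G, charDegree (χ : G → ℂ) = p
  index_p : ∃ H : Subgroup G, H.index = p

/-- The exceptional characters of the TI subgroup `E` of odd order, with the character `ψ`. -/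
structure Exc [Fintype G] (p : ℕ) (E : Subgroup G) (ψ : IrrCharacter G)
    (C : Finset (IrrCharacter G)) : Prop where
  card_C : 2 * C.card + 1 = Nat.card E
  psi_deg : (ψ : G → ℂ) 1 = (p : ℂ)
  psi_sing : ∀ g : G, p ∣ orderOf g → (ψ : G → ℂ) g = 0
  psi_E : ∀ x ∈ E, x ≠ 1 → (ψ : G → ℂ) x = 1
  psi_int : ∀ g : G, ∃ s : ℤ, (ψ : G → ℂ) g = (s : ℂ)
  psi_not_mem : ψ ∉ C
  C_deg : ∀ c ∈ C, (c : G → ℂ) 1 = (p : ℂ) + 1
  C_off : ∀ c ∈ C, ∀ g : G, g ≠ 1 → ¬ InE E g → (c : G → ℂ) g = 1 + (ψ : G → ℂ) g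
  C_real : ∀ c ∈ C, ∀ g : G, starRingEnd ℂ ((c : G → ℂ) g) = (c : G → ℂ) g
  C_sum : ∀ x ∈ E, x ≠ 1 → ∑ c ∈ C, (c : G → ℂ) x = -1
  C_E : ∀ c ∈ C, ∑ x : E with x ≠ 1, (c : G → ℂ) (x : G) = -2
  vanish : ∀ χ : IrrCharacter G, (χ : G → ℂ) ≠ (fun _ => 1) → χ ≠ ψ → χ ∉ C →
    ∀ x ∈ E, x ≠ 1 → (χ : G → ℂ) x = 0

/-- The block data: `N` the negative nonexceptional characters, `Y` the exceptional ones. -/
structure Blk [Fintype G] {p : ℕ} (P : Sylow p G) (E : Subgroup G) (ψ : IrrCharacter G)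
    (C N Y : Finset (IrrCharacter G)) : Prop where
  card_N : 2 * N.card + 1 = Nat.card E
  card_Y : Y.card * Nat.card E = p - 1
  disj_CN : Disjoint C N
  disj_CY : Disjoint C Y
  disj_NY : Disjoint N Y
  one_not_mem : ∀ χ : IrrCharacter G, χ ∈ C ∨ χ ∈ N ∨ χ ∈ Y → (χ : G → ℂ) ≠ fun _ => 1
  psi_not_mem : ψ ∉ N ∧ ψ ∉ Y
  N_deg : ∀ χ ∈ N, (χ : G → ℂ) 1 = (p : ℂ) - 1
  N_P : ∀ χ ∈ N, ∀ x ∈ (P : Subgroup G), x ≠ 1 → (χ : G → ℂ) x = -1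
  C_P : ∀ c ∈ C, ∀ x ∈ (P : Subgroup G), x ≠ 1 → (c : G → ℂ) x = 1
  Y_deg : ∀ θ ∈ Y, (θ : G → ℂ) 1 = (Nat.card E : ℂ)
  Y_P : ∀ x ∈ (P : Subgroup G), x ≠ 1 → ∑ θ ∈ Y, (θ : G → ℂ) x = -1
  rel : ∀ θ ∈ Y, ∀ g : G, ¬ p ∣ orderOf g →
    (θ : G → ℂ) g + ∑ χ ∈ N, (χ : G → ℂ) g = 1 + ∑ c ∈ C, (c : G → ℂ) g
  support : ∀ χ : IrrCharacter G, ∀ x ∈ (P : Subgroup G), x ≠ 1 → (χ : G → ℂ) x ≠ 0 →
    (χ : G → ℂ) = (fun _ => 1) ∨ χ ∈ C ∨ χ ∈ N ∨ χ ∈ Y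

end Cfsg.Agent.FGS75.Tree4724
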