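import Cfsg.Agent.FGS75.Tree4724.Defs
import Cfsg.Agent.Brauer.ProjVec
import Cfsg.Agent.BlockCount.CharAlgebra
import Cfsg.Agent.SmallGroups.OrderPBlock
import Cfsg.Agent.BlockVal.RegGen
import Cfsg.Agent.Modules.Fixed

/-!
The principal block of a group with self-centralizing Sylow subgroup of order `p`: values of
idempotents, the support on `P`, and the projective vectors.
-/

set_option autoImplicit false
set_option linter.style.haveILetI false
set_option linter.unusedSectionVars false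

namespace Cfsg.Agent.FGS75.Tree4724

open Cfsg
open Cfsg.Agent.Block (toC toF idemS idemF charLin)
open Cfsg.Agent.Brauer.ProjVec (ev)
open scoped Classical ComplexConjugate

universe u

variable {G : Type u} [Group G] [Fintype G] {p : ℕ} [Fact p.Prime] {P : Sylow p G} {E : Subgroup G}
variable {M : Ideal AlgInt} [M.IsPrime] [CharP (Block.ResF M) p]

/-- A linear relation of characters on `p`-regular elements holds at idempotents. -/
theorem ev_sum_eq_zero_of_regular (hM : IsPModular p M)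
    {ε : MonoidAlgebra (Block.localRing M) G} (hε : ε * ε = ε) (w : IrrCharacter G → ℂ)
    (hw : ∀ g : G, ¬ p ∣ orderOf g → ∑ χ : IrrCharacter G, w χ * (χ : G → ℂ) g = 0) :
    ∑ χ : IrrCharacter G, w χ * ev (χ : G → ℂ) ε = 0 := by
  set F : G → ℂ := fun g => ∑ χ : IrrCharacter G, w χ * (χ : G → ℂ) g with hF
  have h1 : ∑ g : G, F g *
      conj (∑ ξ : IrrCharacter G, conj (ev (ξ : G → ℂ) ε) * (ξ : G → ℂ) g) = 0 := by
    refine Finset.sum_eq_zero fun g _ => ?_
    by_cases hg : p ∣ orderOf g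
    · refine mul_eq_zero_of_right _ ?_
      rw [map_sum, ← BlockCount.CharAlg.sum_ev_mul_eq_zero hM hε hg]
      exact Finset.sum_congr rfl fun ξ _ => by rw [map_mul, Complex.conj_conj]
    · exact mul_eq_zero_of_left (hw g hg) _
  have h2 := Char.sum_mul_conj_eq_card_mul_classInner F
    (∑ ξ : IrrCharacter G, conj (ev (ξ : G → ℂ) ε) • (ξ : G → ℂ))
  have e1 : F = ∑ χ : IrrCharacter G, w χ • (χ : G → ℂ) := by
    funext g
    simp [hF, Finset.sum_apply]
  have e2 : ∀ g, (∑ ξ : IrrCharacter G, conj (ev (ξ : G → ℂ) ε) • (ξ : G → ℂ)) g =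
      ∑ ξ : IrrCharacter G, conj (ev (ξ : G → ℂ) ε) * (ξ : G → ℂ) g := fun g => by
    simp [Finset.sum_apply]
  simp only [e2] at h2
  rw [h1] at h2
  have h3 := (mul_eq_zero.1 h2.symm).resolve_left Char.card_ne_zero_complex
  rw [← h3, Char.classInner_sum_right, e1]
  refine Finset.sum_congr rfl fun ξ _ => ?_
  rw [Char.classInner_smul_right, Char.classInner_sum_smul_irr, Complex.conj_conj, mul_comm]

theorem Cfg.le_normalizer (h : Cfg P E) :
    E ≤ Subgroup.normalizer ((P : Subgroup G) : Set G) :=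
  le_of_le_of_eq le_sup_right h.normP

theorem Cfg.card_normalizer (h : Cfg P E) :
    Nat.card (Subgroup.normalizer ((P : Subgroup G) : Set G)) = p * Nat.card E := by
  have h1 := Modules.card_sup_mul_card_inf (V := (P : Subgroup G)) (B := E) h.le_normalizer
  rw [sup_comm, h.normP, inf_comm, h.disj, Subgroup.card_bot, mul_one] at h1
  rw [h1, h.cardP, mul_comm]

theorem Cfg.relIndex_eq (h : Cfg P E) :
    (Subgroup.centralizer ((P : Subgroup G) : Set G)).relIndex
      (Subgroup.normalizer ((P : Subgroup G) : Set G)) = Nat.card E := by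
  rw [h.centP]
  have h1 := Modules.card_mul_relIndex_of_le
    (Subgroup.le_normalizer (H := (P : Subgroup G)))
  rw [h.cardP, h.card_normalizer] at h1
  exact Nat.eq_of_mul_eq_mul_left (Fact.out : p.Prime).pos h1

theorem Cfg.centralizer_singleton (h : Cfg P E) {x : G} (hx : x ∈ (P : Subgroup G)) (hx1 : x ≠ 1) :
    Subgroup.centralizer ({x} : Set G) = (P : Subgroup G) := by
  rw [Brauer.OrderP.centralizer_eq P h.cardP hx hx1, h.centP]

/-- A character not in the principal block vanishes on `P`. -/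
theorem Cfg.mem_principal_of_ne_zero (h : Cfg P E) (hM : IsPModular p M) {x : G}
    (hx : x ∈ (P : Subgroup G)) (hx1 : x ≠ 1) (χ : IrrCharacter G) (hne : (χ : G → ℂ) x ≠ 0) :
    χ ∈ principalBlock M G := by
  by_contra hB
  have ho : orderOf x = p := ((Nat.dvd_prime (Fact.out : p.Prime)).1
    (h.cardP ▸ Subgroup.orderOf_dvd_natCard _ hx)).resolve_left (by simpa using hx1)
  have hu : (P : Subgroup G) = Subgroup.zpowers x :=
    (Brauer.OrderP.zpowers_eq P h.cardP hx hx1).symm
  obtain ⟨θ, hθ, -⟩ := Brauer.OrderP.exists_action P ho hu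
  have h1 := Brauer.OrderP.column_inner hM P h.cardP ho hu hθ 1 1
  rw [inv_one, one_mul, if_pos (one_mem _), Units.val_one, Brauer.OrderP.gpow_one ho] at h1
  have h2 := Char.sum_irr_mul_conj x x
  rw [if_pos (IsConj.refl x), h.centralizer_singleton hx hx1,
    show Nat.card ((P : Subgroup G)) = p from h.cardP,
    ← Finset.sum_filter_add_sum_filter_not Finset.univ (· ∈ principalBlock M G), h1,
    add_eq_left] at h2
  have h3 : ∀ ψ : IrrCharacter G, (ψ : G → ℂ) x * conj ((ψ : G → ℂ) x) =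
      ((Complex.normSq ((ψ : G → ℂ) x) : ℝ) : ℂ) := fun ψ => by rw [Complex.mul_conj]
  rw [Finset.sum_congr rfl fun ψ _ => h3 ψ, ← Complex.ofReal_sum, Complex.ofReal_eq_zero,
    Finset.sum_eq_zero_iff_of_nonneg fun ψ _ => Complex.normSq_nonneg _] at h2
  exact hne (Complex.normSq_eq_zero.1 (h2 χ (Finset.mem_filter.2 ⟨Finset.mem_univ _, hB⟩)))

/-- The value vector of an idempotent of a block at equivalent primitive idempotents. -/
theorem equivalent_of_values (hM : IsPModular p M) {B : Set (IrrCharacter G)} (hB : IsPBlock M B)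
    {r : ℕ} {d : Fin r → IrrCharacter G → ℕ} {e : Fin r → MonoidAlgebra (Block.localRing M) G}
    (he : ∀ j, IsIdempotentElem (e j)) (hprim : ∀ j, Brauer.PrimIdem.IsPrim (toF M (e j)))
    (hev : ∀ j (χ : IrrCharacter G), ev (χ : G → ℂ) (e j) = d j χ)
    (hind : ∀ n : Fin r → ℤ, (∀ χ, ∑ j, n j * (d j χ : ℤ) = 0) → n = 0)
    (hgen : ∀ f, IsIdempotentElem f → idemS M B * f = f → ∃ c : Fin r → ℕ,
      ∀ χ : IrrCharacter G, ev (χ : G → ℂ) f = ∑ j, (c j : ℂ) * d j χ)
    {χ : IrrCharacter G} (hχ : χ ∈ B) {j0 : Fin r} (hj0 : d j0 χ = 1)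
    (hother : ∀ j, j ≠ j0 → d j χ = 0)
    (hle : ∀ g : MonoidAlgebra (Block.localRing M) G, IsIdempotentElem g →
      Brauer.PrimIdem.IsPrim (toF M g) → ∀ n : ℕ, ev (χ : G → ℂ) g = n → n ≤ 1)
    {f : MonoidAlgebra (Block.localRing M) G} (hf : IsIdempotentElem f)
    (hfp : Brauer.PrimIdem.IsPrim (toF M f)) (hf0 : ev (χ : G → ℂ) f ≠ 0) :
    Brauer.PrimIdem.Equivalent (toF M (e j0)) (toF M f) := by
  haveI : IsAlgClosed (Block.ResF M) := Brauer.isAlgClosed_resF hM.2.1
  have hirr : ∀ ψ : IrrCharacter G, IsCharacter G (ψ : G → ℂ) :=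
    fun ψ => Char.isCharacter_of_irr ψ.2
  have hc := Block.isCentralElt_commute (Block.idemS_isCentralElt (M := M) B)
  set f2 := idemS M B * f with hf2
  have hf2i : IsIdempotentElem f2 :=
    IsIdempotentElem.mul_of_commute (hc f) (Block.idemS_mul_self hB) hf
  have hf2F : toF M f2 = toF M f := by
    have hcF := Block.isCentralElt_commute (Block.idemF_isCentralElt (M := M) B)
    have hi : IsIdempotentElem (idemF M B * toF M f) :=
      IsIdempotentElem.mul_of_commute (hcF _) (Block.idemF_mul_self hB) (hf.map (toF M))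
    have hb : Brauer.PrimIdem.Below (idemF M B * toF M f) (toF M f) :=
      ⟨by rw [← mul_assoc, ← (hcF (toF M f)), mul_assoc, (hf.map (toF M)).eq],
        by rw [mul_assoc, (hf.map (toF M)).eq]⟩
    rcases hfp.2.2 _ hi hb with h0 | h0
    · exfalso
      refine hf0 ?_
      have e1 := Brauer.ProjVec.ev_idemS_mul (M := M) hB χ f
      rw [if_pos hχ] at e1
      rw [← e1, Brauer.ProjVec.ev_eq_of_toF_eq hf2i IsIdempotentElem.zero
        (by rw [map_mul, map_zero]; exact h0) (hirr χ), map_zero]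
    · rw [hf2, map_mul]; exact h0
  obtain ⟨c, hcv⟩ := hgen f2 hf2i (by rw [hf2, ← mul_assoc, Block.idemS_mul_self hB])
  have hχc : ev (χ : G → ℂ) f2 = (c j0 : ℂ) := by
    rw [hcv, Finset.sum_eq_single j0 (fun j _ hj => by rw [hother j hj]; simp) (by simp), hj0]
    simp
  have hc1 : c j0 = 1 := by
    have h1 := hle f2 hf2i (hf2F ▸ hfp) (c j0) hχc
    have h2 : c j0 ≠ 0 := fun h0 => hf0 (by
      rw [← Brauer.ProjVec.ev_eq_of_toF_eq hf2i hf hf2F (hirr χ), hχc, h0, Nat.cast_zero])
    omega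
  obtain ⟨τ, hτs, hτ1, hτ2⟩ := Brauer.PrimIdem.exists_traceFun (Block.ResF M) (hprim j0)
  have hzero : ∀ i, i ≠ j0 → τ (toF M (e i)) = 0 := by
    intro i hi
    by_contra hne
    have heq := hτ2 _ (hprim i) 1 (by rwa [one_mul])
    have hsame : ∀ ψ : IrrCharacter G, d j0 ψ = d i ψ := fun ψ => by
      have := Brauer.ProjVec.ev_eq_of_equivalent (he j0) (he i) heq (hirr ψ)
      rw [hev, hev] at this
      exact_mod_cast this
    have := congrFun (hind (Pi.single i 1 - Pi.single j0 1) fun ψ => by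
      simp [sub_mul, Finset.sum_sub_distrib, Pi.single_apply, hsame ψ]) i
    simp [hi] at this
  set z := f2 - ∑ i, (c i : ℤ) • e i with hz
  have hz0 : ∀ ψ : IrrCharacter G, ev (ψ : G → ℂ) z = 0 := fun ψ => by
    rw [hz, map_sub, map_sum, hcv, sub_eq_zero]
    exact Finset.sum_congr rfl fun i _ => by rw [map_zsmul, hev, zsmul_eq_mul]; push_cast; ring
  have h0 := Brauer.ProjVec.map_toF_eq_zero z hz0 τ hτs
  rw [hz, map_sub, map_sum, map_sub, map_sum, sub_eq_zero, hf2F,
    Finset.sum_eq_single j0 (fun i _ hi => by rw [map_zsmul, map_zsmul, hzero i hi, smul_zero])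
      (by simp), map_zsmul, map_zsmul, hτ1, hc1, Nat.cast_one, one_smul] at h0
  exact hτ2 _ hfp 1 (by rw [one_mul, h0]; exact one_ne_zero)

end Cfsg.Agent.FGS75.Tree4724
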