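import Cfsg.Agent.FGS75.Tree4724.Defs
import Cfsg.Agent.S0806
import Cfsg.Agent.S0996
import Cfsg.Agent.Linear.SmallIso

/-!
The identification of the group once the number of Sylow `p`-subgroups is `p + 1`.
-/

set_option autoImplicit false
set_option linter.style.haveILetI false

namespace Cfsg.Agent.FGS75.Tree4724

open Cfsg
open scoped Classical

universe u

variable {G : Type u} [Group G] [Fintype G] {p : ℕ} [Fact p.Prime] {P : Sylow p G} {E : Subgroup G}

set_option linter.unusedVariables false in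
theorem concl_of_order (h : Cfg P E) (he : 2 * Nat.card E + 1 = p) (hn : Nat.card (Sylow p G) = p + 1) :
    (p = 5 ∨ p = 7 ∨ p = 11) ∧ ∃ (F : Type) (_ : Field F) (_ : Fintype F), Fintype.card F = p ∧
      Nonempty (G ≃* Matrix.ProjectiveSpecialLinearGroup (Fin 2) F) := by
  have hp : p.Prime := Fact.out
  have h5 := h.prime_five
  -- a generator of `P`
  haveI : IsCyclic (P : Subgroup G) := isCyclic_of_prime_card h.cardP
  obtain ⟨⟨z, hzP⟩, hzgen⟩ := IsCyclic.exists_generator (α := (P : Subgroup G))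
  have hzP' : Subgroup.zpowers z = (P : Subgroup G) := by
    refine le_antisymm (Subgroup.zpowers_le.2 hzP) fun x hx => ?_
    obtain ⟨i, hi⟩ := hzgen ⟨x, hx⟩
    exact ⟨i, congrArg Subtype.val hi⟩
  have hz : orderOf z = p := by rw [← Nat.card_zpowers, hzP', h.cardP]
  have hC : Subgroup.centralizer ({z} : Set G) = Subgroup.zpowers z := by
    conv_rhs => rw [hzP', ← h.centP, ← hzP', Subgroup.zpowers_eq_closure,
      Subgroup.centralizer_closure]
  have hiso : ∃ (F : Type) (_ : Field F) (_ : Fintype F), Fintype.card F = p ∧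
      Nonempty (G ≃* Matrix.ProjectiveSpecialLinearGroup (Fin 2) F) := by
    rcases Cfsg.Agent.S0996.result h.perfect p z hz hC (by rw [hn]; nlinarith) with
      ⟨F, i1, i2, hF, -, he'⟩ | ⟨m, F, i1, i2, hF, hpm, -, ⟨e⟩⟩
    · exact ⟨F, i1, i2, hF, he'⟩
    · have hm : m ≠ 0 := by rintro rfl; simp at hpm; omega
      have heven : Even (Fintype.card F) := hF ▸ (Nat.even_pow.2 ⟨even_two, hm⟩)
      have hcardG : Nat.card G = 2 ^ m * (2 ^ m - 1) * (2 ^ m + 1) := by
        rw [Nat.card_congr e.toEquiv, Linear.card_PSL_two_of_even heven, hF]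
      have hd : p + 1 ∣ 2 ^ m * (2 ^ m - 1) * (2 ^ m + 1) := by
        rw [← hcardG, ← hn, P.card_eq_index_normalizer]
        exact Subgroup.index_dvd_card _
      have hq : 2 ^ m = 4 := by
        have h4 : 4 ≤ 2 ^ m := by omega
        rw [hpm] at hd
        generalize 2 ^ m = q at hd h4
        have hz' : ((q + 1 + 1 : ℕ) : ℤ) ∣ ((q * (q - 1) * (q + 1) : ℕ) : ℤ) := Int.natCast_dvd_natCast.2 hd
        push_cast [Nat.cast_sub (show 1 ≤ q by omega)] at hz'
        have h6 : ((q : ℤ) + 1 + 1) ∣ 6 := by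
          have := dvd_sub (dvd_mul_right ((q : ℤ) + 1 + 1) ((q : ℤ) ^ 2 - 2 * q + 3)) hz'
          ring_nf at this ⊢
          exact this
        have := Int.le_of_dvd (by norm_num) h6
        omega
      obtain ⟨a⟩ := Linear.psl_two_four_iso (hF.trans hq)
      haveI : Fact (Nat.Prime 5) := ⟨by norm_num⟩
      obtain ⟨b⟩ := Linear.psl_two_five_iso (F := ZMod 5) (ZMod.card 5)
      exact ⟨ZMod 5, inferInstance, inferInstance, by rw [ZMod.card, hpm, hq],
        ⟨(e.trans a).trans b.symm⟩⟩
  refine ⟨?_, hiso⟩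
  obtain ⟨F, i1, i2, hF, ⟨e⟩⟩ := hiso
  obtain ⟨H, hH⟩ := h.index_p
  by_contra hne
  have hq : p ∉ ({2, 3, 5, 7, 9, 11} : Finset ℕ) := by
    simp only [Finset.mem_insert, Finset.mem_singleton]
    intro hc
    rcases hc with rfl | rfl | rfl | rfl | rfl | rfl <;> simp at hne h5
    exact absurd hp (by norm_num)
  have hidx : (H.map (e : G →* Matrix.ProjectiveSpecialLinearGroup (Fin 2) F)).index = p := by
    rw [Subgroup.index_map_equiv, hH]
  have hne' : H.map (e : G →* Matrix.ProjectiveSpecialLinearGroup (Fin 2) F) ≠ ⊤ := fun ht => by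
    rw [ht, Subgroup.index_top] at hidx
    exact hp.ne_one hidx.symm
  have hge := (Cfsg.Agent.S0806.result hF hq).1 _ hne'
  rw [hidx] at hge
  omega

end Cfsg.Agent.FGS75.Tree4724
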