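import Cfsg.Agent.FGS75.Tree4724.Defs
import Cfsg.Agent.BSWall.CharMain
import Cfsg.Agent.BSWall.Small
import Cfsg.Agent.TwoFusion.TransferControl
import Cfsg.Agent.Invol.IndexTwo

/-!
The case of a TI complement `E` of even order: `C(z) = N(E)` is dihedral for the involution `z` of
`E`, there is one class of involutions, and the Brauer–Suzuki–Wall configuration gives the order.
-/

set_option autoImplicit false

namespace Cfsg.Agent.FGS75.Tree4724

open Cfsg
open scoped Classical commutatorElement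

set_option linter.unusedSectionVars false
set_option linter.style.haveILetI false

universe u

variable {G : Type u} [Group G] [Fintype G] {p : ℕ} [Fact p.Prime] {P : Sylow p G} {E : Subgroup G}

local notation "NE" => Subgroup.normalizer (E : Set G)

private theorem no_index_two (h : Cfg P E) (H : Subgroup G) : H.index ≠ 2 := by
  intro hH
  have hle : ∀ g : G, g ∈ H := by
    intro g
    have hg : g ∈ commutator G := h.perfect ▸ Subgroup.mem_top g
    revert g
    suffices commutator G ≤ H from fun g hg => this hg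
    rw [commutator_def, Subgroup.commutator_le]
    intro a _ b _
    rw [commutatorElement_def]
    simp only [Subgroup.mul_mem_iff_of_index_two hH, inv_mem_iff]
    tauto
  rw [(Subgroup.eq_top_iff' H).2 hle, Subgroup.index_top] at hH
  omega

private theorem index_E_in_N (h : Cfg P E) : (E.subgroupOf NE).index = 2 := by
  have h1 := (E.subgroupOf NE).card_mul_index
  rw [Nat.card_congr (Subgroup.subgroupOfEquivOfLe (Subgroup.le_normalizer (H := E))).toEquiv,
    h.cardNE, mul_comm 2] at h1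
  exact Nat.eq_of_mul_eq_mul_left Nat.card_pos h1

private theorem mul_mem_E (h : Cfg P E) {a b : G} (ha : a ∈ NE) (hb : b ∈ NE) :
    a * b ∈ E ↔ (a ∈ E ↔ b ∈ E) :=
  Subgroup.mul_mem_iff_of_index_two (index_E_in_N h) (a := ⟨a, ha⟩) (b := ⟨b, hb⟩)

private theorem sq_mem (h : Cfg P E) {a : G} (ha : a ∈ NE) : a * a ∈ E :=
  (mul_mem_E h ha ha).2 Iff.rfl

private theorem mem_N_of (h : Cfg P E) {g x : G} (hx : x ∈ E) (hx1 : x ≠ 1)
    (hgx : g⁻¹ * x * g ∈ E) : g ∈ NE := by
  by_contra hg
  have h1 : x ∈ E ⊓ E.map (MulAut.conj g).toMonoidHom := ⟨hx, g⁻¹ * x * g, hgx, by simp [mul_assoc]⟩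
  rw [h.ti g hg, Subgroup.mem_bot] at h1
  exact hx1 h1

private theorem conj_mem_E {g x : G} (hg : g ∈ NE) (hx : x ∈ E) : g * x * g⁻¹ ∈ E :=
  ((Subgroup.mem_normalizer_iff.1 hg) x).1 hx

private theorem comm_E (h : Cfg P E) {a b : G} (ha : a ∈ E) (hb : b ∈ E) : a * b = b * a := by
  haveI := h.cyclicE
  let _ : CommGroup E := IsCyclic.commGroup
  exact congrArg Subtype.val (mul_comm (⟨a, ha⟩ : E) ⟨b, hb⟩)

private theorem index_mod {r : ℕ} [Fact r.Prime] {x : G} {j : ℕ}
    (hx : orderOf x = r ^ j) (hxN : x ∈ NE) (hfix : ∀ g : G, g⁻¹ * x * g ∈ NE → g ∈ NE) :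
    (NE).index % r = 1 := by
  have hQ : IsPGroup r ↥(Subgroup.zpowers x) := IsPGroup.of_card (n := j) (by
    rw [Nat.card_zpowers, hx])
  have hm := hQ.card_modEq_card_fixedPoints (G ⧸ NE)
  have hf : MulAction.fixedPoints ↥(Subgroup.zpowers x) (G ⧸ NE) = {((1 : G) : G ⧸ NE)} := by
    ext q
    induction q using QuotientGroup.induction_on with
    | _ g =>
      rw [MulAction.mem_fixedPoints, Set.mem_singleton_iff]
      constructor
      · intro hq
        have h1 : ((x * g : G) : G ⧸ NE) = (g : G ⧸ NE) := hq ⟨x, Subgroup.mem_zpowers x⟩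
        rw [QuotientGroup.eq] at h1
        refine QuotientGroup.eq.2 ?_
        have h2 : g⁻¹ * x * g ∈ NE := by
          have := (NE).inv_mem h1
          simpa [mul_assoc] using this
        simpa using hfix g h2
      · intro hq y
        have hg : g ∈ NE := by simpa using QuotientGroup.eq.1 hq
        have hy : (y : G) ∈ NE := (Subgroup.zpowers_le.2 hxN) y.2
        refine QuotientGroup.eq.2 ?_
        exact mul_mem ((NE).inv_mem (mul_mem hy hg)) hg
  rw [hf] at hm
  have h1 : (NE).index % r = 1 % r := by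
    rw [Subgroup.index]
    simpa [Nat.ModEq] using hm
  rw [h1, Nat.mod_eq_of_lt (Fact.out : r.Prime).one_lt]

private theorem index_odd (h : Cfg P E) {a : G} (ha : a ∈ NE) (ha4 : orderOf a = 4) :
    (NE).index % 2 = 1 := by
  haveI : Fact (Nat.Prime 2) := ⟨Nat.prime_two⟩
  refine index_mod (j := 2) (by rw [ha4]; rfl) ha fun g hg => ?_
  have h2 : a * a ≠ 1 := fun e => by
    have := orderOf_dvd_of_pow_eq_one (show a ^ 2 = 1 by rw [pow_two, e])
    rw [ha4] at this; omega
  refine mem_N_of h (sq_mem h ha) h2 ?_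
  have := sq_mem h hg
  simpa [mul_assoc] using this

private theorem transfer_two (h : Cfg P E) {a : G} (ha : a ∈ NE) (ha4 : orderOf a = 4)
    (M : Subgroup ↥NE) (hM : M.index = 2) (hinv : ∀ x : ↥NE, x * x = 1 → x ∈ M) : False := by
  have hmul : ∀ x y : ↥NE, x * y ∈ M ↔ (x ∈ M ↔ y ∈ M) := fun x y =>
    Subgroup.mul_mem_iff_of_index_two hM
  let φ : ↥NE →* ℤˣ := MonoidHom.mk' (fun x => if x ∈ M then 1 else -1) fun x y => by
    by_cases hx : x ∈ M <;> by_cases hy : y ∈ M <;> simp [hmul, hx, hy]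
  have hφ1 : ∀ x : ↥NE, x * x = 1 → φ x = 1 := fun x hx => if_pos (hinv x hx)
  obtain ⟨g, hg⟩ : ∃ g : ↥NE, g ∉ M := by
    by_contra! hc
    rw [(Subgroup.eq_top_iff' M).2 hc, Subgroup.index_top] at hM
    omega
  have hval := TwoFusion.transfer_eq_pow_of_control φ (g : G) g.2 fun k g₀ hk => by
    have hh : (g : G) ^ k ∈ NE := pow_mem g.2 k
    rw [← map_pow]
    by_cases hs : (g : G) ^ k * (g : G) ^ k = 1
    · rw [hφ1 _ (Subtype.ext (by
        show (g₀⁻¹ * (g : G) ^ k * g₀) * (g₀⁻¹ * (g : G) ^ k * g₀) = 1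
        simpa [mul_assoc] using congrArg (fun t => g₀⁻¹ * t * g₀) hs)),
        hφ1 _ (Subtype.ext (by simpa using hs))]
    · have hg₀ : g₀ ∈ NE := mem_N_of h (sq_mem h hh) hs (by
        have := sq_mem h hk
        simpa [mul_assoc] using this)
      have e : (⟨g₀⁻¹ * (g : G) ^ k * g₀, hk⟩ : ↥NE) = (⟨g₀, hg₀⟩ : ↥NE)⁻¹ * g ^ k * ⟨g₀, hg₀⟩ :=
        Subtype.ext (by simp)
      rw [e, map_mul, map_mul, map_inv, mul_comm, ← mul_assoc, mul_inv_cancel, one_mul]
  have htr : MonoidHom.transfer φ (g : G) = 1 := by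
    have hm : (g : G) ∈ commutator G := h.perfect ▸ Subgroup.mem_top _
    exact Abelianization.commutator_subset_ker _ hm
  rw [htr, show φ ⟨(g : G), g.2⟩ = -1 from if_neg hg,
    Odd.neg_one_pow (Nat.odd_iff.2 (index_odd h ha ha4))] at hval
  exact absurd hval (by decide)

private theorem exists_order_four {g : G} {j : ℕ} (hg : orderOf g = 2 ^ (j + 2)) :
    orderOf (g ^ (2 ^ j)) = 4 := by
  rw [orderOf_pow' g (pow_ne_zero j two_ne_zero), hg, Nat.gcd_eq_right (pow_dvd_pow 2 (by omega)),
    pow_add, Nat.mul_div_cancel_left _ (pow_pos two_pos j)]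
  rfl

private theorem unique_invol (h : Cfg P E) {x y : G} (hx : x ∈ E) (hy : y ∈ E)
    (hx2 : orderOf x = 2) (hy2 : orderOf y = 2) : x = y := by
  haveI := h.cyclicE
  have hd : 2 ∣ Nat.card E := hx2 ▸ Subgroup.orderOf_dvd_natCard E hx
  have hc := IsCyclic.card_orderOf_eq_totient (α := E) (d := 2)
    (by rw [← Nat.card_eq_fintype_card]; exact hd)
  rw [Nat.totient_two] at hc
  have := Finset.card_le_one.1 hc.le (⟨x, hx⟩ : E) (Finset.mem_filter.2 ⟨Finset.mem_univ _, by rw [← Subgroup.orderOf_coe]; exact hx2⟩)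
    (⟨y, hy⟩ : E) (Finset.mem_filter.2 ⟨Finset.mem_univ _, by rw [← Subgroup.orderOf_coe]; exact hy2⟩)
  exact congrArg Subtype.val this

private theorem centralizer_eq (h : Cfg P E) {z : G} (hz : z ∈ E) (hz2 : orderOf z = 2) :
    Subgroup.centralizer ({z} : Set G) = NE := by
  have hz1 : z ≠ 1 := Invol.inv_ne_one hz2
  refine le_antisymm (fun g hg => ?_) fun g hg => ?_
  · rw [Subgroup.mem_centralizer_singleton_iff] at hg
    refine mem_N_of h hz hz1 ?_
    rw [show g⁻¹ * z * g = z by rw [mul_assoc, ← hg, inv_mul_cancel_left]]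
    exact hz
  · rw [Subgroup.mem_centralizer_singleton_iff]
    exact mul_inv_eq_iff_eq_mul.1
      (unique_invol h (conj_mem_E hg hz) hz (by rw [Invol.orderOf_conj, hz2]) hz2)

private theorem exists_outer_invol (h : Cfg P E) {z : G} (hz : z ∈ E) (hz2 : orderOf z = 2) :
    ∃ w : G, w ∈ NE ∧ w ∉ E ∧ orderOf w = 2 := by
  haveI : Fact (Nat.Prime 2) := ⟨Nat.prime_two⟩
  by_contra! hno
  obtain ⟨g, hg⟩ : ∃ g : ↥NE, g ∉ E.subgroupOf NE := by
    by_contra! hc
    have h2 := index_E_in_N h
    rw [(Subgroup.eq_top_iff' _).2 hc, Subgroup.index_top] at h2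
    omega
  obtain ⟨k, m, hm, hkm⟩ := Nat.exists_eq_pow_mul_and_not_dvd (orderOf_pos (g : G)).ne' 2 (by norm_num)
  have hodd : Odd m := Nat.not_even_iff_odd.1 fun he => hm he.two_dvd
  have hu : (g : G) ^ m ∉ E := by
    obtain ⟨i, hi⟩ := hodd
    intro hmem
    have h2 : ((g : G) ^ i) * ((g : G) ^ i) ∈ E := sq_mem h (pow_mem g.2 i)
    rw [hi, pow_succ, two_mul, pow_add] at hmem
    exact hg ((E.mul_mem_cancel_left h2).1 hmem)
  have huN : (g : G) ^ m ∈ NE := pow_mem g.2 m
  have hord : orderOf ((g : G) ^ m) = 2 ^ k := by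
    rw [orderOf_pow' _ (by rintro rfl; exact hm (dvd_zero 2)), hkm, Nat.gcd_mul_left_left,
      Nat.mul_div_cancel _ (Nat.pos_of_ne_zero (by rintro rfl; exact hm (dvd_zero 2)))]
  match k with
  | 0 =>
    rw [pow_zero, orderOf_eq_one_iff] at hord
    exact hu (by rw [hord]; exact one_mem E)
  | 1 => exact hno _ huN hu (by simpa using hord)
  | j + 2 =>
    refine transfer_two h (pow_mem huN (2 ^ j)) (exists_order_four hord) _ (index_E_in_N h)
      fun x hx => ?_
    show (x : G) ∈ E
    by_contra hxE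
    refine hno _ x.2 hxE (Invol.orderOf_eq_two (congrArg Subtype.val hx) fun e => hxE ?_)
    rw [e]; exact one_mem E

private theorem inverts_odd (h : Cfg P E) {w x : G} (hw : w ∈ NE) (hwE : w ∉ E)
    (hx : x ∈ E) (hodd : Odd (orderOf x)) : w * x * w⁻¹ = x⁻¹ := by
  -- transfer into the abelianization of `N(E)`
  let φ : ↥NE →* Abelianization ↥NE := Abelianization.of
  have hxN : x ∈ NE := Subgroup.le_normalizer hx
  have hodd_mem : ∀ y ∈ NE, Odd (orderOf y) → y ∈ E := by
    intro y hy ⟨i, hi⟩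
    have h1 := pow_orderOf_eq_one y
    rw [hi, pow_succ, two_mul, pow_add] at h1
    have h2 := sq_mem h (pow_mem hy i)
    exact (E.mul_mem_cancel_left h2).1 (h1 ▸ one_mem E)
  have hval := TwoFusion.transfer_eq_pow_of_control φ x hxN fun k g₀ hk => by
    rw [← map_pow]
    by_cases hxk : x ^ k = 1
    · congr 1
      exact Subtype.ext (by simp [hxk])
    · have hy : g₀⁻¹ * x ^ k * g₀ ∈ E := by
        refine hodd_mem _ hk ?_
        have e : g₀⁻¹ * x ^ k * g₀ = g₀⁻¹ * x ^ k * (g₀⁻¹)⁻¹ := by rw [inv_inv]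
        rw [e, Invol.orderOf_conj]
        exact hodd.of_dvd_nat (orderOf_pow_dvd k)
      have hg₀ : g₀ ∈ NE := mem_N_of h (pow_mem hx k) hxk hy
      have e : (⟨g₀⁻¹ * x ^ k * g₀, hk⟩ : ↥NE) = (⟨g₀, hg₀⟩ : ↥NE)⁻¹ * ⟨x, hxN⟩ ^ k * ⟨g₀, hg₀⟩ :=
        Subtype.ext (by simp)
      rw [e, map_mul, map_mul, map_inv, mul_comm, ← mul_assoc, mul_inv_cancel, one_mul]
  have htr : MonoidHom.transfer φ x = 1 :=
    Abelianization.commutator_subset_ker _ (h.perfect ▸ Subgroup.mem_top x)
  have hcop : (NE).index.Coprime (orderOf x) := by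
    refine Nat.coprime_of_dvd fun r hr hri hrx => ?_
    haveI : Fact r.Prime := ⟨hr⟩
    have hy : orderOf (x ^ (orderOf x / r)) = r :=
      orderOf_pow_orderOf_div (orderOf_pos x).ne' hrx
    have hro : Odd r := hodd.of_dvd_nat hrx
    have hmod := index_mod (E := E) (r := r) (j := 1) (x := x ^ (orderOf x / r))
      (by rw [hy, pow_one]) (pow_mem hxN _) fun g hg => by
        refine mem_N_of h (pow_mem hx _) (fun e => ?_) (hodd_mem _ hg ?_)
        · rw [e, orderOf_one] at hy
          exact hr.ne_one hy.symm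
        · have e : g⁻¹ * x ^ (orderOf x / r) * g = g⁻¹ * x ^ (orderOf x / r) * (g⁻¹)⁻¹ := by
            rw [inv_inv]
          rw [e, Invol.orderOf_conj, hy]
          exact hro
    rw [Nat.mod_eq_zero_of_dvd hri] at hmod
    omega
  have h1 : φ ⟨x, hxN⟩ = 1 := by
    have ho : φ ⟨x, hxN⟩ ^ orderOf x = 1 := by
      rw [← map_pow, show (⟨x, hxN⟩ : ↥NE) ^ orderOf x = 1 from
        Subtype.ext (by simp [pow_orderOf_eq_one]), map_one]
    have := pow_gcd_eq_one.2 ⟨(htr ▸ hval).symm, ho⟩
    rwa [hcop.gcd_eq_one, pow_one] at this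
  have hmem : (⟨x, hxN⟩ : ↥NE) ∈ commutator ↥NE := by
    rw [← Abelianization.ker_of]; exact h1
  let I : Subgroup ↥NE :=
    { carrier := {y | (y : G) ∈ E ∧ w * y * w⁻¹ = (y : G)⁻¹}
      one_mem' := by simp
      mul_mem' := by
        rintro a b ⟨ha, ha'⟩ ⟨hb, hb'⟩
        refine ⟨mul_mem ha hb, ?_⟩
        show w * ((a : G) * b) * w⁻¹ = ((a : G) * b)⁻¹
        rw [show w * ((a : G) * b) * w⁻¹ = (w * a * w⁻¹) * (w * b * w⁻¹) by simp [mul_assoc],
          ha', hb', ← mul_inv_rev, comm_E h hb ha]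
      inv_mem' := by
        rintro a ⟨ha, ha'⟩
        refine ⟨inv_mem ha, ?_⟩
        show w * (a : G)⁻¹ * w⁻¹ = (a : G)⁻¹⁻¹
        rw [show w * (a : G)⁻¹ * w⁻¹ = (w * (a : G) * w⁻¹)⁻¹ by simp [mul_assoc], ha'] }
  have hI : commutator ↥NE ≤ I := by
    rw [commutator_def, Subgroup.commutator_le]
    -- the action of every element outside `E` is that of `w`
    have hact : ∀ v : G, v ∈ NE → v ∉ E → ∀ a ∈ E, v * a * v⁻¹ = w * a * w⁻¹ := by
      intro v hv hvE a ha
      have hwi : w⁻¹ * v ∈ E :=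
        (mul_mem_E h (inv_mem hw) hv).2 (by simp [hwE, hvE])
      have hc := comm_E h hwi ha
      calc v * a * v⁻¹ = w * ((w⁻¹ * v) * a) * (w⁻¹ * v)⁻¹ * w⁻¹ := by simp [mul_assoc]
        _ = w * a * w⁻¹ := by rw [hc]; simp [mul_assoc]
    have hww : ∀ a ∈ E, w * (w * a * w⁻¹) * w⁻¹ = a := by
      intro a ha
      calc w * (w * a * w⁻¹) * w⁻¹ = (w * w) * a * (w * w)⁻¹ := by simp [mul_assoc]
        _ = a := by rw [comm_E h (sq_mem h hw) ha, mul_inv_cancel_right]
    -- `[a, v] ∈ I` for `a ∈ E`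
    have hbase : ∀ a v : ↥NE, (a : G) ∈ E → ⁅a, v⁆ ∈ I := by
      intro a v ha
      by_cases hv : (v : G) ∈ E
      · have : ⁅a, v⁆ = 1 := commutatorElement_eq_one_iff_mul_comm.2
          (Subtype.ext (comm_E h ha hv))
        rw [this]; exact one_mem I
      · have hc : ((⁅a, v⁆ : ↥NE) : G) = (a : G) * (w * (a : G)⁻¹ * w⁻¹) := by
          rw [← hact v v.2 hv _ (inv_mem ha)]
          simp [commutatorElement_def, mul_assoc]
        have hb : w * (a : G)⁻¹ * w⁻¹ ∈ E := conj_mem_E hw (inv_mem ha)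
        refine ⟨hc ▸ mul_mem ha hb, ?_⟩
        rw [hc, show w * ((a : G) * (w * (a : G)⁻¹ * w⁻¹)) * w⁻¹ =
          (w * a * w⁻¹) * (w * (w * (a : G)⁻¹ * w⁻¹) * w⁻¹) by simp [mul_assoc],
          hww _ (inv_mem ha)]
        simp [mul_assoc]
    intro u _ v _
    by_cases hu : (u : G) ∈ E
    · exact hbase u v hu
    by_cases hv : (v : G) ∈ E
    · rw [← commutatorElement_inv]; exact inv_mem (hbase v u hv)
    · have ha : ((v⁻¹ * u : ↥NE) : G) ∈ E := by
        rw [Subgroup.coe_mul, Subgroup.coe_inv]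
        exact (mul_mem_E h (inv_mem v.2) u.2).2 (by simp [hu, hv])
      obtain ⟨hcE, hc⟩ := hbase (v⁻¹ * u) v ha
      have e : ((⁅u, v⁆ : ↥NE) : G) = (v : G) * ((⁅v⁻¹ * u, v⁆ : ↥NE) : G) * (v : G)⁻¹ := by
        simp [commutatorElement_def, mul_assoc]
      refine ⟨e ▸ conj_mem_E v.2 hcE, ?_⟩
      rw [e, hact v v.2 hv _ hcE, hc]
      rw [show w * ((⁅v⁻¹ * u, v⁆ : ↥NE) : G)⁻¹ * w⁻¹ =
        (w * ((⁅v⁻¹ * u, v⁆ : ↥NE) : G) * w⁻¹)⁻¹ by simp [mul_assoc], hc]
  exact (hI hmem).2

private theorem inverts_all (h : Cfg P E) {w : G} (hw : w ∈ NE) (hwE : w ∉ E)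
    (hw2 : orderOf w = 2) {x : G} (hx : x ∈ E) : w * x * w⁻¹ = x⁻¹ := by
  haveI := h.cyclicE
  have hwi : w⁻¹ = w := Invol.inv_eq hw2
  have hww : w * w = 1 := Invol.inv_mul_self hw2
  have hmul : ∀ {a b : G}, a ∈ E → b ∈ E → w * a * w⁻¹ = a⁻¹ → w * b * w⁻¹ = b⁻¹ →
      w * (a * b) * w⁻¹ = (a * b)⁻¹ := by
    intro a b ha hb h1 h2
    rw [show w * (a * b) * w⁻¹ = (w * a * w⁻¹) * (w * b * w⁻¹) by simp [mul_assoc], h1, h2,
      ← mul_inv_rev, comm_E h hb ha]
  have hpow : ∀ {a : G}, a ∈ E → w * a * w⁻¹ = a⁻¹ → ∀ n : ℕ, w * a ^ n * w⁻¹ = (a ^ n)⁻¹ := by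
    intro a ha h1 n
    induction n with
    | zero => simp
    | succ n ih => rw [pow_succ]; exact hmul (pow_mem ha n) ha ih h1
  obtain ⟨⟨a, ha⟩, hgen⟩ := IsCyclic.exists_generator (α := E)
  suffices hga : w * a * w⁻¹ = a⁻¹ by
    obtain ⟨n, hn⟩ := (mem_powers_iff_mem_zpowers.2 (hgen ⟨x, hx⟩) : (⟨x, hx⟩ : E) ∈ _)
    have : a ^ n = x := congrArg Subtype.val hn
    rw [← this]; exact hpow ha hga n
  obtain ⟨k, m, hm, hkm⟩ := Nat.exists_eq_pow_mul_and_not_dvd (orderOf_pos a).ne' 2 (by norm_num)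
  have hmodd : Odd m := Nat.not_even_iff_odd.1 fun he => hm he.two_dvd
  -- the odd part is inverted
  have ho : w * a ^ (2 ^ k) * w⁻¹ = (a ^ (2 ^ k))⁻¹ := by
    refine inverts_odd h hw hwE (pow_mem ha _) ?_
    rw [orderOf_pow' _ (pow_ne_zero k two_ne_zero), hkm, Nat.gcd_mul_right_left,
      Nat.mul_div_cancel_left _ (pow_pos two_pos k)]
    exact hmodd
  by_cases hk : k ≤ 1
  · have h2 : a ^ 2 ∈ E := pow_mem ha 2
    have hsq : w * a ^ 2 * w⁻¹ = (a ^ 2)⁻¹ := by
      rcases Nat.le_one_iff_eq_zero_or_eq_one.1 hk with rfl | rfl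
      · exact hpow ha (by simpa using ho) 2
      · simpa using ho
    -- `a * w a w⁻¹` squares to one and is fixed by `w`
    rcases Nat.le_one_iff_eq_zero_or_eq_one.1 hk with rfl | rfl
    · simpa using ho
    · obtain ⟨i, hi⟩ := hmodd
      have hz : orderOf (a ^ m) = 2 := by
        rw [orderOf_pow' _ (by rintro rfl; exact hm (dvd_zero 2)), hkm, Nat.gcd_mul_left_left,
          Nat.mul_div_cancel _ (Nat.pos_of_ne_zero (by rintro rfl; exact hm (dvd_zero 2))), pow_one]
      have hzinv : w * a ^ m * w⁻¹ = (a ^ m)⁻¹ := by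
        rw [Invol.inv_eq hz]
        exact unique_invol h (conj_mem_E hw (pow_mem ha m)) (pow_mem ha m)
          (by rw [Invol.orderOf_conj, hz]) hz
      have hi' : w * ((a ^ 2) ^ i)⁻¹ * w⁻¹ = ((a ^ 2) ^ i)⁻¹⁻¹ := by
        rw [show w * ((a ^ 2) ^ i)⁻¹ * w⁻¹ = (w * (a ^ 2) ^ i * w⁻¹)⁻¹ by simp [mul_assoc],
          hpow h2 hsq i]
      have e : a = a ^ m * ((a ^ 2) ^ i)⁻¹ := by
        rw [← pow_mul, eq_mul_inv_iff_mul_eq, ← pow_succ', hi]
      rw [e]
      exact hmul (pow_mem ha m) (inv_mem (pow_mem h2 i)) hzinv hi'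
  · -- `4 ∣ |E|`
    obtain ⟨j, rfl⟩ : ∃ j, k = j + 2 := ⟨k - 2, by omega⟩
    have hordm : orderOf (a ^ m) = 2 ^ (j + 2) := by
      rw [orderOf_pow' _ (by rintro rfl; exact hm (dvd_zero 2)), hkm, Nat.gcd_mul_left_left,
        Nat.mul_div_cancel _ (Nat.pos_of_ne_zero (by rintro rfl; exact hm (dvd_zero 2)))]
    by_contra hne
    -- `K = ⟨a²⟩⟨w⟩` has index two and contains every involution of `N(E)`
    let S2 : Subgroup G := Subgroup.zpowers (a ^ 2)
    have hS2E : S2 ≤ E := Subgroup.zpowers_le.2 (pow_mem ha 2)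
    have haS : a ∉ S2 := by
      intro hc
      obtain ⟨n, hn⟩ : ∃ n : ℕ, (a ^ 2) ^ n = a := by
        rw [← Submonoid.mem_powers_iff]
        exact mem_powers_iff_mem_zpowers.2 hc
      have h1 := orderOf_dvd_of_pow_eq_one (x := a ^ 2)
        (show (a ^ 2) ^ (orderOf a) = 1 by rw [← pow_mul, mul_comm, pow_mul, pow_orderOf_eq_one, one_pow])
      have h3 : orderOf a ∣ orderOf (a ^ 2) := by
        have := orderOf_pow_dvd (x := a ^ 2) n
        rwa [hn] at this
      rw [orderOf_pow' a two_ne_zero, Nat.gcd_eq_right (hkm ▸ Dvd.dvd.mul_right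
        (dvd_pow_self 2 (by omega)) m)] at h3
      have := Nat.le_of_dvd (Nat.div_pos (Nat.le_of_dvd (orderOf_pos a)
        (hkm ▸ Dvd.dvd.mul_right (dvd_pow_self 2 (by omega)) m)) two_pos) h3
      have hp' := orderOf_pos a
      omega
    have hcase : ∀ b ∈ E, b ∈ S2 ∨ b * a⁻¹ ∈ S2 := by
      intro b hb
      obtain ⟨n, hn⟩ := (mem_powers_iff_mem_zpowers.2 (hgen ⟨b, hb⟩) : (⟨b, hb⟩ : E) ∈ _)
      have hb' : a ^ n = b := congrArg Subtype.val hn
      rcases Nat.even_or_odd n with ⟨i, hi⟩ | ⟨i, hi⟩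
      · left
        rw [← hb', hi, ← two_mul, pow_mul]
        exact pow_mem (Subgroup.mem_zpowers _) _
      · right
        rw [← hb', hi, pow_succ, mul_inv_cancel_right, pow_mul]
        exact pow_mem (Subgroup.mem_zpowers _) _
    have hSw : ∀ b ∈ S2, w * b * w⁻¹ ∈ S2 := by
      intro b hb
      obtain ⟨n, rfl⟩ := Subgroup.mem_zpowers_iff.1 hb
      obtain ⟨i, hi⟩ := (mem_powers_iff_mem_zpowers.2 (hgen ⟨_, conj_mem_E hw ha⟩) :
        (⟨w * a * w⁻¹, _⟩ : E) ∈ _)
      have hi' : a ^ i = w * a * w⁻¹ := congrArg Subtype.val hi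
      rw [show w * (a ^ 2) ^ n * w⁻¹ = (MulAut.conj w) ((a ^ 2) ^ n) from rfl, map_zpow, map_pow,
        MulAut.conj_apply, ← hi', pow_right_comm]
      exact zpow_mem (pow_mem (Subgroup.mem_zpowers _) _) _
    let K : Subgroup ↥NE :=
      { carrier := {y | (y : G) ∈ S2 ∨ (y : G) * w ∈ S2}
        one_mem' := Or.inl (one_mem S2)
        mul_mem' := by
          rintro ⟨u, hu⟩ ⟨v, hv⟩ (h1 | h1) (h2 | h2)
          · exact Or.inl (mul_mem h1 h2)
          · exact Or.inr (by
              show u * v * w ∈ S2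
              rw [mul_assoc]; exact mul_mem h1 h2)
          · refine Or.inr ?_
            show u * v * w ∈ S2
            have e : u * v * w = (u * w) * (w * v * w⁻¹) := by
              rw [hwi]; simp [mul_assoc, Invol.mul_self_cancel hw2]
            rw [e]; exact mul_mem h1 (hSw _ h2)
          · refine Or.inl ?_
            show u * v ∈ S2
            have e : u * v = (u * w) * (w * (v * w) * w⁻¹) := by
              rw [hwi]; simp [mul_assoc, Invol.mul_self_cancel hw2, hww]
            rw [e]; exact mul_mem h1 (hSw _ h2)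
        inv_mem' := by
          rintro ⟨u, hu⟩ (h1 | h1)
          · exact Or.inl (inv_mem h1)
          · refine Or.inr ?_
            show u⁻¹ * w ∈ S2
            have e : u⁻¹ * w = w * (u * w)⁻¹ * w⁻¹ := by
              rw [hwi]; simp [mul_assoc, hwi, Invol.mul_self_cancel hw2]
            rw [e]; exact hSw _ (inv_mem h1) }
    have hSwE : ∀ {b : G}, b ∈ E → b * w ∉ S2 := fun {b} hb hc =>
      hwE ((E.mul_mem_cancel_left hb).1 (hS2E hc))
    have hKa : (⟨a, Subgroup.le_normalizer ha⟩ : ↥NE) ∉ K := by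
      rintro (h1 | h1)
      · exact haS h1
      · exact hSwE ha h1
    have hKi : K.index = 2 := by
      refine Subgroup.index_eq_two_iff.2 ⟨⟨a, Subgroup.le_normalizer ha⟩⁻¹, fun b => ?_⟩
      have hb : (b : G) ∈ E ∨ (b : G) * w ∈ E := by
        by_cases hbE : (b : G) ∈ E
        · exact Or.inl hbE
        · exact Or.inr ((mul_mem_E h b.2 hw).2 (by simp [hbE, hwE]))
      by_cases hbK : b ∈ K
      · refine Or.inr ⟨hbK, fun hc => hKa ?_⟩
        have := mul_mem (inv_mem hc) hbK
        simpa [mul_assoc] using this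
      · refine Or.inl ⟨?_, hbK⟩
        rcases hb with hbE | hbE
        · exact Or.inl (by simpa using (hcase _ hbE).resolve_left fun e => hbK (Or.inl e))
        · refine Or.inr ?_
          show (b : G) * a⁻¹ * w ∈ S2
          have h1 := (hcase _ hbE).resolve_left fun e => hbK (Or.inr e)
          have h2 : w * a⁻¹ * w⁻¹ * a ∈ S2 := by
            rcases hcase _ (conj_mem_E hw (inv_mem ha)) with h3 | h3
            · exfalso
              have := hSw _ h3
              rw [hwi] at this
              exact haS (inv_mem_iff.1 (by simpa [mul_assoc, Invol.mul_self_cancel hw2, hww] using this))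
            · have := mul_mem h3 (Subgroup.mem_zpowers (a ^ 2))
              simpa [pow_two, mul_assoc] using this
          have := mul_mem h1 h2
          rw [hwi] at this
          have e : (b : G) * a⁻¹ * w = ((b : G) * w * a⁻¹) * (w * a⁻¹ * w * a) := by
            have hc := comm_E h hbE (inv_mem ha)
            have hc2 := comm_E h (show w * a⁻¹ * w ∈ E by
              have := conj_mem_E hw (inv_mem ha); rwa [hwi] at this) ha
            calc (b : G) * a⁻¹ * w = ((b : G) * w) * (w * a⁻¹ * w) := by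
                  simp [mul_assoc, Invol.mul_self_cancel hw2]
              _ = ((b : G) * w * a⁻¹) * (a * (w * a⁻¹ * w)) := by simp [mul_assoc]
              _ = _ := by rw [← hc2]
          rw [e]; exact this
    refine transfer_two h (a := (a ^ m) ^ (2 ^ j)) (Subgroup.le_normalizer (pow_mem (pow_mem ha m) _))
      (exists_order_four hordm) K hKi fun y hy => ?_
    have hy2 : (y : G) * y = 1 := congrArg Subtype.val hy
    by_cases hyE : (y : G) ∈ E
    · rcases hcase _ hyE with h1 | h1
      · exact Or.inl h1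
      · exfalso
        -- then `a ^ odd` squares to one
        obtain ⟨n, hn⟩ := Subgroup.mem_zpowers_iff.1 h1
        have e : (y : G) = a ^ (2 * n + 1) := by
          rw [zpow_add, zpow_mul, zpow_one, zpow_two, ← pow_two, hn, inv_mul_cancel_right]
        have h2 : a ^ (2 * (2 * n + 1)) = 1 := by
          rw [two_mul, zpow_add, ← e, hy2]
        have h3 := orderOf_dvd_iff_zpow_eq_one.2 h2
        have h4 : (4 : ℤ) ∣ 2 * (2 * n + 1) := dvd_trans (by
          rw [hkm]; exact ⟨(2 : ℤ) ^ j * m, by push_cast; ring⟩) h3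
        omega
    · have hyw : (y : G) * w ∈ E := (mul_mem_E h y.2 hw).2 (by simp [hyE, hwE])
      have hb : w * ((y : G) * w) * w⁻¹ = ((y : G) * w)⁻¹ := by
        rw [mul_inv_rev, hwi, inv_eq_of_mul_eq_one_right hy2, mul_assoc w, mul_assoc, hww, mul_one]
      rcases hcase _ hyw with h1 | h1
      · exact Or.inr h1
      · exfalso
        obtain ⟨n, hn⟩ := Subgroup.mem_zpowers_iff.1 h1
        have e : (y : G) * w = a ^ (2 * n + 1) := by
          rw [zpow_add, zpow_mul, zpow_one, zpow_two, ← pow_two, hn, inv_mul_cancel_right]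
        -- `w` inverts `a ^ (2n+1)` and `a ^ (2^(j+2))`, hence `a`
        rw [e] at hb
        have hcop : Int.gcd (2 * n + 1) ((2 : ℤ) ^ (j + 2)) = 1 := by
          rw [← Int.isCoprime_iff_gcd_eq_one]
          exact IsCoprime.pow_right ⟨1, -n, by ring⟩
        have hz : ∀ {c : G}, w * c * w⁻¹ = c⁻¹ → ∀ i : ℤ, w * c ^ i * w⁻¹ = (c ^ i)⁻¹ := by
          intro c hc i
          rw [show w * c ^ i * w⁻¹ = (MulAut.conj w) (c ^ i) from rfl, map_zpow, MulAut.conj_apply,
            hc, inv_zpow]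
        obtain ⟨u, v, huv⟩ := Int.isCoprime_iff_gcd_eq_one.2 hcop
        apply hne
        have e1 : a = (a ^ (2 * n + 1)) ^ u * (a ^ (2 ^ (j + 2))) ^ v := by
          rw [← zpow_natCast a (2 ^ (j + 2)), ← zpow_mul, ← zpow_mul, ← zpow_add]
          push_cast
          rw [show (2 * n + 1) * u + (2 : ℤ) ^ (j + 2) * v = 1 by linarith [huv], zpow_one]
        rw [e1]
        exact hmul (zpow_mem (zpow_mem ha _) _) (zpow_mem (pow_mem ha _) _) (hz hb _) (hz ho _)

private theorem small_sylow (h : Cfg P E) {z : G} (hz2 : orderOf z = 2)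
    (hC : ∀ x : G, IsConj z x → Nat.card (Subgroup.centralizer ({x} : Set G)) = 2 * Nat.card E)
    (h4 : ¬ 4 ∣ Nat.card E) (S : Sylow 2 G) :
    Nat.card (S : Subgroup G) ≤ 4 := by
  haveI : Fact (Nat.Prime 2) := ⟨Nat.prime_two⟩
  by_contra! hbig
  have hS : IsPGroup 2 ↥(S : Subgroup G) := S.isPGroup'
  obtain ⟨n, hn⟩ := IsPGroup.iff_card.1 hS
  have hncyc : ¬ IsCyclic ↥(S : Subgroup G) := by
    intro hc
    have hev : Even (Nat.card G) := even_iff_two_dvd.2 (hz2 ▸ orderOf_dvd_natCard z)
    obtain ⟨H, hH⟩ := Invol.exists_index_two_of_cyclic_sylow hev S hc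
    exact no_index_two h H hH
  have hcoatom : ∀ H : Subgroup ↥(S : Subgroup G), H ≠ ⊤ → ∃ M, H ≤ M ∧ M.index = 2 := by
    intro H hH
    obtain hM | ⟨M, hM, hHM⟩ := eq_top_or_exists_le_coatom H
    · exact absurd hM hH
    refine ⟨M, hHM, ?_⟩
    obtain ⟨i, hi⟩ := IsPGroup.iff_card.1 (hS.to_subgroup M)
    have hlt : i < n := by
      by_contra! hge
      refine hM.1 (Subgroup.eq_top_of_le_card _ ?_)
      rw [hi, hn]; exact Nat.pow_le_pow_right two_pos hge
    obtain ⟨K, hK, hMK⟩ := Sylow.exists_subgroup_card_pow_succ (p := 2)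
      (show 2 ^ (i + 1) ∣ Nat.card ↥(S : Subgroup G) from hn ▸ pow_dvd_pow 2 hlt) hi
    have hKtop : K = ⊤ := hM.2 K (lt_of_le_of_ne hMK fun e => by
      rw [← e, hi] at hK
      exact absurd hK (by rw [pow_succ]; have := Nat.two_pow_pos i; omega))
    have h1 := M.card_mul_index
    rw [hi, ← Subgroup.card_top (G := ↥(S : Subgroup G)), ← hKtop, hK, pow_succ] at h1
    exact Nat.eq_of_mul_eq_mul_left (Nat.two_pow_pos i) h1
  haveI : Nontrivial ↥(S : Subgroup G) := Finite.one_lt_card_iff_nontrivial.1 (by omega)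
  obtain ⟨A, -, hA⟩ := hcoatom ⊥ bot_ne_top
  obtain ⟨x, hx⟩ : ∃ x, x ∉ A := by
    by_contra! hc
    rw [(Subgroup.eq_top_iff' A).2 hc, Subgroup.index_top] at hA
    omega
  obtain ⟨B, hxB, hB⟩ := hcoatom (Subgroup.zpowers x) fun e => hncyc
    ((Subgroup.isCyclic_iff_exists_zpowers_eq_top _).2 ⟨(x : G), by
      have := congrArg (Subgroup.map (S : Subgroup G).subtype) e
      rwa [MonoidHom.map_zpowers, ← MonoidHom.range_eq_map, Subgroup.range_subtype] at this⟩)
  have hxB' : x ∈ B := hxB (Subgroup.mem_zpowers x)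
  have hma := fun {a b : ↥(S : Subgroup G)} =>
    Subgroup.mul_mem_iff_of_index_two hA (a := a) (b := b)
  have hmb := fun {a b : ↥(S : Subgroup G)} =>
    Subgroup.mul_mem_iff_of_index_two hB (a := a) (b := b)
  let C : Subgroup ↥(S : Subgroup G) :=
    { carrier := {g | g ∈ A ↔ g ∈ B}
      one_mem' := by simp
      mul_mem' := fun {a b} ha hb => by
        simp only [Set.mem_ofPred_eq] at ha hb ⊢
        rw [hma, hmb, ha, hb]
      inv_mem' := fun {a} ha => by simpa using ha }
  have hC2 : C.index = 2 := Subgroup.index_eq_two_iff.2 ⟨x, fun b => by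
    show Xor ((b * x ∈ A) ↔ (b * x ∈ B)) (b ∈ A ↔ b ∈ B)
    rw [hma, hmb]
    simp only [hx, hxB', iff_false, iff_true, Xor]
    tauto⟩
  set F := A ⊓ B with hF
  have hFc : 4 * Nat.card F = Nat.card ↥(S : Subgroup G) := by
    have h1 : (B.subgroupOf A).index = 2 := by
      obtain ⟨y, hyA, hyB⟩ : ∃ y ∈ A, y ∉ B := by
        by_contra! hc
        exact hx (by
          have e : A = B := Subgroup.eq_of_le_of_card_ge hc (by
            have h1 := A.card_mul_index
            have h2 := B.card_mul_index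
            rw [hA] at h1; rw [hB] at h2; omega)
          rw [e]; exact hxB')
      refine Subgroup.index_eq_two_iff.2 ⟨⟨y, hyA⟩, fun b => ?_⟩
      show Xor ((b : ↥(S : Subgroup G)) * y ∈ B) ((b : ↥(S : Subgroup G)) ∈ B)
      rw [hmb]
      simp only [hyB, iff_false, Xor]
      tauto
    have h2 := (B.subgroupOf A).card_mul_index
    have h3 : Nat.card (B.subgroupOf A) = Nat.card F := by
      rw [hF, ← Subgroup.inf_subgroupOf_left]
      exact Nat.card_congr (Subgroup.subgroupOfEquivOfLe inf_le_left).toEquiv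
    have h4' := A.card_mul_index
    rw [h1, h3] at h2
    rw [hA, ← h2] at h4'
    omega
  -- a conjugate of `z` in `S` lies outside `F` and its coset consists of involutions
  have hkey : ∀ y : ↥(S : Subgroup G), IsConj z (y : G) → y ∉ F ∧
      ∀ c ∈ F, (y * c) * (y * c) = 1 := by
    intro y hy
    have hy2 : orderOf (y : G) = 2 := (Invol.orderOf_eq_of_isConj hy).symm.trans hz2
    have hcy : Nat.card (MulAction.stabilizer (ConjAct ↥(S : Subgroup G)) y) ∣ 4 := by
      rw [ConjAct.stabilizer_eq_centralizer]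
      change Nat.card (Subgroup.centralizer ({y} : Set ↥(S : Subgroup G))) ∣ 4
      have hd : Nat.card (Subgroup.centralizer ({y} : Set ↥(S : Subgroup G))) ∣
          Nat.card (Subgroup.centralizer ({(y : G)} : Set G)) := by
        refine Subgroup.card_dvd_of_injective
          (((S : Subgroup G).subtype.comp (Subgroup.subtype _)).codRestrict _ fun g => ?_) ?_
        · rw [Subgroup.mem_centralizer_singleton_iff]
          exact congrArg Subtype.val (Subgroup.mem_centralizer_singleton_iff.1 g.2)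
        · intro g g' e
          exact Subtype.ext (Subtype.ext (congrArg Subtype.val e :))
      rw [hC _ hy] at hd
      obtain ⟨i, hi⟩ := IsPGroup.iff_card.1
        (hS.to_subgroup (Subgroup.centralizer ({y} : Set ↥(S : Subgroup G))))
      rw [hi] at hd ⊢
      by_contra hc
      have h8 : 2 ^ 3 ∣ 2 * Nat.card E := (pow_dvd_pow 2 (by
        by_contra! h3
        exact hc (show 2 ^ i ∣ 2 ^ 2 from pow_dvd_pow 2 (by omega)))).trans hd
      exact h4 (Nat.dvd_of_mul_dvd_mul_left two_pos (show 2 * 4 ∣ _ from h8))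
    have horb := Nat.card_congr (MulAction.orbitProdStabilizerEquivGroup (ConjAct ↥(S : Subgroup G)) y)
    rw [Nat.card_prod] at horb
    set O := MulAction.orbit (ConjAct ↥(S : Subgroup G)) y with hO
    have hsub : ∀ o ∈ O, y⁻¹ * o ∈ F ∧ orderOf (o : G) = 2 := by
      rintro o ⟨g, rfl⟩
      simp only [ConjAct.smul_def]
      constructor
      · rw [hF, Subgroup.mem_inf]
        simp only [hma, hmb, inv_mem_iff]
        tauto
      · simp only [Subgroup.coe_mul, Subgroup.coe_inv]
        rw [Invol.orderOf_conj]; exact hy2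
    let f : O → F := fun o => ⟨y⁻¹ * o, (hsub o o.2).1⟩
    have hfi : Function.Injective f := fun o o' e =>
      Subtype.ext (mul_left_cancel (congrArg Subtype.val e :))
    have hOc : Nat.card F ≤ Nat.card O := by
      have h5 : Nat.card (ConjAct ↥(S : Subgroup G)) = Nat.card ↥(S : Subgroup G) := rfl
      rw [h5] at horb
      have := Nat.le_of_dvd (by norm_num) hcy
      nlinarith
    have hbij : Function.Bijective f := (Nat.bijective_iff_injective_and_card f).2
      ⟨hfi, le_antisymm (Nat.card_le_card_of_injective f hfi) hOc⟩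
    have hinv : ∀ c ∈ F, orderOf ((y * c : ↥(S : Subgroup G)) : G) = 2 := by
      intro c hc
      obtain ⟨o, ho⟩ := hbij.2 ⟨c, hc⟩
      have e : y⁻¹ * (o : ↥(S : Subgroup G)) = c := congrArg Subtype.val ho
      rw [← e, mul_inv_cancel_left]
      exact (hsub o o.2).2
    refine ⟨fun hyF => ?_, fun c hc => Subtype.ext (Invol.inv_mul_self (hinv c hc))⟩
    have := hinv _ (inv_mem hyF)
    rw [mul_inv_cancel, OneMemClass.coe_one, orderOf_one] at this
    omega
  -- every maximal subgroup contains a conjugate of `z`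
  have hmeet : ∀ M : Subgroup ↥(S : Subgroup G), M.index = 2 → ∃ y ∈ M, IsConj z (y : G) := by
    intro M hM
    obtain ⟨g, y, hy, hgy⟩ := Invol.exists_conj_mem_of_no_index_two (no_index_two h) S
      (M.map (S : Subgroup G).subtype) (by
        rw [Subgroup.card_map_of_injective (Subgroup.subtype_injective _)]
        have := M.card_mul_index
        rw [hM] at this; omega) hz2
    exact ⟨y, hy, isConj_iff.2 ⟨g⁻¹, by rw [inv_inv]; exact hgy.symm⟩⟩
  have hout : ∀ g : ↥(S : Subgroup G), g ∉ F → g * g = 1 := by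
    intro g hg
    have hsame : ∀ y : ↥(S : Subgroup G), IsConj z (y : G) → (y ∈ A ↔ g ∈ A) → (y ∈ B ↔ g ∈ B) →
        g * g = 1 := by
      intro y hy h1 h2
      have hc : y⁻¹ * g ∈ F := by
        rw [hF, Subgroup.mem_inf, hma, hmb, inv_mem_iff, inv_mem_iff]; exact ⟨h1, h2⟩
      have := (hkey y hy).2 _ hc
      rwa [mul_inv_cancel_left] at this
    rw [hF, Subgroup.mem_inf] at hg
    by_cases hgA : g ∈ A
    · obtain ⟨y, hyA, hy⟩ := hmeet A hA
      have := (hkey y hy).1
      rw [hF, Subgroup.mem_inf] at this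
      exact hsame y hy (by tauto) (by tauto)
    · by_cases hgB : g ∈ B
      · obtain ⟨y, hyB, hy⟩ := hmeet B hB
        have := (hkey y hy).1
        rw [hF, Subgroup.mem_inf] at this
        exact hsame y hy (by tauto) (by tauto)
      · obtain ⟨y, hyC, hy⟩ := hmeet C hC2
        have := (hkey y hy).1
        rw [hF, Subgroup.mem_inf] at this
        have hyC' : y ∈ A ↔ y ∈ B := hyC
        exact hsame y hy (by tauto) (by tauto)
  have hsq : ∀ g : ↥(S : Subgroup G), g * g = 1 := by
    intro c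
    by_cases hc : c ∈ F
    · obtain ⟨y, hyB, hyA⟩ : ∃ y ∈ B, y ∉ A := ⟨x, hxB', hx⟩
      obtain ⟨u, huA, huB⟩ : ∃ u ∈ A, u ∉ B := by
        by_contra! hcon
        exact hyA ((Subgroup.eq_of_le_of_card_ge hcon (by
          have h1 := A.card_mul_index
          have h2 := B.card_mul_index
          rw [hA] at h1; rw [hB] at h2; omega)).symm ▸ hyB)
      have hinvc : ∀ t, t ∉ F → t * c = c⁻¹ * t := by
        intro t ht
        have h1 := hout t ht
        have h2 := hout (t * c) fun e => ht ((F.mul_mem_cancel_right hc).1 e)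
        have ti : t⁻¹ = t := inv_eq_of_mul_eq_one_right h1
        calc t * c = (t * c)⁻¹ := (inv_eq_of_mul_eq_one_right h2).symm
          _ = c⁻¹ * t := by rw [mul_inv_rev, ti]
      have hFu : u ∉ F := fun e => huB (hF ▸ e).2
      have hFy : y ∉ F := fun e => hyA (hF ▸ e).1
      have hFuy : u * y ∉ F := fun e => by
        have : u * y ∈ A := (hF ▸ e).1
        rw [hma] at this; tauto
      have h1 := hinvc _ hFuy
      have h2 : u * y * c = c * (u * y) := by
        rw [mul_assoc, hinvc y hFy, ← mul_assoc]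
        have h3 : u * c⁻¹ = c * u := by
          calc u * c⁻¹ = c * (c⁻¹ * u) * c⁻¹ := by simp
            _ = c * (u * c) * c⁻¹ := by rw [hinvc u hFu]
            _ = c * u := by simp [mul_assoc]
        rw [h3, mul_assoc]
      have hcc : c⁻¹ = c := mul_right_cancel (h1.symm.trans h2)
      rw [inv_eq_iff_mul_eq_one] at hcc
      exact hcc
    · exact hout c hc
  -- hence `S` is abelian and centralises a conjugate of `z`
  obtain ⟨y, -, hy⟩ := hmeet A hA
  have hd : Nat.card ↥(S : Subgroup G) ∣ 2 * Nat.card E := by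
    rw [← hC _ hy]
    refine Subgroup.card_dvd_of_le fun g hg => ?_
    rw [Subgroup.mem_centralizer_singleton_iff]
    have e : (⟨g, hg⟩ : ↥(S : Subgroup G)) * y = y * ⟨g, hg⟩ := by
      have key : ∀ t : ↥(S : Subgroup G), t⁻¹ = t := fun t => inv_eq_of_mul_eq_one_right (hsq t)
      calc (⟨g, hg⟩ : ↥(S : Subgroup G)) * y = ((⟨g, hg⟩ : ↥(S : Subgroup G)) * y)⁻¹ := (key _).symm
        _ = y * ⟨g, hg⟩ := by rw [mul_inv_rev, key, key]
    exact congrArg Subtype.val e
  have h3 : 3 ≤ n := by
    by_contra! h3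
    have := Nat.pow_le_pow_right two_pos (show n ≤ 2 by omega)
    rw [← hn] at this; omega
  rw [hn] at hd
  exact h4 (Nat.dvd_of_mul_dvd_mul_left two_pos (show 2 * 4 ∣ _ from (pow_dvd_pow 2 h3).trans hd))

private theorem one_class (h : Cfg P E) {z w : G} (hz : z ∈ E) (hz2 : orderOf z = 2)
    (hw : w ∈ NE) (hwE : w ∉ E) (hw2 : orderOf w = 2) {x : G} (hx : orderOf x = 2) :
    IsConj z x := by
  haveI : Fact (Nat.Prime 2) := ⟨Nat.prime_two⟩
  by_cases h4 : 4 ∣ Nat.card E
  · haveI := h.cyclicE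
    obtain ⟨⟨a, ha⟩, hord⟩ := IsCyclic.exists_ofOrder_eq_natCard (α := E)
    rw [Subgroup.orderOf_mk] at hord
    have ha4 : orderOf (a ^ (Nat.card E / 4)) = 4 := by
      rw [← hord] at h4 ⊢
      exact orderOf_pow_orderOf_div (orderOf_pos a).ne' h4
    have hodd := index_odd h (Subgroup.le_normalizer (pow_mem ha _)) ha4
    let S' : Sylow 2 ↥NE := default
    have hSi : (NE).index.Coprime 2 := (Nat.coprime_two_right).2 (Nat.odd_iff.2 hodd)
    have hcard : Nat.card ((S' : Subgroup ↥NE).map (NE).subtype) =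
        2 ^ (Nat.card G).factorization 2 := by
      rw [Subgroup.card_map_of_injective (Subgroup.subtype_injective _), S'.card_eq_multiplicity]
      congr 1
      rw [← (NE).card_mul_index, Nat.factorization_mul Nat.card_pos.ne'
        Subgroup.index_ne_zero_of_finite, Finsupp.add_apply,
        Nat.factorization_eq_zero_of_not_dvd (n := (NE).index) (p := 2) (by omega), add_zero]
    let S : Sylow 2 G := Sylow.ofCard _ hcard
    let M : Subgroup G := ((S' : Subgroup ↥NE) ⊓ E.subgroupOf NE).map (NE).subtype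
    have hM : 2 * Nat.card M = Nat.card (S : Subgroup G) := by
      rw [show (S : Subgroup G) = (S' : Subgroup ↥NE).map (NE).subtype from rfl,
        Subgroup.card_map_of_injective (Subgroup.subtype_injective _),
        Subgroup.card_map_of_injective (Subgroup.subtype_injective _)]
      have hnot : ¬ (S' : Subgroup ↥NE) ≤ E.subgroupOf NE := by
        intro hle
        have h1 := Subgroup.index_dvd_of_le hle
        rw [index_E_in_N h] at h1
        exact S'.not_dvd_index h1
      obtain ⟨y, hyS, hyE⟩ := SetLike.not_le_iff_exists.1 hnot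
      have h2 : ((E.subgroupOf NE).subgroupOf (S' : Subgroup ↥NE)).index = 2 := by
        refine Subgroup.index_eq_two_iff.2 ⟨⟨y, hyS⟩, fun b => ?_⟩
        show Xor ((b : ↥NE) * y ∈ E.subgroupOf NE) ((b : ↥NE) ∈ E.subgroupOf NE)
        rw [Subgroup.mul_mem_iff_of_index_two (index_E_in_N h)]
        simp only [hyE, iff_false, Xor]
        tauto
      have h3 := ((E.subgroupOf NE).subgroupOf (S' : Subgroup ↥NE)).card_mul_index
      rw [h2, ← Subgroup.inf_subgroupOf_left, Nat.card_congr
        (Subgroup.subgroupOfEquivOfLe inf_le_left).toEquiv] at h3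
      omega
    obtain ⟨g, y, hy, hgy⟩ := Invol.exists_conj_mem_of_no_index_two (no_index_two h) S M hM hx
    have hyE : g⁻¹ * x * g ∈ E := hgy ▸ hy.2
    have e := unique_invol h hyE hz (by
      have := Invol.orderOf_conj g⁻¹ x
      rw [inv_inv] at this
      rw [this, hx]) hz2
    exact (isConj_iff.2 ⟨g⁻¹, by rw [inv_inv]; exact e⟩ : IsConj x z).symm
  · have hC : ∀ x : G, IsConj z x →
        Nat.card (Subgroup.centralizer ({x} : Set G)) = 2 * Nat.card E := by
      intro x hx'
      obtain ⟨g, rfl⟩ := isConj_iff.1 hx'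
      rw [← h.cardNE, ← centralizer_eq h hz hz2]
      refine Nat.card_congr (Equiv.subtypeEquiv (MulAut.conj g⁻¹).toEquiv fun a => ?_)
      simp only [Subgroup.mem_centralizer_singleton_iff]
      constructor
      · intro e
        have := congrArg (fun t => g⁻¹ * t * g) e
        simpa [mul_assoc] using this
      · intro e
        have := congrArg (fun t => g * t * g⁻¹) e
        simpa [mul_assoc] using this
    obtain ⟨S, hS⟩ := (IsPGroup.of_card (p := 2) (n := 1) (G := ↥(Subgroup.zpowers z))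
      (by rw [Nat.card_zpowers, hz2, pow_one])).exists_le_sylow
    have hle := small_sylow h hz2 hC h4 S
    have h4d : 2 ^ 2 ∣ Nat.card G := by
      have h1 : (2 : ℕ) ∣ Nat.card E := hz2 ▸ Subgroup.orderOf_dvd_natCard E hz
      exact (show 2 ^ 2 ∣ Nat.card ↥NE by rw [h.cardNE, pow_two]; exact Nat.mul_dvd_mul_left 2 h1).trans
        (Subgroup.card_subgroup_dvd_card _)
    have hge : 4 ≤ Nat.card (S : Subgroup G) :=
      Nat.le_of_dvd Nat.card_pos (S.pow_dvd_card_of_pow_dvd_card h4d)
    obtain ⟨g, hg⟩ := Invol.exists_conj_mem_of_no_index_two (no_index_two h) S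
      (Subgroup.zpowers z) (by rw [Nat.card_zpowers, hz2]; omega) hx
    have ho : orderOf (g⁻¹ * x * g) = 2 := by
      have := Invol.orderOf_conj g⁻¹ x
      rw [inv_inv] at this
      rw [this, hx]
    have e := unique_invol h (Subgroup.zpowers_le.2 hz hg) hz ho hz2
    exact (isConj_iff.2 ⟨g⁻¹, by rw [inv_inv]; exact e⟩ : IsConj x z).symm

/-- The complement of even order forces `p = 2e + 1` and `p + 1` Sylow `p`-subgroups. -/
theorem even_case (h : Cfg P E) (hev : Even (Nat.card E)) :
    2 * Nat.card E + 1 = p ∧ Nat.card (Sylow p G) = p + 1 := by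
  haveI : Fact (Nat.Prime 2) := ⟨Nat.prime_two⟩
  obtain ⟨⟨z, hz⟩, hz2'⟩ := exists_prime_orderOf_dvd_card' (G := E) 2 hev.two_dvd
  have hz2 : orderOf z = 2 := by rwa [Subgroup.orderOf_mk] at hz2'
  obtain ⟨w, hw, hwE, hw2⟩ := exists_outer_invol h hz hz2
  have hC := centralizer_eq h hz hz2
  have hB : BSWall.Hyp z E w :=
    { ht := hz2
      comm := fun a ha b hb => comm_E h ha hb
      leH := hC.symm ▸ Subgroup.le_normalizer
      tK := hz
      hs := hw2
      sH := hC.symm ▸ hw
      sK := hwE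
      gen := by
        rw [hC]
        refine le_antisymm (sup_le Subgroup.le_normalizer (Subgroup.zpowers_le.2 hw)) fun g hg => ?_
        by_cases hgE : g ∈ E
        · exact Subgroup.mem_sup_left hgE
        · have h1 : g * w ∈ E := (mul_mem_E h hg hw).2 (by simp [hgE, hwE])
          have := mul_mem (Subgroup.mem_sup_left (T := Subgroup.zpowers w) h1)
            (Subgroup.mem_sup_right (S := E) (Subgroup.mem_zpowers w))
          rwa [Invol.cancel_mul_self hw2] at this
      fix := by
        refine le_antisymm (fun x hx => ?_) (Subgroup.zpowers_le.2 ⟨hz, ?_⟩)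
        · have h1 := inverts_all h hw hwE hw2 hx.1
          have h2 := (Subgroup.mem_centralizer_singleton_iff.1 hx.2).symm
          rw [h2, mul_inv_cancel_right] at h1
          by_cases hx1 : x = 1
          · rw [hx1]; exact one_mem _
          · rw [unique_invol h hx.1 hz (Invol.orderOf_eq_two (eq_inv_iff_mul_eq_one.1 h1) hx1) hz2]
            exact Subgroup.mem_zpowers z
        · show z ∈ Subgroup.centralizer ({w} : Set G)
          rw [Subgroup.mem_centralizer_singleton_iff]
          exact (Subgroup.mem_centralizer_singleton_iff.1 (hC.symm ▸ hw)).symm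
      inv := fun x hx => inverts_all h hw hwE hw2 hx
      ti := fun g hg => h.ti g (hC ▸ hg)
      conj := fun x y hx hy => (one_class h hz hz2 hw hwE hw2 hx).symm.trans
        (one_class h hz hz2 hw hwE hw2 hy) }
  have hpe : Nat.card ↥(Subgroup.normalizer ((P : Subgroup G) : Set G)) = p * Nat.card E := by
    set N := Subgroup.normalizer ((P : Subgroup G) : Set G) with hN
    have hPN : (P : Subgroup G) ≤ N := Subgroup.le_normalizer
    have hEN : E ≤ N := by rw [hN, ← h.normP]; exact le_sup_right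
    haveI : ((P : Subgroup G).subgroupOf N).Normal := Subgroup.normal_in_normalizer
    have hc : ((P : Subgroup G).subgroupOf N).IsComplement' (E.subgroupOf N) := by
      apply Subgroup.isComplement'_of_disjoint_and_mul_eq_univ
      · rw [disjoint_iff, eq_bot_iff]
        intro x hx
        have hx' : (x : G) ∈ (P : Subgroup G) ⊓ E := hx
        rw [h.disj] at hx'
        exact Subtype.ext hx'
      · rw [← Subgroup.normal_mul, ← Subgroup.subgroupOf_sup hPN hEN, h.normP,
          Subgroup.subgroupOf_self, Subgroup.coe_top]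
    have := hc.card_mul
    rw [Nat.card_congr (Subgroup.subgroupOfEquivOfLe hPN).toEquiv,
      Nat.card_congr (Subgroup.subgroupOfEquivOfLe hEN).toEquiv, h.cardP] at this
    exact this.symm
  have hn : p * Nat.card E * Nat.card (Sylow p G) = 2 * Nat.card E * BSWall.nInv G := by
    rw [← hB.card_G, P.card_eq_index_normalizer, ← hpe]
    exact (Subgroup.normalizer ((P : Subgroup G) : Set G)).card_mul_index
  have hmod : Nat.card (Sylow p G) % p = 1 := by
    have := card_sylow_modEq_one p G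
    rw [Nat.ModEq, Nat.one_mod_eq_one.2 (Fact.out : p.Prime).ne_one] at this
    exact this
  have hp5 := h.prime_five
  have hp : p.Prime := Fact.out
  have hd := h.dvd
  have he1 := h.one_lt
  have hle : Nat.card E ≤ p - 1 := Nat.le_of_dvd (by omega) hd
  have hn' : p * Nat.card (Sylow p G) = 2 * BSWall.nInv G := by
    have he : 0 < Nat.card E := Nat.card_pos
    nlinarith
  generalize Nat.card (Sylow p G) = m at *
  rcases Nat.eq_or_lt_of_le (show 2 ≤ Nat.card E by omega) with he | he
  · rcases hB.small he.symm with ⟨hI, -⟩ | ⟨hI, -⟩ <;> rw [hI] at hn'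
    · exfalso
      have : p ∣ 6 := ⟨m, by linarith⟩
      have := Nat.le_of_dvd (by norm_num) this
      interval_cases p <;> first | omega | norm_num at hp
    · have hpd : p ∣ 30 := ⟨m, by linarith⟩
      have := Nat.le_of_dvd (by norm_num) hpd
      have h5 : p = 5 := by
        interval_cases p <;> first | omega | (revert hp; norm_num; done) | (revert hpd; norm_num; done)
      subst h5
      exact ⟨by omega, by omega⟩
  · rcases hB.char_main (by omega) with ⟨hI, -⟩ | ⟨hI, -⟩
    all_goals rw [hI] at hn'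
    all_goals generalize Nat.card E = e at *
    · exfalso
      obtain ⟨f, rfl⟩ : ∃ f, e = f + 1 := ⟨e - 1, by omega⟩
      rw [show 2 * (f + 1) - 1 = 2 * f + 1 by omega, show f + 1 - 1 = f by omega] at hn'
      have hdd : p ∣ 2 * ((2 * f + 1) * f) := ⟨m, hn'.symm⟩
      rcases hp.dvd_mul.1 hdd with h2 | h2
      · have := Nat.le_of_dvd two_pos h2; omega
      rcases hp.dvd_mul.1 h2 with ⟨c, hc⟩ | h3
      · have hc1 : c = 1 := by
          rcases c with _ | _ | c
          · omega
          · rfl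
          · exfalso
            have : p * 2 ≤ p * (c + 1 + 1) := Nat.mul_le_mul_left p (by omega)
            omega
        subst hc1
        have h4 : f + 1 ∣ 2 * f := by
          have : p - 1 = 2 * f := by omega
          rwa [this] at hd
        have h5 : f + 1 ∣ 2 := by
          have := Nat.dvd_sub (dvd_mul_left (f + 1) 2) h4
          rwa [show 2 * (f + 1) - 2 * f = 2 by omega] at this
        have := Nat.le_of_dvd two_pos h5; omega
      · have := Nat.le_of_dvd (by omega) h3; omega
    · have hdd : p ∣ 2 * ((2 * e + 1) * (e + 1)) := ⟨m, hn'.symm⟩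
      rcases hp.dvd_mul.1 hdd with h2 | h2
      · have := Nat.le_of_dvd two_pos h2; omega
      rcases hp.dvd_mul.1 h2 with ⟨c, hc⟩ | h3
      · have hc1 : c = 1 := by
          rcases c with _ | _ | c
          · omega
          · rfl
          · exfalso
            have : p * 2 ≤ p * (c + 1 + 1) := Nat.mul_le_mul_left p (by omega)
            omega
        subst hc1
        refine ⟨by omega, ?_⟩
        have h4 : p * m = p * (2 * (e + 1)) := by rw [hn', hc]; ring
        have := Nat.eq_of_mul_eq_mul_left (by omega) h4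
        omega
      · exfalso
        have hep : e + 1 = p := by
          have := Nat.le_of_dvd (by omega) h3; omega
        have h4 : p * m = p * (2 * (2 * e + 1)) := by rw [hn', hep]; ring
        have h5 := Nat.eq_of_mul_eq_mul_left (by omega) h4
        have h6 : m = p * 3 + (p - 2) := by omega
        rw [h6, Nat.mul_add_mod, Nat.mod_eq_of_lt (by omega)] at hmod
        omega

end Cfsg.Agent.FGS75.Tree4724
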