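import Cfsg.Agent.FGS75.Tree4724.Defs
import Cfsg.Agent.BSWall.Alpha
import Cfsg.Agent.Char.DefectZero
import Cfsg.Agent.OddChar.Twist
import Mathlib.GroupTheory.Transfer
import Mathlib.GroupTheory.SpecificGroups.Cyclic

/-!
The exceptional characters of a TI subgroup `E` of odd order inverted by its normalizer,
together with the rational character of degree `p`.
-/

set_option autoImplicit false

open scoped Classical ComplexConjugate

namespace Cfsg.Agent.FGS75.Tree4724

open Cfsg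
open Cfsg.Agent.BSWall (alpha Outside IntoConj sum_intoConj sum_dual_eval card_dual conj_unit_eq_inv)

universe u

variable {G : Type u} [Group G] [Fintype G] {p : ℕ} [Fact p.Prime] {P : Sylow p G} {E : Subgroup G}

namespace ExcAux

section structureFacts

variable (h : Cfg P E)
include h

theorem comm_E {a b : G} (ha : a ∈ E) (hb : b ∈ E) : a * b = b * a := by
  haveI := h.cyclicE
  exact congrArg Subtype.val (IsMulCommutative.is_comm.comm (⟨a, ha⟩ : E) ⟨b, hb⟩)

theorem mem_N_of_conj {g x : G} (hx : x ∈ E) (hx1 : x ≠ 1) (hgx : g * x * g⁻¹ ∈ E) :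
    g ∈ Subgroup.normalizer (E : Set G) := by
  by_contra hg
  have h1 : g * x * g⁻¹ ∈ E ⊓ E.map (MulAut.conj g).toMonoidHom := ⟨hgx, x, hx, rfl⟩
  rw [h.ti g hg, Subgroup.mem_bot] at h1
  exact hx1 (conj_eq_one_iff.1 h1)

theorem index_two : (E.subgroupOf (Subgroup.normalizer (E : Set G))).index = 2 := by
  have h1 := (E.subgroupOf (Subgroup.normalizer (E : Set G))).index_mul_card
  rw [h.cardNE, Nat.card_congr (Subgroup.subgroupOfEquivOfLe Subgroup.le_normalizer).toEquiv] at h1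
  exact Nat.eq_of_mul_eq_mul_right Nat.card_pos h1

theorem mul_self_mem {g : G} (hg : g ∈ Subgroup.normalizer (E : Set G)) : g * g ∈ E := by
  simpa [Subgroup.mem_subgroupOf] using
    Subgroup.mul_self_mem_of_index_two (index_two h) ⟨g, hg⟩

theorem mul_mem_of_notMem {a b : G} (ha : a ∈ Subgroup.normalizer (E : Set G))
    (hb : b ∈ Subgroup.normalizer (E : Set G)) (ha' : a ∉ E) (hb' : b ∉ E) : a * b ∈ E := by
  have := (Subgroup.mul_mem_iff_of_index_two (index_two h) (a := ⟨a, ha⟩) (b := ⟨b, hb⟩)).2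
  simp only [Subgroup.mem_subgroupOf, Subgroup.coe_mul] at this
  exact this (iff_of_false ha' hb')

theorem mem_E_of_odd {g : G} (hg : g ∈ Subgroup.normalizer (E : Set G))
    (ho : Odd (orderOf g)) : g ∈ E := by
  obtain ⟨k, hk⟩ := ho
  have e : g = (g * g) ^ (k + 1) := by
    have hpo := pow_orderOf_eq_one g
    rw [hk] at hpo
    rw [← pow_two, ← pow_mul, show 2 * (k + 1) = 2 * k + 1 + 1 by ring, pow_succ, hpo, one_mul]
  rw [e]
  exact pow_mem (mul_self_mem h hg) _

theorem conj_sq {g x : G} (hg : g ∈ Subgroup.normalizer (E : Set G)) (hx : x ∈ E) :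
    g * (g * x * g⁻¹) * g⁻¹ = x := by
  calc g * (g * x * g⁻¹) * g⁻¹ = (g * g) * x * (g * g)⁻¹ := by group
    _ = x := by rw [comm_E h (mul_self_mem h hg) hx, mul_inv_cancel_right]

theorem mem_zpowers_of_prime {r : ℕ} [Fact r.Prime] {y z : G} (hy : y ∈ E) (hoy : orderOf y = r)
    (hz : z ∈ E) (hoz : z ^ r = 1) : ∃ i : ℕ, y ^ i = z := by
  haveI := h.cyclicE
  let yE : E := ⟨y, hy⟩
  have hoyE : orderOf yE = r := by rw [← Subgroup.orderOf_coe yE]; exact hoy
  have hsub : (Finset.range r).image (fun i => yE ^ i) ⊆ ({a : E | a ^ r = 1} : Finset E) := by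
    intro a ha
    obtain ⟨i, -, rfl⟩ := Finset.mem_image.1 ha
    simp only [Finset.mem_filter, Finset.mem_univ, true_and]
    rw [← pow_mul, mul_comm, pow_mul, ← hoyE, pow_orderOf_eq_one, one_pow]
  have hcard : ((Finset.range r).image (fun i => yE ^ i)).card = r := by
    rw [Finset.card_image_of_injOn, Finset.card_range]
    intro i hi j hj hij
    exact pow_injOn_Iio_orderOf (by simpa [hoyE] using hi) (by simpa [hoyE] using hj) hij
  have heq := Finset.eq_of_subset_of_card_le hsub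
    ((IsCyclic.card_pow_eq_one_le (Fact.out : r.Prime).pos).trans_eq hcard.symm)
  have hm : (⟨z, hz⟩ : E) ∈ ({a : E | a ^ r = 1} : Finset E) := by
    simp only [Finset.mem_filter, Finset.mem_univ, true_and]
    exact Subtype.ext hoz
  rw [← heq] at hm
  obtain ⟨i, -, hi⟩ := Finset.mem_image.1 hm
  exact ⟨i, congrArg Subtype.val hi⟩

variable (hodd : Odd (Nat.card E))
include hodd

theorem no_fix {g x : G} (hg : g ∈ Subgroup.normalizer (E : Set G)) (hgE : g ∉ E) (hx : x ∈ E)
    (hx1 : x ≠ 1) : g * x * g⁻¹ ≠ x := by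
  intro hfix
  obtain ⟨r, hr, hrd⟩ := Nat.exists_prime_and_dvd (mt orderOf_eq_one_iff.1 hx1)
  haveI := Fact.mk hr
  have hrodd : Odd r := Odd.of_dvd_nat hodd (hrd.trans (E.orderOf_dvd_natCard hx))
  obtain ⟨y, hy, hoy, hgy⟩ : ∃ y ∈ E, orderOf y = r ∧ g * y * g⁻¹ = y := by
    refine ⟨x ^ (orderOf x / r), pow_mem hx _,
      orderOf_pow_orderOf_div (orderOf_pos x).ne' hrd, ?_⟩
    rw [← conj_pow, hfix]
  have hy1 : y ≠ 1 := fun e => hr.one_lt.ne' (by rw [← hoy, e, orderOf_one])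
  have hzy : IsPGroup r (Subgroup.zpowers y) :=
    IsPGroup.of_card (n := 1) (by rw [Nat.card_zpowers, hoy, pow_one])
  obtain ⟨S, hS⟩ := hzy.exists_le_sylow
  have hyS : y ∈ (S : Subgroup G) := hS (Subgroup.mem_zpowers y)
  haveI : Nontrivial (S : Subgroup G) :=
    ⟨⟨y, hyS⟩, 1, fun e => hy1 (congrArg Subtype.val e)⟩
  have hSodd : ∀ s ∈ (S : Subgroup G), Odd (orderOf s) := by
    intro s hs
    obtain ⟨k, hk⟩ := IsPGroup.iff_orderOf.1 S.isPGroup' ⟨s, hs⟩
    rw [Subgroup.orderOf_mk] at hk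
    rw [hk]; exact hrodd.pow
  have hSE : (S : Subgroup G) ≤ E := by
    obtain ⟨⟨z, hzS⟩, hz1⟩ := @exists_ne _ S.isPGroup'.center_nontrivial 1
    have hzc : ∀ s ∈ (S : Subgroup G), s * (z : G) = (z : G) * s := fun s hs =>
      congrArg Subtype.val (Subgroup.mem_center_iff.1 hzS ⟨s, hs⟩)
    have hz1' : (z : G) ≠ 1 := fun e => hz1 (Subtype.ext (Subtype.ext e))
    have hzN : (z : G) ∈ Subgroup.normalizer (E : Set G) := mem_N_of_conj h hy hy1 (by
      rw [← hzc y hyS, mul_inv_cancel_right]; exact hy)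
    have hzE : (z : G) ∈ E := mem_E_of_odd h hzN (hSodd _ z.2)
    intro s hs
    refine mem_E_of_odd h (mem_N_of_conj h hzE hz1' ?_) (hSodd s hs)
    rw [hzc s hs, mul_inv_cancel_right]; exact hzE
  have hgS : ∀ s ∈ (S : Subgroup G), g * s * g⁻¹ = s := by
    intro s hs
    by_contra hne
    have hsE := hSE hs
    have hgsE : g * s * g⁻¹ ∈ E := (Subgroup.mem_normalizer_iff.1 hg s).1 hsE
    set u := s⁻¹ * (g * s * g⁻¹) with hu
    have huE : u ∈ E := E.mul_mem (E.inv_mem hsE) hgsE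
    have hu1 : u ≠ 1 := fun e => hne (inv_mul_eq_one.1 e).symm
    have hgu : g * u * g⁻¹ = u⁻¹ := by
      calc g * u * g⁻¹ = (g * s * g⁻¹)⁻¹ * (g * (g * s * g⁻¹) * g⁻¹) := by rw [hu]; group
        _ = u⁻¹ := by rw [conj_sq h hg hsE, hu]; group
    obtain ⟨k, hk⟩ := IsPGroup.iff_orderOf.1 S.isPGroup' ⟨s, hs⟩
    rw [Subgroup.orderOf_mk] at hk
    have hupow : u ^ r ^ k = 1 := by
      rw [hu, Commute.mul_pow (comm_E h (E.inv_mem hsE) hgsE), inv_pow, conj_pow, ← hk,
        pow_orderOf_eq_one]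
      group
    obtain ⟨j, -, hj⟩ := (Nat.dvd_prime_pow hr).1 (orderOf_dvd_of_pow_eq_one hupow)
    have hrdu : r ∣ orderOf u := by
      rcases j with _ | j
      · exact absurd (orderOf_eq_one_iff.1 (by simpa using hj)) hu1
      · exact ⟨r ^ j, by rw [hj, pow_succ']⟩
    set u' := u ^ (orderOf u / r) with hu'
    have hou' : orderOf u' = r := orderOf_pow_orderOf_div (orderOf_pos u).ne' hrdu
    obtain ⟨i, hi⟩ := mem_zpowers_of_prime h hy hoy (pow_mem huE (orderOf u / r))
      (by rw [← hu']; nth_rw 1 [← hou']; exact pow_orderOf_eq_one u')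
    have h1 : g * u' * g⁻¹ = u' := by rw [hu', ← hi, ← conj_pow, hgy]
    have h2 : g * u' * g⁻¹ = u'⁻¹ := by rw [hu', ← conj_pow, hgu, inv_pow]
    have h3 : orderOf u' ∣ 2 := orderOf_dvd_of_pow_eq_one (by
      rw [pow_two]; exact eq_inv_iff_mul_eq_one.1 (h1.symm.trans h2))
    rw [hou', Nat.prime_dvd_prime_iff_eq hr Nat.prime_two] at h3
    exact absurd (h3 ▸ hrodd) (by decide)
  have hC : Subgroup.normalizer ((S : Subgroup G) : Set G) ≤
      Subgroup.centralizer ((S : Subgroup G) : Set G) := by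
    intro a ha
    rw [Subgroup.mem_centralizer_iff]
    intro s hs
    have haN : a ∈ Subgroup.normalizer (E : Set G) :=
      mem_N_of_conj h hy hy1 (hSE ((Subgroup.mem_normalizer_iff.1 ha y).1 hyS))
    by_cases haE : a ∈ E
    · exact comm_E h (hSE hs) haE
    · have hm := mul_mem_of_notMem h haN hg haE hgE
      have e1 := comm_E h hm (hSE hs)
      have e2 : g * s = s * g := mul_inv_eq_iff_eq_mul.1 (hgS s hs)
      apply mul_right_cancel (b := g)
      calc s * a * g = s * (a * g) := mul_assoc _ _ _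
        _ = a * g * s := e1.symm
        _ = a * s * g := by rw [mul_assoc, e2, ← mul_assoc]
  have hc := MonoidHom.ker_transferSylow_isComplement' S hC
  haveI := h.simple
  haveI : (MonoidHom.transferSylow S hC).ker.Normal := MonoidHom.normal_ker _
  rcases (inferInstance : (MonoidHom.transferSylow S hC).ker.Normal).eq_bot_or_eq_top with hb | ht
  · rw [hb, Subgroup.isComplement'_bot_left] at hc
    have hall : ∀ a : G, a ∈ E := fun a => hSE (by rw [hc]; exact Subgroup.mem_top a)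
    exact hgE (hall g)
  · rw [ht, Subgroup.isComplement'_top_left] at hc
    rw [hc, Subgroup.mem_bot] at hyS
    exact hy1 hyS

theorem inverts {g x : G} (hg : g ∈ Subgroup.normalizer (E : Set G)) (hgE : g ∉ E) (hx : x ∈ E) :
    g * x * g⁻¹ = x⁻¹ := by
  have hgx : g * x * g⁻¹ ∈ E := (Subgroup.mem_normalizer_iff.1 hg x).1 hx
  set u := x * (g * x * g⁻¹) with hu
  have hfix : g * u * g⁻¹ = u := by
    calc g * u * g⁻¹ = (g * x * g⁻¹) * (g * (g * x * g⁻¹) * g⁻¹) := by rw [hu]; group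
      _ = u := by rw [conj_sq h hg hx, comm_E h hgx hx]
  by_cases hu1 : u = 1
  · exact eq_inv_of_mul_eq_one_right hu1
  · exact absurd hfix (no_fix h hodd hg hgE (E.mul_mem hx hgx) hu1)

theorem exists_w : ∃ w ∈ Subgroup.normalizer (E : Set G), w ∉ E := by
  by_contra! hc
  have h1 : Subgroup.normalizer (E : Set G) = E := le_antisymm hc Subgroup.le_normalizer
  have h2 := h.cardNE
  rw [h1] at h2
  have := Nat.card_pos (α := E)
  omega

theorem alpha_mem (μ : E →* ℂˣ) (x : E) :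
    alpha E μ x = 2 - ((μ x : ℂˣ) : ℂ) - ((μ x⁻¹ : ℂˣ) : ℂ) := by
  by_cases hx : x = 1
  · subst hx; simp [BSWall.alpha_one]; norm_num
  have hx1 : (x : G) ≠ 1 := fun e => hx (Subtype.ext e)
  obtain ⟨w, hwN, hwE⟩ := exists_w h hodd
  rw [alpha, CharInd.indFun_apply]
  have key : ∀ g : G, Cfsg.extendByZero E (fun x => 1 - ((μ x : ℂˣ) : ℂ)) (g⁻¹ * x * g) =
      (if g ∈ E then 1 - ((μ x : ℂˣ) : ℂ) else 0) +
      (if g * w ∈ E then 1 - ((μ x⁻¹ : ℂˣ) : ℂ) else 0) := by
    intro g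
    by_cases hgN : g ∈ Subgroup.normalizer (E : Set G)
    · by_cases hgE : g ∈ E
      · have hgw : g * w ∉ E := fun e => hwE ((E.mul_mem_cancel_left hgE).1 e)
        have e : g⁻¹ * x * g = x := by rw [mul_assoc, comm_E h x.2 hgE, inv_mul_cancel_left]
        rw [if_pos hgE, if_neg hgw, add_zero, e, CharInd.extendByZero_mem E _ x.2]
      · have hgw := mul_mem_of_notMem h hgN hwN hgE hwE
        have hm : (g⁻¹ : G) ∉ E := fun e => hgE (by simpa using E.inv_mem e)
        have e : g⁻¹ * x * g = ((x⁻¹ : E) : G) := by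
          simpa using inverts h hodd (inv_mem hgN) hm x.2
        rw [if_neg hgE, if_pos hgw, zero_add, e, CharInd.extendByZero_mem E _ (x⁻¹).2]
    · have hgE : g ∉ E := fun e => hgN (Subgroup.le_normalizer e)
      have hgw : g * w ∉ E := fun e => hgN (by
        simpa using mul_mem (Subgroup.le_normalizer e) (inv_mem hwN))
      rw [if_neg hgE, if_neg hgw, add_zero]
      refine CharInd.extendByZero_notMem E _ fun e => hgN ?_
      simpa using inv_mem (mem_N_of_conj h x.2 hx1 (g := g⁻¹) (by simpa using e))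
  simp only [key, Finset.sum_add_distrib]
  rw [← Finset.sum_filter, ← Finset.sum_filter, Finset.sum_const, Finset.sum_const, nsmul_eq_mul,
    nsmul_eq_mul]
  have c1 : ({g | g ∈ E} : Finset G).card = Nat.card E := by
    rw [Nat.card_eq_fintype_card, ← Fintype.card_subtype]
  have c2 : ({g | g * w ∈ E} : Finset G).card = Nat.card E := by
    rw [← c1]
    refine Finset.card_nbij' (fun g => g * w) (fun g => g * w⁻¹) ?_ ?_ ?_ ?_
    · intro g hg; simpa using hg
    · intro g hg; simpa using hg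
    · intro g _; simp
    · intro g _; simp
  rw [c1, c2]
  have hk : (Nat.card E : ℂ) ≠ 0 := Nat.cast_ne_zero.2 Nat.card_pos.ne'
  field_simp
  ring

theorem inner_alpha {μ ν : E →* ℂˣ} (hμ : μ ≠ 1) (hν : ν ≠ 1) :
    classInner (alpha E μ) (alpha E ν) =
      2 + (if μ = ν then 1 else 0) + (if μ * ν = 1 then 1 else 0) := by
  rw [alpha, CharInd.classInner_indFun_left E _ (BSWall.alpha_class ν)]
  have key : ∀ x : E, conj (alpha E ν (x : G)) =
      2 - ((ν x⁻¹ : ℂˣ) : ℂ) - ((ν x : ℂˣ) : ℂ) := by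
    intro x
    rw [alpha_mem h hodd ν x, map_sub, map_sub, Complex.conj_ofNat, conj_unit_eq_inv,
      conj_unit_eq_inv, inv_inv]
  simp only [Cfsg.classInner, key]
  have e1 : ∀ ρ : E →* ℂˣ, ∑ x : E, ((ρ x : ℂˣ) : ℂ) = if ρ = 1 then (Nat.card E : ℂ) else 0 := by
    intro ρ
    split_ifs with e
    · subst e; simp [Nat.card_eq_fintype_card]
    · exact Char.monoidHom_sum_eq_zero e
  have expand : ∀ x : E, (1 - ((μ x : ℂˣ) : ℂ)) * (2 - ((ν x⁻¹ : ℂˣ) : ℂ) - ((ν x : ℂˣ) : ℂ)) =
      2 * (((1 : E →* ℂˣ) x : ℂˣ) : ℂ) - (((ν⁻¹) x : ℂˣ) : ℂ) - ((ν x : ℂˣ) : ℂ)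
      - 2 * ((μ x : ℂˣ) : ℂ) + (((μ * ν⁻¹) x : ℂˣ) : ℂ) + (((μ * ν) x : ℂˣ) : ℂ) := by
    intro x
    simp only [MonoidHom.one_apply, MonoidHom.inv_apply, MonoidHom.mul_apply, Units.val_one,
      Units.val_mul, map_inv]
    ring
  simp only [expand, Finset.sum_add_distrib, Finset.sum_sub_distrib, ← Finset.mul_sum, e1]
  have hν' : ν⁻¹ ≠ 1 := fun e => hν (MonoidHom.ext fun x => inv_eq_one.1 (DFunLike.congr_fun e x))
  have e3 : (μ * ν⁻¹ = 1) = (μ = ν) := propext ⟨fun e => MonoidHom.ext fun x =>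
    mul_inv_eq_one.1 (DFunLike.congr_fun e x), fun e => by subst e; ext x; simp⟩
  simp only [if_true, if_neg hν', if_neg hν, if_neg hμ, e3]
  have hk : (Nat.card E : ℂ) ≠ 0 := Nat.cast_ne_zero.2 Nat.card_pos.ne'
  split_ifs <;> field_simp <;> ring

omit hodd in
theorem inner_alpha_one {μ : E →* ℂˣ} (hμ : μ ≠ 1) :
    classInner (alpha E μ) (fun _ => (1 : ℂ)) = 1 := by
  rw [alpha, CharInd.classInner_indFun_left E _ (fun _ _ => rfl)]
  simp only [Cfsg.classInner, map_one, mul_one, Finset.sum_sub_distrib, Finset.sum_const,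
    Finset.card_univ, nsmul_eq_mul, mul_one, Char.monoidHom_sum_eq_zero hμ, sub_zero,
    ← Nat.card_eq_fintype_card]
  exact inv_mul_cancel₀ (Nat.cast_ne_zero.2 Nat.card_pos.ne')

omit hodd in
theorem value_formula [Fintype (E →* ℂˣ)] {χ : G → ℂ} (hχ : IsClassFunction G χ) {x : E}
    (hx : x ≠ 1) :
    χ (x : G) = -∑ μ : E →* ℂˣ, conj (classInner (alpha E μ) χ) * ((μ x : ℂˣ) : ℂ) := by
  letI : CommGroup E :=
    { E.toGroup with mul_comm := fun a b => Subtype.ext (comm_E h a.2 b.2) }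
  have hc : ∀ μ : E →* ℂˣ, conj (classInner (alpha E μ) χ) =
      (Nat.card E : ℂ)⁻¹ * ∑ y : E, (1 - ((μ y⁻¹ : ℂˣ) : ℂ)) * χ y := by
    intro μ
    rw [alpha, CharInd.classInner_indFun_left E _ hχ]
    simp only [Cfsg.classInner, map_mul, map_inv₀, map_natCast, map_sum, Complex.conj_conj, map_sub,
      map_one, conj_unit_eq_inv]
  simp only [hc, mul_assoc, Finset.sum_mul, ← Finset.mul_sum]
  rw [Finset.sum_comm]
  have hin : ∀ y : E, ∑ μ : E →* ℂˣ, (1 - ((μ y⁻¹ : ℂˣ) : ℂ)) * (χ y * ((μ x : ℂˣ) : ℂ)) =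
      χ y * (if y = x then -(Nat.card E : ℂ) else 0) := by
    intro y
    have e : ∀ μ : E →* ℂˣ, (1 - ((μ y⁻¹ : ℂˣ) : ℂ)) * (χ y * ((μ x : ℂˣ) : ℂ)) =
        χ y * (((μ x : ℂˣ) : ℂ) - ((μ (y⁻¹ * x) : ℂˣ) : ℂ)) := fun μ => by
      rw [map_mul, Units.val_mul]; ring
    simp only [e, ← Finset.mul_sum, Finset.sum_sub_distrib, sum_dual_eval hx, zero_sub]
    split_ifs with hyx
    · subst hyx
      simp [Finset.card_univ, ← Nat.card_eq_fintype_card, card_dual]
    · rw [sum_dual_eval (fun e => hyx (inv_mul_eq_one.1 e)), neg_zero]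
  simp only [hin, mul_ite, mul_zero, Finset.sum_ite_eq', Finset.mem_univ, if_true]
  field_simp [Nat.cast_ne_zero.2 (Nat.card_pos (α := E)).ne']

end structureFacts

section psiFacts

variable (h : Cfg P E)
include h

theorem not_sq_dvd : ¬ p ^ 2 ∣ Nat.card G := by
  intro hd
  rw [← (P : Subgroup G).card_mul_index, h.cardP, pow_two] at hd
  exact P.not_dvd_index ((Nat.mul_dvd_mul_iff_left (Fact.out : p.Prime).pos).1 hd)

omit h in
theorem charDegree_of_eq {χ : G → ℂ} {d : ℕ} (hd : χ 1 = d) : charDegree χ = d := by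
  rw [charDegree, hd, Complex.natCast_re, Nat.floor_natCast]

theorem exists_psi : ∃ ψ : IrrCharacter G, (ψ : G → ℂ) 1 = (p : ℂ) ∧
    (∀ g : G, p ∣ orderOf g → (ψ : G → ℂ) g = 0) ∧
    ∀ g : G, ∃ s : ℤ, (ψ : G → ℂ) g = (s : ℂ) := by
  obtain ⟨ψ, hψ, huniq⟩ := h.uniq
  obtain ⟨d, -, hd⟩ := Char.irr_one_pos ψ.2
  have hdp : d = p := (charDegree_of_eq hd).symm.trans hψ
  subst hdp
  refine ⟨ψ, hd, fun g hg => ?_, fun g => ?_⟩
  · exact Char.irr_defect_zero_vanish' ψ.2 (n := 1) (Fact.out) (not_sq_dvd h) hd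
      (by rw [pow_one]) g hg
  · haveI : NeZero (Nat.card G) := ⟨Nat.card_pos.ne'⟩
    have hconst : ∀ a : (ZMod (Nat.card G))ˣ,
        (ψ : G → ℂ) (g ^ (a : ZMod (Nat.card G)).val) = (ψ : G → ℂ) g := by
      intro a
      let χ : IrrCharacter G := ⟨fun x => (ψ : G → ℂ) (x ^ (a : ZMod (Nat.card G)).val),
        OddChar.irr_twist ψ.2 (ZMod.val_coe_unit_coprime a)⟩
      have hχ : χ = ψ := huniq χ (charDegree_of_eq (show (χ : G → ℂ) 1 = _ by
        show (ψ : G → ℂ) (1 ^ _) = _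
        rw [one_pow]; exact hd))
      exact congrFun (congrArg Subtype.val hχ) g
    exact GalAvg.exists_int_of_const
      (GalAvg.isCharacter_pow_mem (Char.isCharacter_of_irr ψ.2) g pow_card_eq_one') hconst

variable (hodd : Odd (Nat.card E))
include hodd

theorem psi_E {ψ : G → ℂ} (hψ : IsIrrCharacter G ψ) (h1 : ψ 1 = (p : ℂ))
    (hint : ∀ g, ∃ s : ℤ, ψ g = (s : ℂ)) : ∀ x ∈ E, x ≠ 1 → ψ x = 1 := by
  letI : CommGroup E :=
    { E.toGroup with mul_comm := fun a b => Subtype.ext (comm_E h a.2 b.2) }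
  haveI : Finite (E →* ℂˣ) := BSWall.instFiniteDualBSWall
  letI := Fintype.ofFinite (E →* ℂˣ)
  choose s hs using hint
  obtain ⟨k, hk⟩ : ∃ k : ℕ, p - 1 = Nat.card E * k := h.dvd
  have hp1 : p = Nat.card E * k + 1 := by have := h.prime_five; omega
  set φ : E → ℂ := fun x => if x = 1 then 1 else ψ (x : G) with hφ
  have hφgen : IsGeneralizedCharacter E φ := by
    have e : φ = (fun x : E => ψ (x : G)) -
        ∑ μ : E →* ℂˣ, ((k : ℤ) : ℂ) • (fun x : E => ((μ x : ℂˣ) : ℂ)) := by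
      funext x
      simp only [hφ, Pi.sub_apply, Finset.sum_apply, Pi.smul_apply, smul_eq_mul, ← Finset.mul_sum,
        Int.cast_natCast]
      by_cases hx : x = 1
      · subst hx
        simp only [if_pos rfl, map_one, Units.val_one, Finset.sum_const, Finset.card_univ,
          nsmul_eq_mul, mul_one, ← Nat.card_eq_fintype_card, card_dual, OneMemClass.coe_one, h1]
        conv_rhs => rw [hp1]
        push_cast; ring
      · rw [if_neg hx, sum_dual_eval hx, mul_zero, sub_zero]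
    rw [e]
    refine CharInd.genChar_sub (CharInd.genChar_of_isCharacter ?_) (CharInd.genChar_sum _ fun μ _ => ?_)
    · obtain ⟨n, ρ, rfl⟩ := Char.isCharacter_of_irr hψ
      exact Char.isCharacter_character (ρ.comp E.subtype)
    · exact CharInd.genChar_zsmul (CharInd.genChar_irr (Char.isIrrCharacter_monoidHom μ)) _
  have hφ1 : φ 1 = 1 := by simp [hφ]
  have hse : ∀ x : E, φ x = ((if x = 1 then 1 else s x : ℤ) : ℂ) := by
    intro x
    simp only [hφ]
    split_ifs with hx
    · simp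
    · exact hs x
  set t : E → ℤ := fun x => if x = 1 then 1 else s x with ht
  -- the norm of `φ` is an odd integer below three
  haveI : Finite (IrrCharacter E) := CharInd.finite_irrCharacter
  letI := Fintype.ofFinite (IrrCharacter E)
  obtain ⟨a, ha⟩ := CharInd.genChar_coef hφgen
  have hnorm : classInner φ φ = ((∑ ξ, a ξ * a ξ : ℤ) : ℂ) := CharInd.genChar_classInner ha ha
  have hdeg : (∑ ξ, a ξ : ℤ) = 1 := by
    have e := congrFun ha 1
    rw [hφ1, Finset.sum_apply] at e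
    have e2 : ∀ ξ : IrrCharacter E, (ξ : E → ℂ) 1 = 1 := fun ξ =>
      Char.irr_degree_one_of_comm (fun x y => mul_comm x y) ξ.2
    simp only [Pi.smul_apply, smul_eq_mul, e2, mul_one] at e
    exact_mod_cast e.symm
  have hne : (Nat.card E : ℂ) * classInner φ φ = ((∑ x : E, t x * t x : ℤ) : ℂ) := by
    rw [Cfsg.classInner, ← mul_assoc, mul_inv_cancel₀ (Nat.cast_ne_zero.2 Nat.card_pos.ne'), one_mul,
      Int.cast_sum]
    refine Finset.sum_congr rfl fun x _ => ?_
    rw [hse x, map_intCast, Int.cast_mul]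
  rw [hnorm] at hne
  have hne' : (Nat.card E : ℤ) * ∑ ξ, a ξ * a ξ = ∑ x : E, t x * t x := by exact_mod_cast hne
  have hbound : ∑ x : E, t x * t x ≤ 2 * (Nat.card E : ℤ) := by
    have hG : ∑ g : G, s g * s g = (Nat.card G : ℤ) := by
      have e := Char.classInner_irr_self hψ
      rw [Cfsg.classInner, inv_mul_eq_one₀ (Nat.cast_ne_zero.2 Nat.card_pos.ne')] at e
      have e' : (((∑ g : G, s g * s g : ℤ)) : ℂ) = ((Nat.card G : ℤ) : ℂ) := by
        rw [Int.cast_natCast, e, Int.cast_sum]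
        refine Finset.sum_congr rfl fun g _ => ?_
        rw [hs g, map_intCast, Int.cast_mul]
      exact_mod_cast e'
    have hsc : ∀ g c : G, s (c * g * c⁻¹) * s (c * g * c⁻¹) = s g * s g := by
      intro g c
      have e := Char.irr_isClassFunction hψ g c
      rw [hs, hs] at e
      rw [Int.cast_injective e]
    set N := Subgroup.normalizer (E : Set G) with hN
    have hsum := sum_intoConj (M := ℤ) E N (fun g hg x hx => (Subgroup.mem_normalizer_iff.1 hg x).1 hx)
      (fun g x hx hx1 hgx => mem_N_of_conj h hx hx1 hgx) (fun g => s g * s g) hsc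
    rw [nsmul_eq_mul] at hsum
    have h1s : s 1 = (p : ℤ) := by
      have := hs 1; rw [h1] at this; exact_mod_cast this.symm
    have hle : (p : ℤ) * p + ∑ y with IntoConj E y, s y * s y ≤ ∑ g : G, s g * s g := by
      rw [← Finset.add_sum_erase _ _ (Finset.mem_univ (1 : G)), h1s]
      refine add_le_add le_rfl (Finset.sum_le_sum_of_subset_of_nonneg ?_
        (fun x _ _ => mul_self_nonneg _))
      intro y hy
      simp only [Finset.mem_filter, Finset.mem_univ, true_and] at hy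
      simp [hy.1]
    have hidx : (N.index : ℤ) * (2 * (Nat.card E : ℤ)) = (Nat.card G : ℤ) := by
      have := N.index_mul_card
      rw [hN, h.cardNE] at this
      exact_mod_cast this
    have hNpos : (0 : ℤ) < N.index := by exact_mod_cast Nat.pos_of_ne_zero Subgroup.index_ne_zero_of_finite
    have htsum : ∑ x : E, t x * t x = 1 + ∑ x : E with x ≠ 1, s x * s x := by
      rw [Finset.filter_ne', ← Finset.add_sum_erase _ _ (Finset.mem_univ (1 : E))]
      congr 1
      · simp [ht]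
      · refine Finset.sum_congr rfl fun x hx => ?_
        simp [ht, Finset.ne_of_mem_erase hx]
    rw [hsum, hG] at hle
    have hpp : (0 : ℤ) < (p : ℤ) * p := by
      have := h.prime_five
      positivity
    have hlt : ∑ x : E with x ≠ 1, s x * s x < 2 * (Nat.card E : ℤ) := by
      by_contra! hc
      have := mul_le_mul_of_nonneg_left hc hNpos.le
      linarith
    omega
  have hn2 : ∑ ξ, a ξ * a ξ ≤ 2 := by
    have hpos : (0 : ℤ) < Nat.card E := by exact_mod_cast Nat.card_pos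
    exact le_of_mul_le_mul_left (by rw [hne', mul_comm (Nat.card E : ℤ) 2]; exact hbound) hpos
  have hpar : (2 : ℤ) ∣ (∑ ξ, a ξ * a ξ) - ∑ ξ, a ξ := by
    rw [← Finset.sum_sub_distrib]
    refine Finset.dvd_sum fun ξ _ => ?_
    rw [← mul_sub_one, mul_comm]
    exact even_iff_two_dvd.1 (Int.even_mul_pred_self (a ξ)) |> fun e => by rwa [mul_comm] at e
  have hn0 : 0 ≤ ∑ ξ, a ξ * a ξ := Finset.sum_nonneg fun ξ _ => mul_self_nonneg _
  rw [hdeg] at hpar
  have hn1 : ∑ ξ, a ξ * a ξ = 1 := by omega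
  rw [hn1, Int.cast_one] at hnorm
  obtain ⟨f, hf⟩ := Char.exists_monoidHom_of_degree_one (Char.isCharacter_of_irr
    (CharInd.genChar_norm_one_pos hφgen hnorm (by simp [hφ1]))) hφ1
  intro x hx hx1
  have hxE : (⟨x, hx⟩ : E) ≠ 1 := fun e => hx1 (congrArg Subtype.val e)
  have hv : φ ⟨x, hx⟩ = ψ x := by simp only [hφ, if_neg hxE]
  have hpw : (ψ x) ^ Nat.card E = 1 := by
    rw [← hv, hf]
    rw [← Units.val_pow_eq_pow_val, ← map_pow, pow_card_eq_one', map_one, Units.val_one]
  rw [hs x] at hpw ⊢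
  have hint' : s x ^ Nat.card E = 1 ^ Nat.card E := by rw [one_pow]; exact_mod_cast hpw
  rw [hodd.strictMono_pow.injective hint', Int.cast_one]

end psiFacts

end ExcAux

open ExcAux in
theorem exists_exc (h : Cfg P E) (hodd : Odd (Nat.card E)) :
    ∃ (ψ : IrrCharacter G) (C : Finset (IrrCharacter G)), Exc p E ψ C := by
  letI : CommGroup E :=
    { E.toGroup with mul_comm := fun a b => Subtype.ext (comm_E h a.2 b.2) }
  haveI : Finite (E →* ℂˣ) := BSWall.instFiniteDualBSWall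
  letI := Fintype.ofFinite (E →* ℂˣ)
  obtain ⟨ψ, hψ1, hsing, hint⟩ := exists_psi h
  have hψE := psi_E h hodd ψ.2 hψ1 hint
  have hψreal : ∀ g, conj ((ψ : G → ℂ) g) = (ψ : G → ℂ) g := fun g => by
    obtain ⟨s, hs⟩ := hint g; rw [hs, map_intCast]
  have honeψ : (ψ : G → ℂ) ≠ fun _ => 1 := fun e => by
    have := congrFun e 1
    rw [hψ1] at this
    exact absurd (Nat.cast_eq_one.1 this) (Fact.out : p.Prime).one_lt.ne'
  -- the inner products of `alpha` with `ψ`
  have hαψ : ∀ μ : E →* ℂˣ, μ ≠ 1 → classInner (alpha E μ) (ψ : G → ℂ) = 1 := by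
    intro μ hμ
    rw [alpha, CharInd.classInner_indFun_left E _ (Char.irr_isClassFunction ψ.2)]
    have e : ∀ x : E, (1 - ((μ x : ℂˣ) : ℂ)) * conj ((ψ : G → ℂ) (x : G)) =
        1 - ((μ x : ℂˣ) : ℂ) := by
      intro x
      rw [hψreal]
      by_cases hx : x = 1
      · subst hx; simp
      · rw [hψE x x.2 (fun e => hx (Subtype.ext e)), mul_one]
    simp only [Cfsg.classInner, e, Finset.sum_sub_distrib, Finset.sum_const, Finset.card_univ,
      nsmul_eq_mul, mul_one, Char.monoidHom_sum_eq_zero hμ, sub_zero, ← Nat.card_eq_fintype_card]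
    exact inv_mul_cancel₀ (Nat.cast_ne_zero.2 Nat.card_pos.ne')
  set one : G → ℂ := fun _ => 1 with hone
  have hone' : IsIrrCharacter G one := Char.isIrrCharacter_const_one
  have hoψ : classInner one (ψ : G → ℂ) = 0 :=
    Char.classInner_irr_ne hone' ψ.2 (Ne.symm honeψ)
  have hψo : classInner (ψ : G → ℂ) one = 0 := Char.classInner_irr_ne ψ.2 hone' honeψ
  have hoα : ∀ μ : E →* ℂˣ, μ ≠ 1 → classInner one (alpha E μ) = 1 := fun μ hμ => by
    rw [← Char.classInner_conj, inner_alpha_one h hμ, map_one]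
  have hψα : ∀ μ : E →* ℂˣ, μ ≠ 1 → classInner (ψ : G → ℂ) (alpha E μ) = 1 := fun μ hμ => by
    rw [← Char.classInner_conj, hαψ μ hμ, map_one]
  let f : (E →* ℂˣ) → G → ℂ := fun μ => one + (ψ : G → ℂ) - alpha E μ
  have hff : ∀ μ ν : E →* ℂˣ, μ ≠ 1 → ν ≠ 1 → classInner (f μ) (f ν) =
      (if μ = ν then 1 else 0) + (if μ * ν = 1 then 1 else 0) := by
    intro μ ν hμ hν
    simp only [f, Char.classInner_sub_left, Char.classInner_sub_right, Char.classInner_add_left,
      Char.classInner_add_right, Char.classInner_irr_self hone', Char.classInner_irr_self ψ.2,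
      hoψ, hψo, hoα ν hν, hψα ν hν, hαψ μ hμ, inner_alpha h hodd hμ hν]
    rw [show classInner (alpha E μ) one = 1 from inner_alpha_one h hμ]
    ring
  have hsq : ∀ μ : E →* ℂˣ, μ * μ = 1 → μ = 1 := by
    intro μ hμ
    ext x
    obtain ⟨k, hk⟩ := hodd
    have e1 : (μ x) ^ 2 = 1 := by rw [pow_two]; exact DFunLike.congr_fun hμ x
    have e2 : (μ x) ^ Nat.card E = 1 := by rw [← map_pow, pow_card_eq_one', map_one]
    rw [hk, pow_succ, pow_mul, e1, one_pow, one_mul] at e2
    simp [e2]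
  have hf1 : ∀ μ, f μ 1 = (p : ℂ) + 1 := fun μ => by
    simp only [f, Pi.add_apply, Pi.sub_apply, hone, hψ1, BSWall.alpha_one]; ring
  have hfirr : ∀ μ : E →* ℂˣ, μ ≠ 1 → IsIrrCharacter G (f μ) := by
    intro μ hμ
    refine CharInd.genChar_norm_one_pos (CharInd.genChar_sub (CharInd.genChar_add
      (CharInd.genChar_irr hone') (CharInd.genChar_irr ψ.2)) (BSWall.alpha_genChar μ)) ?_ ?_
    · rw [hff μ μ hμ hμ, if_pos rfl, if_neg (fun e => hμ (hsq μ e)), add_zero]
    · rw [hf1]; simp; positivity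
  let c : (E →* ℂˣ) → IrrCharacter G := fun μ => if hμ : μ ≠ 1 then ⟨f μ, hfirr μ hμ⟩ else ψ
  have hc : ∀ μ : E →* ℂˣ, μ ≠ 1 → (c μ : G → ℂ) = f μ := fun μ hμ => by
    simp only [c, dif_pos hμ]
  set S : Finset (E →* ℂˣ) := Finset.univ.erase 1 with hS
  have hfib : ∀ μ ∈ S, (S.filter fun ν => c ν = c μ).card = 2 := by
    intro μ hμS
    have hμ : μ ≠ 1 := Finset.ne_of_mem_erase hμS
    have hne : μ ≠ μ⁻¹ := fun e => hμ (hsq μ (by nth_rw 2 [e]; exact mul_inv_cancel μ))
    have heq : (S.filter fun ν => c ν = c μ) = {μ, μ⁻¹} := by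
      ext ν
      simp only [Finset.mem_filter, Finset.mem_insert, Finset.mem_singleton, hS, Finset.mem_erase,
        Finset.mem_univ, and_true]
      constructor
      · rintro ⟨hν, he⟩
        have e := Char.classInner_irr_self (c μ).2
        nth_rw 1 [← he] at e
        rw [hc μ hμ, hc ν hν, hff ν μ hν hμ] at e
        by_cases h1 : ν = μ
        · exact Or.inl h1
        · right
          by_cases h2 : ν * μ = 1
          · exact MonoidHom.ext fun x => eq_inv_of_mul_eq_one_left (DFunLike.congr_fun h2 x)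
          · rw [if_neg h1, if_neg h2, add_zero] at e
            exact absurd e zero_ne_one
      · rintro (rfl | rfl)
        · exact ⟨hμ, rfl⟩
        · have hν : μ⁻¹ ≠ 1 := fun e => hμ (MonoidHom.ext fun x => inv_eq_one.1 (DFunLike.congr_fun e x))
          refine ⟨hν, by_contra fun hcc => ?_⟩
          have e := Char.classInner_irr_ne (c μ⁻¹).2 (c μ).2 (fun e' => hcc (Subtype.ext e'))
          rw [hc μ hμ, hc μ⁻¹ hν, hff μ⁻¹ μ hν hμ, if_neg (fun e' => hne e'.symm),
            if_pos (inv_mul_cancel μ), zero_add] at e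
          exact one_ne_zero e
    rw [heq, Finset.card_pair hne]
  have hsum2 : ∀ F : IrrCharacter G → ℂ, ∑ μ ∈ S, F (c μ) = 2 * ∑ b ∈ S.image c, F b := by
    intro F
    rw [Finset.sum_comp, Finset.mul_sum]
    refine Finset.sum_congr rfl fun b hb => ?_
    obtain ⟨μ, hμ, rfl⟩ := Finset.mem_image.1 hb
    rw [hfib μ hμ, nsmul_eq_mul, Nat.cast_ofNat]
  have hcardS : (S.card : ℂ) = (Nat.card E : ℂ) - 1 := by
    rw [hS, Finset.card_erase_of_mem (Finset.mem_univ _), Finset.card_univ,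
      ← Nat.card_eq_fintype_card, card_dual, Nat.cast_sub Nat.card_pos, Nat.cast_one]
  have hcE : ∀ μ : E →* ℂˣ, μ ≠ 1 → ∀ x : E, x ≠ 1 →
      (c μ : G → ℂ) (x : G) = ((μ x : ℂˣ) : ℂ) + ((μ x⁻¹ : ℂˣ) : ℂ) := by
    intro μ hμ x hx
    rw [hc μ hμ]
    simp only [f, Pi.add_apply, Pi.sub_apply, hone, hψE x x.2 (fun e => hx (Subtype.ext e)),
      alpha_mem h hodd μ x]
    ring
  have hmemC : ∀ b ∈ S.image c, ∃ μ : E →* ℂˣ, μ ≠ 1 ∧ b = c μ := fun b hb => by
    obtain ⟨μ, hμ, rfl⟩ := Finset.mem_image.1 hb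
    exact ⟨μ, Finset.ne_of_mem_erase hμ, rfl⟩
  refine ⟨ψ, S.image c, ?_⟩
  exact
  { card_C := by
      have e := hsum2 (fun _ => 1)
      simp only [Finset.sum_const, nsmul_eq_mul, mul_one, hcardS] at e
      have e' : ((2 * (S.image c).card + 1 : ℕ) : ℂ) = (Nat.card E : ℂ) := by
        push_cast; rw [← e]; ring
      exact_mod_cast e'
    psi_deg := hψ1
    psi_sing := hsing
    psi_E := hψE
    psi_int := hint
    psi_not_mem := fun hm => by
      obtain ⟨μ, hμ, he⟩ := hmemC ψ hm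
      have e := congrArg (fun b : IrrCharacter G => (b : G → ℂ) 1) he
      simp only [hc μ hμ, hf1, hψ1] at e
      exact one_ne_zero (add_left_cancel (a := (p : ℂ)) (by rw [add_zero]; exact e.symm))
    C_deg := fun b hb => by
      obtain ⟨μ, hμ, rfl⟩ := hmemC b hb
      rw [hc μ hμ, hf1]
    C_off := fun b hb g hg hIn => by
      obtain ⟨μ, hμ, rfl⟩ := hmemC b hb
      have ho : Outside E g := fun a ha => hIn ⟨hg, a⁻¹, by simpa using ha⟩
      rw [hc μ hμ]
      simp only [f, Pi.add_apply, Pi.sub_apply, hone, BSWall.alpha_outside μ ho, sub_zero]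
    C_real := fun b hb g => by
      obtain ⟨μ, hμ, rfl⟩ := hmemC b hb
      have hα : conj (alpha E μ g) = alpha E μ g := by
        by_cases hg : ∃ a : G, a⁻¹ * g * a ∈ E
        · obtain ⟨a, ha⟩ := hg
          have e : alpha E μ g = alpha E μ ((⟨a⁻¹ * g * a, ha⟩ : E) : G) := by
            rw [← BSWall.alpha_class μ g a⁻¹]
            simp
          rw [e, alpha_mem h hodd, map_sub, map_sub, Complex.conj_ofNat, conj_unit_eq_inv,
            conj_unit_eq_inv, inv_inv]
          ring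
        · rw [BSWall.alpha_outside μ (fun a ha => hg ⟨a, ha⟩), map_zero]
      rw [hc μ hμ]
      simp only [f, Pi.add_apply, Pi.sub_apply, hone, map_add, map_sub, map_one, hψreal, hα]
    C_sum := fun x hx hx1 => by
      have hxE : (⟨x, hx⟩ : E) ≠ 1 := fun e => hx1 (congrArg Subtype.val e)
      have e := hsum2 (fun b => (b : G → ℂ) x)
      have key : ∀ μ ∈ S, (c μ : G → ℂ) x =
          ((μ ⟨x, hx⟩ : ℂˣ) : ℂ) + ((μ ⟨x, hx⟩⁻¹ : ℂˣ) : ℂ) := fun μ hμ =>
        hcE μ (Finset.ne_of_mem_erase hμ) ⟨x, hx⟩ hxE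
      rw [Finset.sum_congr rfl key, hS, Finset.sum_erase_eq_sub (Finset.mem_univ _),
        Finset.sum_add_distrib, sum_dual_eval hxE, sum_dual_eval (fun e' => hxE (inv_eq_one.1 e'))] at e
      simp only [MonoidHom.one_apply, Units.val_one] at e
      linear_combination -e / 2
    C_E := fun b hb => by
      obtain ⟨μ, hμ, rfl⟩ := hmemC b hb
      rw [Finset.sum_congr rfl (fun x hx => hcE μ hμ x (Finset.mem_filter.1 hx).2),
        Finset.filter_ne', Finset.sum_erase_eq_sub (Finset.mem_univ _), Finset.sum_add_distrib]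
      have e : ∑ x : E, ((μ x⁻¹ : ℂˣ) : ℂ) = 0 := by
        rw [Fintype.sum_equiv (Equiv.inv E) (fun x => ((μ x⁻¹ : ℂˣ) : ℂ))
          (fun x => ((μ x : ℂˣ) : ℂ)) (fun x => rfl)]
        exact Char.monoidHom_sum_eq_zero hμ
      rw [e, Char.monoidHom_sum_eq_zero hμ]
      simp
      norm_num
    vanish := fun χ hχ1 hχψ hχC x hx hx1 => by
      have hxE : (⟨x, hx⟩ : E) ≠ 1 := fun e => hx1 (congrArg Subtype.val e)
      rw [show x = ((⟨x, hx⟩ : E) : G) from rfl,
        value_formula h (Char.irr_isClassFunction χ.2) hxE, neg_eq_zero]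
      refine Finset.sum_eq_zero fun μ _ => ?_
      by_cases hμ : μ = 1
      · subst hμ
        have : alpha E (1 : E →* ℂˣ) = 0 := by
          rw [alpha, show (fun x : E => 1 - (((1 : E →* ℂˣ) x : ℂˣ) : ℂ)) = 0 from by funext x; simp]
          exact CharInd.indFun_zero E
        simp [this, Char.classInner_zero_left]
      · have hsplit : alpha E μ = one + (ψ : G → ℂ) - (c μ : G → ℂ) := by
          rw [hc μ hμ]; simp only [f]; abel
        have hcμ : χ ≠ c μ := fun e =>
          hχC (Finset.mem_image.2 ⟨μ, Finset.mem_erase.2 ⟨hμ, Finset.mem_univ _⟩, e.symm⟩)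
        rw [hsplit, Char.classInner_sub_left, Char.classInner_add_left,
          Char.classInner_irr_ne hone' χ.2 (Ne.symm hχ1),
          Char.classInner_irr_ne ψ.2 χ.2 (fun e => hχψ (Subtype.ext e.symm)),
          Char.classInner_irr_ne (c μ).2 χ.2 (fun e => hcμ (Subtype.ext e.symm))]
        simp }

end Cfsg.Agent.FGS75.Tree4724
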