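import Cfsg.Agent.BlockCount.CyclicLattice
import Cfsg.Agent.Brauer.ModTrace

/-!
A real irreducible character of degree `p + 1` equal to one on the nonidentity elements of a
self-centralising Sylow subgroup of order `p` meets two classes of primitive idempotents, provided
its average over `P E` vanishes for a cyclic subgroup `E` of odd order normalising `P`.
-/

set_option autoImplicit false
set_option linter.style.haveILetI false
set_option linter.unusedSectionVars false

namespace Cfsg.Agent.FGS75.Tree4724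

open Cfsg
open Cfsg.Agent.Block (toF toC charLin)
open Cfsg.Agent.Brauer.ProjVec (ev)
open Cfsg.Agent.BlockCount
open scoped Classical

universe u

variable {G : Type u} [Group G] [Fintype G] {p : ℕ} [Fact p.Prime] {P : Sylow p G} {E : Subgroup G}
variable {M : Ideal AlgInt} [M.IsPrime] [CharP (Block.ResF M) p]

namespace LeafAux

section Powers

variable {k : Type*} [Field k] {W : Type*} [AddCommGroup W] [Module k W] [FiniteDimensional k W]

theorem finrank_pow_step (X : Module.End k W) (i : ℕ) :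
    Module.finrank k (LinearMap.range (X ^ i)) =
      Module.finrank k (LinearMap.range (X ^ (i + 1))) +
        Module.finrank k (LinearMap.ker X ⊓ LinearMap.range (X ^ i) : Submodule k W) := by
  have h := LinearMap.finrank_range_add_finrank_ker (X.domRestrict (LinearMap.range (X ^ i)))
  have hr : LinearMap.range (X.domRestrict (LinearMap.range (X ^ i))) =
      LinearMap.range (X ^ (i + 1)) := by
    rw [LinearMap.range_domRestrict, ← LinearMap.range_comp, pow_succ']
    rfl
  have hk : Module.finrank k (LinearMap.ker (X.domRestrict (LinearMap.range (X ^ i)))) =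
      Module.finrank k (LinearMap.ker X ⊓ LinearMap.range (X ^ i) : Submodule k W) := by
    rw [← Submodule.finrank_map_subtype_eq, LinearMap.ker_domRestrict,
      Submodule.map_comap_subtype, inf_comm]
  rw [hr, hk] at h
  exact h.symm

theorem rank_bound (X : Module.End k W) {n : ℕ} (hn : X ^ (n + 1) = 0) :
    (n + 1) * Module.finrank k (LinearMap.range (X ^ n)) ≤ Module.finrank k W := by
  have key : ∀ i j, i + j = n →
      (j + 1) * Module.finrank k (LinearMap.range (X ^ n)) ≤
        Module.finrank k (LinearMap.range (X ^ i)) := by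
    intro i j
    induction j generalizing i with
    | zero => intro h; rw [← h, Nat.add_zero]; simp
    | succ j ih =>
      intro h
      have h1 := ih (i + 1) (by omega)
      have hle : LinearMap.range (X ^ n) ≤ LinearMap.ker X ⊓ LinearMap.range (X ^ i) := by
        rintro _ ⟨v, rfl⟩
        refine ⟨?_, (X ^ (j + 1)) v, ?_⟩
        · show X ((X ^ n) v) = 0
          rw [← Module.End.mul_apply, ← pow_succ', hn, LinearMap.zero_apply]
        · rw [← Module.End.mul_apply, ← pow_add, h]
      have h2 := Submodule.finrank_mono hle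
      rw [finrank_pow_step X i, Nat.succ_mul]
      omega
  exact (key 0 n (Nat.zero_add n)).trans (Submodule.finrank_le _)

theorem finrank_ker_bound (X : Module.End k W) (n : ℕ) :
    Module.finrank k W ≤
      Module.finrank k (LinearMap.range (X ^ n)) + n * Module.finrank k (LinearMap.ker X) := by
  induction n with
  | zero =>
    rw [pow_zero, Module.End.one_eq_id, LinearMap.range_id, finrank_top]
    omega
  | succ n ih =>
    have h1 := finrank_pow_step X n
    have h2 := Submodule.finrank_mono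
      (show LinearMap.ker X ⊓ LinearMap.range (X ^ n) ≤ LinearMap.ker X from inf_le_left)
    rw [Nat.succ_mul]
    omega

end Powers

section Head

variable {k : Type*} [Field k] {H : Type*} [Group H] {W : Type*} [AddCommGroup W] [Module k W]
variable {q : ℕ} [Fact q.Prime] [CharP k q]
variable {ρ : Representation k H W} {Q N : Subgroup H}

open Cfsg.Agent.Brauer in
theorem head_le_one [IsAlgClosed k] [FiniteDimensional k W] [Fintype H] (hQ : Nat.card Q = q)
    (hirr : ∀ U : Submodule k W, (∀ g, ∀ v ∈ U, ρ g v ∈ U) → U = ⊥ ∨ U = ⊤)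
    (hQN : Q ≤ N) (hnorm : ∀ n ∈ N, ∀ u ∈ Q, n * u * n⁻¹ ∈ Q)
    (hfree : ∀ g ∉ N, ∀ u ∈ Q, g⁻¹ * u * g ∈ N → u = 1)
    (hidx : ((Q.subgroupOf N).index : k) ≠ 0)
    (hab : ∀ n ∈ N, ∀ m ∈ N, n * m * n⁻¹ * m⁻¹ ∈ Q)
    (h0N : normOp ρ Q = 0) {u0 : H} (h0 : Q = Subgroup.zpowers u0) (ho : orderOf u0 = q) :
    ∃ v1, ∀ w, ∃ c : k, w - c • v1 ∈ LinearMap.range (ρ u0 - 1) := by
  set X := ρ u0 - 1 with hX
  by_cases htop : LinearMap.range X = ⊤
  · exact ⟨0, fun w => ⟨0, htop ▸ Submodule.mem_top⟩⟩
  have hnorm' : ∀ n ∈ N, ∀ u ∈ Q, n⁻¹ * u * n ∈ Q := fun n hn u hu => by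
    simpa using hnorm n⁻¹ (inv_mem hn) u hu
  have hKeq : normOp ρ Q = X ^ (q - 1) := normOp_eq hQ h0 ho
  have hex : ∃ m, ¬ LinearMap.ker (X ^ m) ≤ LinearMap.range X := by
    refine ⟨q - 1, fun h => htop (eq_top_iff.2 (le_trans ?_ h))⟩
    rw [← hKeq, h0N, LinearMap.ker_zero]
  set m := Nat.find hex with hm
  have hm1 : 1 ≤ m := by
    by_contra h
    refine Nat.find_spec hex ?_
    rw [← hm, Nat.lt_one_iff.1 (not_le.1 h), pow_zero]
    exact fun v hv => by
      rw [LinearMap.mem_ker, Module.End.one_apply] at hv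
      rw [hv]; exact Submodule.zero_mem _
  have hscalar : ∀ Φ : W →ₗ[k] LinearMap.ker (X ^ m), (∀ v ∈ LinearMap.range X, Φ v = 0) →
      ∃ c : k, ∀ v, (∑ r : N ⧸ Q.subgroupOf N,
        ρ (r.out : H) (Φ (ρ ((r.out : H))⁻¹ v) : W)) - c • v ∈ LinearMap.range X := by
    intro Φ hΦ
    have hker : LinearMap.ker ((LinearMap.range (X ^ m)).mkQ ∘ₗ X ^ (m - 1)) ≤
        LinearMap.ker Φ := by
      intro v hv
      rw [LinearMap.mem_ker, LinearMap.comp_apply, Submodule.mkQ_apply,
        Submodule.Quotient.mk_eq_zero] at hv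
      obtain ⟨z, hz⟩ := hv
      refine hΦ v ?_
      have h1 : v - X z ∈ LinearMap.ker (X ^ (m - 1)) := by
        rw [LinearMap.mem_ker, map_sub, ← Module.End.mul_apply, ← pow_succ,
          Nat.sub_add_cancel hm1, hz, sub_self]
      have h2 := not_not.1 (Nat.find_min hex (Nat.sub_lt hm1 Nat.one_pos)) h1
      simpa using Submodule.add_mem _ h2 (LinearMap.mem_range_self X z)
    obtain ⟨L', hL'⟩ := exists_factor_of_ker_le _ Φ hker
    let L : Module.End k W :=
      (LinearMap.ker (X ^ m)).subtype ∘ₗ L' ∘ₗ (LinearMap.range (X ^ m)).mkQ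
    have hLX : L * X ^ m = 0 := LinearMap.ext fun v => by
      simp only [L, Module.End.mul_apply, LinearMap.comp_apply, Submodule.mkQ_apply,
        (Submodule.Quotient.mk_eq_zero _).2 (LinearMap.mem_range_self (X ^ m) v), map_zero,
        LinearMap.zero_apply]
    have hXL : X ^ m * L = 0 := LinearMap.ext fun v => (L' _).2
    let A : Module.End k W := ∑ j ∈ Finset.range m, X ^ j * L * X ^ (m - 1 - j)
    have hAX : X * A = A * X := by
      rw [← sub_eq_zero, Finset.mul_sum, Finset.sum_mul, ← Finset.sum_sub_distrib]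
      have e : ∀ j ∈ Finset.range m, X * (X ^ j * L * X ^ (m - 1 - j)) -
          X ^ j * L * X ^ (m - 1 - j) * X
          = X ^ (j + 1) * L * X ^ (m - (j + 1)) - X ^ j * L * X ^ (m - j) := by
        intro j hj
        rw [Finset.mem_range] at hj
        rw [mul_assoc (X ^ j * L), ← pow_succ, ← mul_assoc X, ← mul_assoc X, ← pow_succ']
        congr 3 <;> omega
      rw [Finset.sum_congr rfl e, Finset.sum_range_sub (fun j => X ^ j * L * X ^ (m - j)),
        Nat.sub_self, pow_zero, mul_one, Nat.sub_zero, one_mul, hXL, hLX, sub_zero]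
    have hAu : Commute (ρ u0) A := by
      have : ρ u0 = X + 1 := by rw [hX, sub_add_cancel]
      rw [this]
      exact Commute.add_left hAX (Commute.one_left _)
    have hAv : ∀ v, A v - (Φ v : W) ∈ LinearMap.range X := by
      intro v
      simp only [A, LinearMap.sum_apply]
      rw [← Finset.add_sum_erase _ _ (Finset.mem_range.2 hm1), add_sub_right_comm]
      refine Submodule.add_mem _ ?_ (Submodule.sum_mem _ fun j hj => ?_)
      · have h1 := congrArg Subtype.val (LinearMap.congr_fun hL' v)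
        simp only [L, Module.End.mul_apply, pow_zero, Module.End.one_apply, Nat.sub_zero,
          LinearMap.comp_apply, Submodule.coe_subtype]
        simp only [LinearMap.comp_apply] at h1
        rw [h1, sub_self]
        exact Submodule.zero_mem _
      · obtain ⟨i, rfl⟩ := Nat.exists_eq_succ_of_ne_zero (Finset.mem_erase.1 hj).1
        rw [pow_succ', mul_assoc, mul_assoc, Module.End.mul_apply]
        exact LinearMap.mem_range_self X _
    let ρN : Representation k N W := ρ.comp N.subtype
    have hAP : ∀ h ∈ Q.subgroupOf N, Commute (ρN h) A := by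
      intro h hh
      obtain ⟨i, hi⟩ := exists_pow_eq hQ h0 (Subgroup.mem_subgroupOf.1 hh)
      change Commute (ρ (h : H)) A
      rw [← hi, map_pow]
      exact hAu.pow_left i
    let Ab := relTr ρN (Q.subgroupOf N) A
    have hAb : ∀ n ∈ N, Commute (ρ n) Ab := fun n hn => commute_relTr hAP (⟨n, hn⟩ : N)
    obtain ⟨c, hc⟩ := exists_eq_smul_one_of_irreducible hirr
      (fun x => commute_relTr hAb x)
    refine ⟨c, fun v => ?_⟩
    have hv : normOp ρ Q v = 0 := by rw [h0N]; rfl
    have h1 := relTr_apply_sub_mem hQ hQN hfree h0 hAb hv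
    rw [hc, LinearMap.smul_apply, Module.End.one_apply] at h1
    have h2 : Ab v - (∑ r : N ⧸ Q.subgroupOf N,
        ρ (r.out : H) (Φ (ρ ((r.out : H))⁻¹ v) : W)) ∈ LinearMap.range X := by
      simp only [Ab, relTr, LinearMap.sum_apply]
      rw [← Finset.sum_sub_distrib]
      refine Submodule.sum_mem _ fun r _ => ?_
      simp only [ρN, Module.End.mul_apply, MonoidHom.comp_apply, Subgroup.coe_subtype,
        Subgroup.coe_inv, ← map_sub]
      exact map_range_mem hQ (hnorm _ (r.out).2) h0 (hAv _)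
    have h3 := Submodule.neg_mem _ (Submodule.add_mem _ h1 h2)
    convert h3 using 1
    abel
  -- arbitrary sums modulo the range
  have hcast : ∀ v : W, ∑ _r : N ⧸ Q.subgroupOf N, v = ((Q.subgroupOf N).index : k) • v := by
    intro v
    rw [Finset.sum_const, Finset.card_univ, ← Nat.card_eq_fintype_card, ← Subgroup.index_eq_card,
      Nat.cast_smul_eq_nsmul]
  have hrng : ∀ n ∈ N, ∀ v ∈ LinearMap.range X, ρ n v ∈ LinearMap.range X := fun n hn v hv =>
    map_range_mem hQ (hnorm n hn) h0 hv
  have hPv : ∀ u ∈ Q, ∀ v, ρ u v - v ∈ LinearMap.range X := by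
    intro u hu v
    obtain ⟨T, -, hT⟩ := exists_sub_one_eq (ρ := ρ) hQ h0 hu
    refine ⟨T v, ?_⟩
    rw [← Module.End.mul_apply, ← hT, LinearMap.sub_apply, Module.End.one_apply]
  obtain ⟨w0, hw0, hw0X⟩ := SetLike.not_le_iff_exists.1 (Nat.find_spec hex)
  set Wk := Submodule.map (LinearMap.range X).mkQ (LinearMap.ker (X ^ m)) with hWk
  obtain ⟨s, hs⟩ := LinearMap.exists_rightInverse_of_surjective
    ((LinearMap.range X).mkQ.submoduleMap (LinearMap.ker (X ^ m)))
    (LinearMap.range_eq_top.2 (LinearMap.submoduleMap_surjective _ _))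
  obtain ⟨pr, hpr⟩ := LinearMap.exists_leftInverse_of_injective Wk.subtype Wk.ker_subtype
  set Φ := s ∘ₗ pr ∘ₗ (LinearMap.range X).mkQ with hΦdef
  have hΦ0 : ∀ v ∈ LinearMap.range X, Φ v = 0 := fun v hv => by
    rw [hΦdef, LinearMap.comp_apply, LinearMap.comp_apply, Submodule.mkQ_apply,
      (Submodule.Quotient.mk_eq_zero _).2 hv, map_zero, map_zero]
  have hΦker : ∀ w ∈ LinearMap.ker (X ^ m), (Φ w : W) - w ∈ LinearMap.range X := by
    intro w hw
    have h1 : pr ((LinearMap.range X).mkQ w) = ⟨_, Submodule.mem_map_of_mem hw⟩ :=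
      LinearMap.congr_fun hpr (⟨_, Submodule.mem_map_of_mem hw⟩ : Wk)
    have h2 := congrArg Subtype.val (LinearMap.congr_fun hs
      (⟨_, Submodule.mem_map_of_mem hw⟩ : Wk))
    rw [← Submodule.Quotient.eq]
    simp only [hΦdef, LinearMap.comp_apply, h1]
    exact h2
  obtain ⟨c0, hc0⟩ := hscalar Φ hΦ0
  have hc0' : c0 = ((Q.subgroupOf N).index : k) := by
    have h1 := hc0 w0
    have h2 : (∑ r : N ⧸ Q.subgroupOf N, ρ (r.out : H) (Φ (ρ ((r.out : H))⁻¹ w0) : W))
        - ((Q.subgroupOf N).index : k) • w0 ∈ LinearMap.range X := by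
      rw [← hcast w0, ← Finset.sum_sub_distrib]
      refine Submodule.sum_mem _ fun r _ => ?_
      have hqw : ρ ((r.out : H))⁻¹ w0 ∈ LinearMap.ker (X ^ m) :=
        map_ker_pow_mem hQ (hnorm' _ (inv_mem (r.out).2)) h0 hw0
      have h3 := hrng _ (r.out).2 _ (hΦker _ hqw)
      rwa [map_sub, ← Module.End.mul_apply (ρ _) (ρ _), ← map_mul, mul_inv_cancel, map_one,
        Module.End.one_apply] at h3
    have h3 := Submodule.sub_mem _ h2 h1
    rw [sub_sub_sub_cancel_left, ← sub_smul] at h3
    by_contra hne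
    exact hw0X (by simpa [smul_smul, sub_ne_zero.2 hne] using
      Submodule.smul_mem _ (c0 - ((Q.subgroupOf N).index : k))⁻¹ h3)
  have hΦv : ∀ v, (Φ v : W) - v ∈ LinearMap.range X := by
    intro v
    set y := ∑ r : N ⧸ Q.subgroupOf N, ρ (r.out : H) (Φ (ρ ((r.out : H))⁻¹ v) : W) with hy
    have hyk : ((Q.subgroupOf N).index : k)⁻¹ • y ∈ LinearMap.ker (X ^ m) := by
      refine Submodule.smul_mem _ _ (Submodule.sum_mem _ fun r _ => ?_)
      exact map_ker_pow_mem hQ (hnorm' _ (r.out).2) h0 (Φ (ρ ((r.out : H))⁻¹ v)).2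
    have h1 : ((Q.subgroupOf N).index : k)⁻¹ • y - v ∈ LinearMap.range X := by
      have := Submodule.smul_mem _ ((Q.subgroupOf N).index : k)⁻¹ (hc0 v)
      rwa [smul_sub, hc0', smul_smul, inv_mul_cancel₀ hidx, one_smul] at this
    have h2 := congrArg Subtype.val (hΦ0 _ h1)
    rw [map_sub, Submodule.coe_sub, Submodule.coe_zero, sub_eq_zero] at h2
    rw [← h2]
    simpa using Submodule.add_mem _ (hΦker _ hyk) h1
  have hstar : ∀ A : Module.End k W, (∀ v ∈ LinearMap.range X, A v ∈ LinearMap.range X) →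
      ∃ c : k, ∀ v, (∑ r : N ⧸ Q.subgroupOf N, ρ (r.out : H) (A (ρ ((r.out : H))⁻¹ v))) - c • v
        ∈ LinearMap.range X := by
    intro A hA
    obtain ⟨c, hc⟩ := hscalar (Φ ∘ₗ A) fun v hv => hΦ0 _ (hA v hv)
    refine ⟨c, fun v => ?_⟩
    have h2 : (∑ r : N ⧸ Q.subgroupOf N, ρ (r.out : H) (A (ρ ((r.out : H))⁻¹ v))) -
        (∑ r : N ⧸ Q.subgroupOf N, ρ (r.out : H) ((Φ ∘ₗ A) (ρ ((r.out : H))⁻¹ v) : W))
          ∈ LinearMap.range X := by
      rw [← Finset.sum_sub_distrib]
      refine Submodule.sum_mem _ fun r _ => ?_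
      rw [← map_sub, ← neg_sub, LinearMap.comp_apply]
      exact hrng _ (r.out).2 _ (Submodule.neg_mem _ (hΦv _))
    simpa using Submodule.add_mem _ h2 (hc v)
  have hcn : ∀ n ∈ N, ∃ c : k, ∀ v, ρ n v - c • v ∈ LinearMap.range X := by
    intro n hn
    obtain ⟨c, hc⟩ := hstar (ρ n) (hrng n hn)
    refine ⟨((Q.subgroupOf N).index : k)⁻¹ * c, fun v => ?_⟩
    have h2 : (∑ r : N ⧸ Q.subgroupOf N, ρ (r.out : H) (ρ n (ρ ((r.out : H))⁻¹ v))) -
        ((Q.subgroupOf N).index : k) • ρ n v ∈ LinearMap.range X := by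
      rw [← hcast (ρ n v), ← Finset.sum_sub_distrib]
      refine Submodule.sum_mem _ fun r _ => ?_
      have e : ρ (r.out : H) (ρ n (ρ ((r.out : H))⁻¹ v)) =
          ρ ((r.out : H) * n * (r.out : H)⁻¹ * n⁻¹) (ρ n v) := by
        rw [← Module.End.mul_apply, ← Module.End.mul_apply, ← map_mul, ← map_mul,
          ← Module.End.mul_apply, ← map_mul, inv_mul_cancel_right, mul_assoc]
      rw [e]
      exact hPv _ (hab _ (r.out).2 n hn) _
    have h3 := Submodule.smul_mem _ ((Q.subgroupOf N).index : k)⁻¹ (Submodule.sub_mem _ (hc v) h2)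
    rwa [sub_sub_sub_cancel_left, smul_sub, smul_smul, smul_smul, inv_mul_cancel₀ hidx,
      one_smul] at h3
  obtain ⟨v1, -, hv1⟩ := SetLike.exists_of_lt (lt_top_iff_ne_top.2 htop)
  obtain ⟨f, hfv, hfX⟩ := Submodule.exists_dual_map_eq_bot_of_notMem hv1 inferInstance
  have hfX' : ∀ v ∈ LinearMap.range X, f v = 0 := fun v hv =>
    (Submodule.eq_bot_iff _).1 hfX _ (Submodule.mem_map_of_mem hv)
  refine ⟨v1, fun w => ?_⟩
  obtain ⟨c, hc⟩ := hstar (f.smulRight w) fun v hv => by
    rw [LinearMap.smulRight_apply, hfX' v hv, zero_smul]; exact Submodule.zero_mem _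
  have h2 : (∑ r : N ⧸ Q.subgroupOf N, ρ (r.out : H) ((f.smulRight w) (ρ ((r.out : H))⁻¹ v1))) -
      ((Q.subgroupOf N).index : k) • f v1 • w ∈ LinearMap.range X := by
    rw [← hcast (f v1 • w), ← Finset.sum_sub_distrib]
    refine Submodule.sum_mem _ fun r _ => ?_
    obtain ⟨a, ha⟩ := hcn _ (r.out).2
    obtain ⟨a', ha'⟩ := hcn _ (inv_mem (r.out).2)
    have hone : a * a' = 1 := by
      have h4 := Submodule.add_mem _ (hrng _ (r.out).2 _ (ha' v1))
        (Submodule.smul_mem _ a' (ha v1))
      rw [map_sub, map_smul, ← Module.End.mul_apply, ← map_mul, mul_inv_cancel, map_one,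
        Module.End.one_apply, smul_sub, sub_add_sub_cancel, smul_smul] at h4
      by_contra hne
      refine hv1 ?_
      have h5 : (1 - a' * a) • v1 ∈ LinearMap.range X := by rwa [sub_smul, one_smul]
      have h6 := Submodule.smul_mem _ (1 - a' * a)⁻¹ h5
      rwa [smul_smul, inv_mul_cancel₀ (sub_ne_zero.2 fun h => hne (by rw [mul_comm]; exact h.symm)),
        one_smul] at h6
    have hf' : f (ρ ((r.out : H))⁻¹ v1) = a' * f v1 := by
      have h4 := hfX' _ (ha' v1)
      rwa [map_sub, map_smul, smul_eq_mul, sub_eq_zero] at h4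
    have h4 := Submodule.smul_mem _ (a' * f v1) (ha w)
    rw [smul_sub, smul_smul, mul_right_comm, mul_comm a' a, hone, one_mul] at h4
    rwa [LinearMap.smulRight_apply, hf', map_smul]
  refine ⟨(((Q.subgroupOf N).index : k) * f v1)⁻¹ * c, ?_⟩
  have h3 := Submodule.smul_mem _ (((Q.subgroupOf N).index : k) * f v1)⁻¹
    (Submodule.sub_mem _ (hc v1) h2)
  rwa [sub_sub_sub_cancel_left, smul_sub, smul_smul, smul_smul, smul_smul,
    mul_assoc ((_ : k)⁻¹), inv_mul_cancel₀ (mul_ne_zero hidx hfv), one_smul] at h3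

end Head

section Form

variable {k : Type*} [Field k] {H : Type*} [Group H] [Finite H] {W : Type*} [AddCommGroup W]
  [Module k W] [FiniteDimensional k W]
variable {q : ℕ} [Fact q.Prime] [CharP k q]

theorem exists_form [IsAlgClosed k] [Nontrivial W] (ρ : Representation k H W)
    (hirr : ∀ U : Submodule k W, (∀ g, ∀ v ∈ U, ρ g v ∈ U) → U = ⊥ ∨ U = ⊤)
    (htr : ∀ g : H, ¬ q ∣ orderOf g →
      LinearMap.trace k W (ρ g⁻¹) = LinearMap.trace k W (ρ g)) :
    ∃ B : W →ₗ[k] W →ₗ[k] k, (∀ g v w, B (ρ g v) (ρ g w) = B v w) ∧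
      ∀ v, v ≠ 0 → ∃ w, B v w ≠ 0 := by
  let d : W ≃ₗ[k] Module.Dual k W := (Module.finBasis k W).toDualEquiv
  let ρ2 : Representation k H W :=
    { toFun := fun g => d.symm.conj (ρ.dual g)
      map_one' := by
        apply LinearMap.ext; intro v
        simp [LinearEquiv.conj_apply, Module.End.one_eq_id, Module.Dual.transpose_apply]
      map_mul' := fun g h => by
        apply LinearMap.ext; intro v
        simp [LinearEquiv.conj_apply, Module.End.mul_eq_comp, Module.Dual.transpose_apply,
          LinearMap.comp_assoc] }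
  have hρ2 : ∀ g v w, d (ρ2 g v) w = d v (ρ g⁻¹ w) := fun g v w => by
    simp [ρ2, LinearEquiv.conj_apply, Module.Dual.transpose_apply]
  have hirr2 : ∀ U : Submodule k W, (∀ g, ∀ v ∈ U, ρ2 g v ∈ U) → U = ⊥ ∨ U = ⊤ := by
    intro U hU
    rcases hirr (U.map d.toLinearMap).dualCoannihilator (fun g v hv => by
      rw [Submodule.mem_dualCoannihilator] at hv ⊢
      rintro _ ⟨x, hx, rfl⟩
      have h1 := hv _ (Submodule.mem_map_of_mem (f := d.toLinearMap) (hU g⁻¹ x hx))
      rw [LinearEquiv.coe_coe, hρ2, inv_inv] at h1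
      exact h1) with h | h
    · right
      have h1 := Subspace.dualCoannihilator_dualAnnihilator_eq
        (W := (U.map d.toLinearMap : Subspace k (Module.Dual k W)))
      rw [h, Submodule.dualAnnihilator_bot] at h1
      refine eq_top_iff.2 fun v _ => ?_
      obtain ⟨x, hx, hxv⟩ : d v ∈ U.map d.toLinearMap := h1 ▸ Submodule.mem_top
      rwa [d.injective hxv] at hx
    · left
      refine (Submodule.eq_bot_iff U).2 fun x hx => d.map_eq_zero_iff.1 (LinearMap.ext fun w => ?_)
      exact (Submodule.mem_dualCoannihilator w).1 (h ▸ Submodule.mem_top) _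
        (Submodule.mem_map_of_mem (f := d.toLinearMap) hx)
  by_cases hφ : ∃ φ : W →ₗ[k] W, φ ≠ 0 ∧ ∀ g v, φ (ρ g v) = ρ2 g (φ v)
  · obtain ⟨φ, hne, hint⟩ := hφ
    have hinj : LinearMap.ker φ = ⊥ := by
      refine (hirr _ fun g v hv => ?_).resolve_right fun h => hne (LinearMap.ker_eq_top.1 h)
      rw [LinearMap.mem_ker] at hv ⊢
      rw [hint, hv, map_zero]
    refine ⟨d.toLinearMap ∘ₗ φ, fun g v w => ?_, fun v hv => ?_⟩
    · simp only [LinearMap.comp_apply, LinearEquiv.coe_coe]
      rw [hint, hρ2, ← Module.End.mul_apply, ← map_mul, inv_mul_cancel, map_one,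
        Module.End.one_apply]
    · by_contra! h
      refine hv ((LinearMap.ker_eq_bot'.1 hinj) v (d.map_eq_zero_iff.1 (LinearMap.ext h)))
  · exfalso
    push Not at hφ
    have h12 : ∀ φ : W →ₗ[k] W, (∀ g v, φ (ρ g v) = ρ2 g (φ v)) → φ = 0 := fun φ hint => by
      by_contra hne
      obtain ⟨g, v, hgv⟩ := hφ φ hne
      exact hgv (hint g v)
    have h21 : ∀ ψ : W →ₗ[k] W, (∀ g v, ψ (ρ2 g v) = ρ g (ψ v)) → ψ = 0 := by
      intro ψ hint
      by_contra hne
      have hsurj : LinearMap.range ψ = ⊤ := by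
        refine (hirr _ ?_).resolve_left fun h => hne (LinearMap.range_eq_bot.1 h)
        rintro g _ ⟨v, rfl⟩
        exact ⟨ρ2 g v, hint g v⟩
      let e := LinearEquiv.ofBijective ψ
        ⟨LinearMap.injective_iff_surjective.2 (LinearMap.range_eq_top.1 hsurj),
          LinearMap.range_eq_top.1 hsurj⟩
      have h0 := h12 e.symm.toLinearMap fun g v => e.injective (by
        simp only [LinearEquiv.coe_coe, LinearEquiv.apply_symm_apply]
        rw [show e (ρ2 g (e.symm v)) = ψ (ρ2 g (e.symm v)) from rfl, hint,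
          show ψ (e.symm v) = v from e.apply_symm_apply v])
      obtain ⟨v, hv⟩ := exists_ne (0 : W)
      exact hv (e.symm.map_eq_zero_iff.1 (LinearMap.congr_fun h0 v))
    have h := Brauer.traces_independent (p := q) (ι := Fin 2) (V := fun _ => W) ![ρ, ρ2]
      (fun _ => inferInstance) (fun i => by fin_cases i; exacts [hirr, hirr2])
      (fun i j hij φ hint => by
        fin_cases i <;> fin_cases j
        · exact absurd rfl hij
        · exact h12 φ hint
        · exact h21 φ hint
        · exact absurd rfl hij)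
      ![1, -1] (fun g hg => by
        rw [Fin.sum_univ_two]
        simp only [Matrix.cons_val_zero, Matrix.cons_val_one, one_mul, neg_mul]
        rw [show ρ2 g = d.symm.conj (ρ.dual g) from rfl, LinearMap.trace_conj',
          Representation.dual_apply, LinearMap.trace_transpose', htr g hg, add_neg_cancel]) 0
    simp at h

end Form

section Lattice

variable (εG : MonoidAlgebra (Block.localRing M) G) (S : Set (IrrCharacter G))

/-- The representation on the reduction of the lattice. -/
noncomputable def rep : Representation (Block.ResF M) G (Lattice.V εG S) :=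
  (Lattice.op εG S).toRingHom.toMonoidHom.comp (MonoidAlgebra.of (Block.ResF M) G)

theorem rep_apply (g : G) : rep εG S g = Lattice.op εG S (MonoidAlgebra.single g 1) := rfl

variable {εG S}

theorem op_mem {U : Submodule (Block.ResF M) (Lattice.V εG S)}
    (hU : ∀ g, ∀ v ∈ U, rep εG S g v ∈ U) (a : MonoidAlgebra (Block.ResF M) G)
    {v : Lattice.V εG S} (hv : v ∈ U) : Lattice.op εG S a v ∈ U := by
  induction a using MonoidAlgebra.induction_linear with
  | zero => simp
  | add a b ha hb => rw [map_add, LinearMap.add_apply]; exact U.add_mem ha hb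
  | single g c =>
    rw [show MonoidAlgebra.single g c = c • MonoidAlgebra.single g (1 : Block.ResF M) by simp,
      map_smul, LinearMap.smul_apply]
    exact U.smul_mem _ (hU g v hv)

variable {χ : IrrCharacter G} (hM : IsPModular p M) (hε : IsIdempotentElem εG)
  (hone : ev (χ : G → ℂ) εG = 1)

include hε hone in
theorem cdim_idem_eq {a : MonoidAlgebra ℂ G} (ha : a * a = a) :
    (Lattice.cdim εG {χ} a : ℂ) = charLin (χ : G → ℂ) a := by
  rw [Lattice.cdim_idem hε.eq ha, Finset.sum_eq_single χ]
  · rw [if_pos (Set.mem_singleton χ), hone, mul_one]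
  · intro b _ hb
    rw [if_neg (by simpa using hb), mul_zero]
  · intro h; exact absurd (Finset.mem_univ χ) h

include hM hε hone in
theorem rank_idem {a : MonoidAlgebra (Block.localRing M) G} (ha : a * a = a) :
    (Module.finrank (Block.ResF M) (LinearMap.range (Lattice.op εG {χ} (toF M a))) : ℂ) =
      ev (χ : G → ℂ) a := by
  rw [Lattice.rank_op_idem hM hε.eq ha, cdim_idem_eq hε hone (by rw [← map_mul, ha])]
  rfl

include hM hε hone in
theorem trace_rep {g : G} (hg : ¬ p ∣ orderOf g) :
    ∃ r : Block.localRing M, (r : ℂ) = (χ : G → ℂ) g ∧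
      LinearMap.trace (Block.ResF M) (Lattice.V εG {χ}) (rep εG {χ} g) = Block.red M r := by
  set h := g⁻¹ with hh
  set n := orderOf h with hn
  have hn0 : 0 < n := orderOf_pos h
  have hpn : ¬ p ∣ n := by rwa [hn, hh, orderOf_inv]
  set ζ : ℂ := Complex.exp (2 * Real.pi * Complex.I / n)
  have hζ : IsPrimitiveRoot ζ n := Complex.isPrimitiveRoot_exp n hn0.ne'
  let z : Block.localRing M := ⟨ζ, Block.memLocalRing_of_isIntegral (hζ.isIntegral hn0)⟩
  let ni : Block.localRing M := ⟨(n : ℂ)⁻¹, Block.memLocalRing_natCast_inv hM hpn⟩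
  have hni : ni * (n : Block.localRing M) = 1 := Subtype.ext (by
    simp [ni, inv_mul_cancel₀ (Nat.cast_ne_zero.2 hn0.ne' : (n : ℂ) ≠ 0)])
  have hz : IsPrimitiveRoot z n :=
    IsPrimitiveRoot.of_map_of_injective (f := (Block.localRing M).subtype) hζ
      Subtype.val_injective
  set x : MonoidAlgebra (Block.localRing M) G := MonoidAlgebra.single h 1 with hx
  have hxn : x ^ n = 1 := by
    rw [hx, MonoidAlgebra.single_pow, one_pow, hn, pow_orderOf_eq_one, MonoidAlgebra.one_def]
  let y : ℕ → MonoidAlgebra (Block.localRing M) G := fun j =>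
    ∑ i ∈ Finset.range n, (z ^ j • x) ^ i
  let e : ℕ → MonoidAlgebra (Block.localRing M) G := fun j => ni • y j
  have hidem : ∀ j, e j * e j = e j := by
    intro j
    have hc : y j * (z ^ j • x) = y j := by
      rw [← sub_eq_zero]
      calc y j * (z ^ j • x) - y j = y j * (z ^ j • x - 1) := by rw [mul_sub, mul_one]
        _ = 0 := by
          rw [geom_sum_mul, smul_pow, hxn, ← pow_mul, mul_comm j n, pow_mul, hz.pow_eq_one,
            one_pow, one_smul, sub_self]
    have hci : ∀ i, y j * (z ^ j • x) ^ i = y j := fun i => by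
      induction i with
      | zero => rw [pow_zero, mul_one]
      | succ i ih => rw [pow_succ, ← mul_assoc, ih, hc]
    have hyy : y j * y j = (n : Block.localRing M) • y j := by
      conv_lhs => arg 2; simp only [y]
      rw [Finset.mul_sum, Finset.sum_congr rfl fun i _ => hci i, Finset.sum_const,
        Finset.card_range, Nat.cast_smul_eq_nsmul]
    simp only [e]
    rw [smul_mul_smul_comm, hyy, smul_smul, mul_assoc, hni, mul_one]
  have hsum : MonoidAlgebra.single g (1 : Block.localRing M) =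
      ∑ j ∈ Finset.range n, z ^ j • e j := by
    have hgeo : ∀ i ∈ Finset.range n, ∑ j ∈ Finset.range n, (z ^ (i + 1)) ^ j =
        if i = n - 1 then (n : Block.localRing M) else 0 := by
      intro i hi
      rw [Finset.mem_range] at hi
      split_ifs with h1
      · rw [show i + 1 = n by omega, hz.pow_eq_one]; simp
      · have h2 : z ^ (i + 1) ≠ 1 := hz.pow_ne_one_of_pos_of_lt (by omega) (by omega)
        refine (mul_eq_zero.1 (show (∑ j ∈ Finset.range n, (z ^ (i + 1)) ^ j) *
          (z ^ (i + 1) - 1) = 0 from ?_)).resolve_right (sub_ne_zero.2 h2)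
        rw [geom_sum_mul, ← pow_mul, mul_comm, pow_mul, hz.pow_eq_one, one_pow, sub_self]
    symm
    calc ∑ j ∈ Finset.range n, z ^ j • e j
        = ∑ j ∈ Finset.range n, ∑ i ∈ Finset.range n, (ni * (z ^ (i + 1)) ^ j) • x ^ i := by
          refine Finset.sum_congr rfl fun j _ => ?_
          simp only [e, y, Finset.smul_sum]
          refine Finset.sum_congr rfl fun i _ => ?_
          rw [smul_pow, smul_smul, smul_smul]
          congr 1
          ring
      _ = ∑ i ∈ Finset.range n, (ni * ∑ j ∈ Finset.range n, (z ^ (i + 1)) ^ j) • x ^ i := by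
          rw [Finset.sum_comm]
          exact Finset.sum_congr rfl fun i _ => by rw [Finset.mul_sum, Finset.sum_smul]
      _ = (1 : Block.localRing M) • x ^ (n - 1) := by
          rw [Finset.sum_eq_single (n - 1)]
          · rw [hgeo _ (Finset.mem_range.2 (by omega)), if_pos rfl, hni]
          · intro i hi hne
            rw [hgeo i hi, if_neg hne, mul_zero, zero_smul]
          · intro h1; exact absurd (Finset.mem_range.2 (by omega)) h1
      _ = MonoidAlgebra.single g 1 := by
          rw [one_smul, hx, MonoidAlgebra.single_pow, one_pow]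
          congr 1
          have h1 : h ^ (n - 1) * h = 1 := by
            rw [← pow_succ, Nat.sub_add_cancel hn0, hn, pow_orderOf_eq_one]
          rw [eq_inv_of_mul_eq_one_left h1, hh, inv_inv]
  set mj : ℕ → ℕ := fun j =>
    Module.finrank (Block.ResF M) (LinearMap.range (Lattice.op εG {χ} (toF M (e j))))
  refine ⟨∑ j ∈ Finset.range n, z ^ j * (mj j : Block.localRing M), ?_, ?_⟩
  · have h1 : ev (χ : G → ℂ) (MonoidAlgebra.single g (1 : Block.localRing M)) =
        (χ : G → ℂ) g := by
      rw [Brauer.ProjVec.ev_apply, show toC M (MonoidAlgebra.single g (1 : Block.localRing M)) =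
        MonoidAlgebra.single g 1 by simp, Block.charLin_single, one_mul]
    rw [← h1, hsum, map_sum, AddSubmonoidClass.coe_finset_sum]
    refine Finset.sum_congr rfl fun j _ => ?_
    rw [Brauer.ProjVec.ev_apply, show toC M (z ^ j • e j) = ((z ^ j : Block.localRing M) : ℂ) •
      toC M (e j) from Block.mapR_smul _ _ _, map_smul, smul_eq_mul,
      ← Brauer.ProjVec.ev_apply, ← rank_idem hM hε hone (hidem j)]
    simp [mj]
  · rw [rep_apply, show MonoidAlgebra.single g (1 : Block.ResF M) =
      toF M (MonoidAlgebra.single g 1) by simp, hsum, map_sum, map_sum, map_sum, map_sum]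
    refine Finset.sum_congr rfl fun j _ => ?_
    have hid : IsIdempotentElem (Lattice.op εG {χ} (toF M (e j))) := by
      rw [IsIdempotentElem, ← map_mul, ← map_mul, hidem]
    rw [show toF M (z ^ j • e j) = Block.red M (z ^ j) • toF M (e j) from Block.mapR_smul _ _ _,
      map_smul, map_smul, (LinearMap.IsIdempotentElem.isProj_range _ hid).trace, smul_eq_mul,
      map_mul, map_natCast]

end Lattice

end LeafAux

open LeafAux in
/-- The character meets a second class of primitive idempotents. -/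
theorem exists_second (hM : IsPModular p M) (hp5 : 5 ≤ p) (hP : Nat.card P = p)
    (hC : Subgroup.centralizer ((P : Subgroup G) : Set G) = P)
    (E : Subgroup G) (hEN : E ≤ Subgroup.normalizer ((P : Subgroup G) : Set G))
    (hEc : IsCyclic E) (hodd : Odd (Nat.card E)) (hEp : ¬ p ∣ Nat.card E)
    (χ : IrrCharacter G) (hdeg : (χ : G → ℂ) 1 = (p : ℂ) + 1)
    (hreal : ∀ g : G, starRingEnd ℂ ((χ : G → ℂ) g) = (χ : G → ℂ) g)
    (hu : ∀ x ∈ (P : Subgroup G), x ≠ 1 → (χ : G → ℂ) x = 1)
    (hsum : ∑ u : (P : Subgroup G), ∑ x : E, (χ : G → ℂ) ((u : G) * (x : G)) = 0)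
    {ε : MonoidAlgebra (Block.localRing M) G} (hε : IsIdempotentElem ε)
    (hprim : Brauer.PrimIdem.IsPrim (toF M ε)) (hone : ev (χ : G → ℂ) ε = 1) :
    ∃ f : MonoidAlgebra (Block.localRing M) G, IsIdempotentElem f ∧
      Brauer.PrimIdem.IsPrim (toF M f) ∧ ev (χ : G → ℂ) f ≠ 0 ∧
      ¬ Brauer.PrimIdem.Equivalent (toF M ε) (toF M f) := by
  by_contra hcon
  push Not at hcon
  haveI : IsAlgClosed (Block.ResF M) := Brauer.isAlgClosed_resF hM.2.1
  have hpr : p.Prime := Fact.out
  set op := Lattice.op ε ({χ} : Set (IrrCharacter G))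
  set ρ := rep ε ({χ} : Set (IrrCharacter G)) with hρ
  -- dimensions
  have hdim : Module.finrank (Block.ResF M) (Lattice.V ε ({χ} : Set (IrrCharacter G))) = p + 1 := by
    have h := rank_idem hM hε hone (a := 1) (one_mul 1)
    rw [map_one, map_one, Module.End.one_eq_id, LinearMap.range_id, finrank_top,
      Brauer.ProjVec.ev_one, hdeg] at h
    exact_mod_cast h
  haveI hnt : Nontrivial (Lattice.V ε ({χ} : Set (IrrCharacter G))) :=
    Module.nontrivial_of_finrank_pos (R := Block.ResF M) (by rw [hdim]; omega)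
  set v0 : Lattice.V ε ({χ} : Set (IrrCharacter G)) := Submodule.Quotient.mk 1 with hv0
  have hgen : ∀ v, ∃ b, op b v0 = v := by
    intro v
    obtain ⟨b, rfl⟩ := Submodule.Quotient.mk_surjective _ v
    exact ⟨b, by rw [hv0, Lattice.op_mk, mul_one]⟩
  have he0 : op (toF M ε) v0 = v0 := by
    rw [hv0, Lattice.op_mk, Submodule.Quotient.eq, mul_one]
    refine Submodule.subset_span ⟨ε - 1, ?_, by rw [map_sub, map_one]⟩
    show toC M (ε - 1) * Lattice.cut M ε ({χ} : Set (IrrCharacter G)) = 0
    rw [map_sub, map_one, sub_mul, one_mul, Lattice.cut, ← mul_assoc, ← map_mul, hε.eq, sub_self]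
  have hv00 : v0 ≠ 0 := by
    intro h
    obtain ⟨v, hv⟩ := exists_ne (0 : Lattice.V ε ({χ} : Set (IrrCharacter G)))
    obtain ⟨b, hb⟩ := hgen v
    rw [h, map_zero] at hb
    exact hv hb.symm
  have hrank1 : ∀ w, ∃ c : Block.ResF M, op (toF M ε) w = c • v0 := by
    intro w
    have h := rank_idem hM hε hone (a := ε) hε.eq
    rw [hone] at h
    have h1 : Module.finrank (Block.ResF M) (LinearMap.range (op (toF M ε))) = 1 := by
      exact_mod_cast h
    obtain ⟨c, hc⟩ := (finrank_eq_one_iff_of_nonzero'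
      (⟨v0, v0, he0⟩ : LinearMap.range (op (toF M ε)))
      (fun h0 => hv00 (congrArg Subtype.val h0))).1 h1 ⟨_, LinearMap.mem_range_self _ w⟩
    exact ⟨c, (congrArg Subtype.val hc).symm⟩
  -- simplicity
  have hirr : ∀ U : Submodule (Block.ResF M) (Lattice.V ε ({χ} : Set (IrrCharacter G))),
      (∀ g, ∀ v ∈ U, ρ g v ∈ U) → U = ⊥ ∨ U = ⊤ := by
    intro U hU
    by_cases htop : v0 ∈ U
    · right
      refine eq_top_iff.2 fun v _ => ?_
      obtain ⟨b, rfl⟩ := hgen v
      exact op_mem hU b htop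
    have heU : ∀ w ∈ U, op (toF M ε) w = 0 := by
      intro w hw
      obtain ⟨c, hc⟩ := hrank1 w
      by_contra hne
      have hc0 : c ≠ 0 := fun h0 => hne (by rw [hc, h0, zero_smul])
      have h1 := U.smul_mem c⁻¹ (op_mem hU (toF M ε) hw)
      rw [hc, smul_smul, inv_mul_cancel₀ hc0, one_smul] at h1
      exact htop h1
    have hkill : ∀ w ∈ U, op (1 : MonoidAlgebra (Block.ResF M) G) w = 0 := by
      refine Brauer.PrimIdem.induction_prim (Block.ResF M)
        (P := fun a : MonoidAlgebra (Block.ResF M) G => ∀ w ∈ U, op a w = 0)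
        (fun w _ => by rw [map_zero]; rfl) (fun a ha w hw => ?_)
        (fun a b _ _ _ h1 h2 w hw => ?_) IsIdempotentElem.one
      · by_contra hne
        obtain ⟨f, hf, -, hfa⟩ := Brauer.ProjVec.exists_lift_below
          (IsIdempotentElem.one (M := MonoidAlgebra (Block.localRing M) G)) ha.1
          ⟨by rw [map_one, one_mul], by rw [map_one, mul_one]⟩
        have hev : ev (χ : G → ℂ) f ≠ 0 := by
          rw [← rank_idem hM hε hone hf.eq, Nat.cast_ne_zero]
          intro h0
          rw [Submodule.finrank_eq_zero, LinearMap.range_eq_bot, hfa] at h0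
          exact hne (by rw [show op a = 0 from h0]; rfl)
        obtain ⟨x, y, hx, hy, hxy, hyx⟩ := hcon f hf (hfa ▸ ha) hev
        rw [hfa] at hx hy hyx
        apply hne
        have hax : a = y * (toF M ε * (x * a)) := by
          rw [← mul_assoc (toF M ε), hx, hyx]
        rw [hax, map_mul, map_mul, Module.End.mul_apply, Module.End.mul_apply,
          heU _ (op_mem hU (x * a) hw), map_zero]
      · have h3 := congrArg (fun T => op T w) (add_sub_cancel b a)
        simp only [map_add, LinearMap.add_apply, h1 w hw, h2 w hw, add_zero] at h3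
        exact h3.symm
    left
    refine (Submodule.eq_bot_iff U).2 fun w hw => ?_
    simpa using hkill w hw
  -- traces
  have htr : ∀ g : G, ¬ p ∣ orderOf g →
      LinearMap.trace (Block.ResF M) _ (ρ g⁻¹) = LinearMap.trace (Block.ResF M) _ (ρ g) := by
    intro g hg
    obtain ⟨r, hr, hr'⟩ := trace_rep hM hε hone hg
    obtain ⟨s, hs, hs'⟩ := trace_rep hM hε hone (g := g⁻¹) (by rwa [orderOf_inv])
    rw [hr', hs']
    congr 1
    apply Subtype.ext
    rw [hr, hs, Char.irr_inv χ.2, hreal]
  obtain ⟨B, hBinv, hBnd⟩ := exists_form (q := p) ρ hirr htr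
  -- the Sylow subgroup
  obtain ⟨u0, h0, ho⟩ := Brauer.exists_generator (G := G) (P := (P : Subgroup G)) hP
  set N := Subgroup.normalizer ((P : Subgroup G) : Set G) with hN
  have hPN : (P : Subgroup G) ≤ N := Subgroup.le_normalizer
  have hnorm : ∀ n ∈ N, ∀ u ∈ (P : Subgroup G), n * u * n⁻¹ ∈ (P : Subgroup G) := fun n hn u hu =>
    (Subgroup.mem_normalizer_iff.1 hn u).1 hu
  have hrel : ¬ p ∣ ((P : Subgroup G).subgroupOf N).index := fun h =>
    P.not_dvd_index (h.trans (Subgroup.relIndex_dvd_index_of_le hPN))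
  have hidx : ((((P : Subgroup G).subgroupOf N).index : ℕ) : Block.ResF M) ≠ 0 := fun h =>
    hrel ((CharP.cast_eq_zero_iff (Block.ResF M) p _).1 h)
  have hmemP : ∀ y ∈ N, y ^ p = 1 → y ∈ (P : Subgroup G) := by
    intro y hy hyp
    haveI : ((P : Subgroup G).subgroupOf N).Normal := Subgroup.normal_in_normalizer
    set π := QuotientGroup.mk' ((P : Subgroup G).subgroupOf N)
    have h1 : orderOf (π ⟨y, hy⟩) ∣ p := orderOf_dvd_of_pow_eq_one (by
      rw [← map_pow, show (⟨y, hy⟩ : N) ^ p = 1 from Subtype.ext hyp, map_one])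
    have h2 : orderOf (π ⟨y, hy⟩) ∣ ((P : Subgroup G).subgroupOf N).index :=
      orderOf_dvd_natCard _
    rcases (Nat.dvd_prime hpr).1 h1 with h3 | h3
    · exact Subgroup.mem_subgroupOf.1 ((QuotientGroup.eq_one_iff _).1 (orderOf_eq_one_iff.1 h3))
    · rw [h3] at h2
      exact absurd h2 hrel
  have hfree : ∀ g ∉ N, ∀ u ∈ (P : Subgroup G), g⁻¹ * u * g ∈ N → u = 1 := by
    intro g hg u hu hgu
    by_contra hne
    have hup : u ^ p = 1 := by
      obtain ⟨i, rfl⟩ := Brauer.exists_pow_eq hP h0 hu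
      rw [← pow_mul, mul_comm, pow_mul, ← ho, pow_orderOf_eq_one, one_pow]
    have hgu' : g⁻¹ * u * g ∈ (P : Subgroup G) := hmemP _ hgu (by
      have h := conj_pow (a := g⁻¹) (b := u) (i := p)
      rw [inv_inv, hup, mul_one, inv_mul_cancel] at h
      exact h)
    have huP : Subgroup.zpowers u = (P : Subgroup G) := by
      refine Subgroup.eq_of_le_of_card_ge (Subgroup.zpowers_le.2 hu) ?_
      rw [Nat.card_zpowers, hP]
      refine le_of_eq ((orderOf_eq_prime hup hne).symm)
    apply hg
    rw [hN, ← inv_inv g]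
    refine Subgroup.inv_mem _ ?_
    have hsub : (P : Subgroup G).map (MulAut.conj g⁻¹).toMonoidHom ≤ (P : Subgroup G) := by
      rintro _ ⟨a, ha, rfl⟩
      obtain ⟨i, rfl⟩ := Subgroup.mem_zpowers_iff.1 (show a ∈ Subgroup.zpowers u by rw [huP]; exact ha)
      rw [MonoidHom.map_zpow]
      exact zpow_mem (by simpa using hgu') i
    have heq := Subgroup.eq_of_le_of_card_ge hsub
      (Subgroup.card_map_of_injective (MulAut.conj g⁻¹).injective).ge
    rw [Subgroup.mem_normalizer_iff]
    intro a
    constructor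
    · intro ha
      exact hsub ⟨a, ha, rfl⟩
    · intro ha
      rw [← heq] at ha
      obtain ⟨b, hb, hb'⟩ := ha
      have : b = a := (MulAut.conj g⁻¹).injective (by simpa using hb')
      exact this ▸ hb
  have hab : ∀ n ∈ N, ∀ m ∈ N, n * m * n⁻¹ * m⁻¹ ∈ (P : Subgroup G) := by
    intro n hn m hm
    have hu0 : u0 ∈ (P : Subgroup G) := h0 ▸ Subgroup.mem_zpowers u0
    obtain ⟨i, hi⟩ := Brauer.exists_pow_eq hP h0 (hnorm n hn u0 hu0)
    obtain ⟨j, hj⟩ := Brauer.exists_pow_eq hP h0 (hnorm m hm u0 hu0)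
    have h1 : n * m * u0 * (n * m)⁻¹ = u0 ^ (i * j) := by
      rw [show n * m * u0 * (n * m)⁻¹ = n * (m * u0 * m⁻¹) * n⁻¹ by group, ← hj, ← conj_pow,
        ← hi, ← pow_mul]
    have h2 : m * n * u0 * (m * n)⁻¹ = u0 ^ (i * j) := by
      rw [show m * n * u0 * (m * n)⁻¹ = m * (n * u0 * n⁻¹) * m⁻¹ by group, ← hi, ← conj_pow,
        ← hj, ← pow_mul, mul_comm]
    rw [← hC, Subgroup.mem_centralizer_iff]
    intro a ha
    obtain ⟨l, rfl⟩ := Brauer.exists_pow_eq hP h0 ha
    have hc : Commute (n * m * n⁻¹ * m⁻¹) u0 := by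
      have h3 : n * m * n⁻¹ * m⁻¹ * (m * n * u0 * (m * n)⁻¹) =
          (n * m * u0 * (n * m)⁻¹) * (n * m * n⁻¹ * m⁻¹) := by group
      rw [h1, h2] at h3
      have h4 : Commute (n * m * n⁻¹ * m⁻¹) (u0 ^ (i * j)) := h3
      have hi0 : ¬ p ∣ i * j := by
        intro hd
        have h5 : n * m * u0 * (n * m)⁻¹ = 1 := by
          rw [h1, ← orderOf_dvd_iff_pow_eq_one, ho]; exact hd
        rw [conj_eq_one_iff] at h5
        rw [h5, orderOf_one] at ho
        omega
      obtain ⟨t, ht⟩ := exists_pow_eq_self_of_coprime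
        (show Nat.Coprime (i * j) (orderOf u0) by
          rw [ho]; exact ((hpr.coprime_iff_not_dvd).2 hi0).symm)
      rw [← ht]
      exact h4.pow_right t
    exact (hc.pow_right l).eq.symm
  -- the norm
  set X := ρ u0 - 1 with hX
  have hXp : X ^ (p - 1 + 1) = 0 := by
    rw [Nat.sub_add_cancel hpr.one_le, hX]
    haveI : CharP (Module.End (Block.ResF M) (Lattice.V ε ({χ} : Set (IrrCharacter G)))) p :=
      charP_of_injective_algebraMap
        (algebraMap (Block.ResF M) (Module.End (Block.ResF M) _)).injective p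
    rw [sub_pow_char_of_commute p (Commute.one_right _), one_pow, ← map_pow, ← ho,
      pow_orderOf_eq_one, map_one, sub_self]
  have hNeq : Brauer.normOp ρ (P : Subgroup G) = X ^ (p - 1) := Brauer.normOp_eq hP h0 ho
  have hr1 : Module.finrank (Block.ResF M)
      (LinearMap.range (Brauer.normOp ρ (P : Subgroup G))) ≤ 1 := by
    rw [hNeq]
    have h := rank_bound X hXp
    rw [Nat.sub_add_cancel hpr.one_le, hdim] at h
    by_contra h2
    have h3 := Nat.mul_le_mul_left p (show 2 ≤ _ from not_le.1 h2)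
    omega
  by_cases h0N : Brauer.normOp ρ (P : Subgroup G) = 0
  · obtain ⟨v1, hv1⟩ := head_le_one hP hirr hPN hnorm hfree hidx hab h0N h0 ho
    have htop : (Block.ResF M ∙ v1) ⊔ LinearMap.range X = ⊤ := by
      refine eq_top_iff.2 fun w _ => ?_
      obtain ⟨c, hc⟩ := hv1 w
      exact Submodule.mem_sup.2 ⟨c • v1, Submodule.smul_mem _ _
        (Submodule.mem_span_singleton_self v1), _, hc, add_sub_cancel _ _⟩
    have h1 := Submodule.finrank_add_le_finrank_add_finrank (Block.ResF M ∙ v1) (LinearMap.range X)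
    rw [htop, finrank_top, hdim] at h1
    have h2 : Module.finrank (Block.ResF M) (Block.ResF M ∙ v1) ≤ 1 := finrank_span_le_card _ |>.trans
      (by simp)
    have h3 := finrank_ker_bound X (p - 1)
    rw [← hNeq, h0N, LinearMap.range_zero, finrank_bot, hdim] at h3
    have h4 := LinearMap.finrank_range_add_finrank_ker X
    rw [hdim] at h4
    have h5 : Module.finrank (Block.ResF M) (LinearMap.ker X) ≤ 1 := by omega
    have h6 := Nat.mul_le_mul_left (p - 1) h5
    omega
  -- rank one
  set T := Brauer.normOp ρ (P : Subgroup G) with hT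
  obtain ⟨h, hh⟩ : ∃ h, T h ≠ 0 := by
    by_contra! h; exact h0N (LinearMap.ext h)
  have hspan : ∀ w, ∃ c : Block.ResF M, T w = c • T h := by
    intro w
    have hr : Module.finrank (Block.ResF M) (LinearMap.range T) = 1 := le_antisymm hr1
      (Nat.pos_of_ne_zero fun h0 => hh (by
        rw [Submodule.finrank_eq_zero, LinearMap.range_eq_bot] at h0; rw [h0]; rfl))
    obtain ⟨c, hc⟩ := (finrank_eq_one_iff_of_nonzero' (⟨T h, h, rfl⟩ : LinearMap.range T)
      (fun h0 => hh (congrArg Subtype.val h0))).1 hr ⟨T w, w, rfl⟩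
    exact ⟨c, (congrArg Subtype.val hc).symm⟩
  have hBT : ∀ a b, B (T a) b = B a (T b) := by
    intro a b
    rw [hT, Brauer.normOp, LinearMap.sum_apply, LinearMap.sum_apply, map_sum, map_sum,
      LinearMap.sum_apply]
    refine Fintype.sum_equiv (Equiv.inv _) _ _ fun u => ?_
    rw [Equiv.inv_apply, Subgroup.coe_inv, ← hBinv (u : G) a (ρ (u : G)⁻¹ b),
      ← Module.End.mul_apply (ρ _) (ρ _), ← map_mul, mul_inv_cancel, map_one, Module.End.one_apply]
  have hlh : B (T h) h ≠ 0 := by
    obtain ⟨b, hb⟩ := hBnd (T h) hh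
    obtain ⟨c, hc⟩ := hspan b
    rw [hBT, hc, map_smul, smul_eq_mul] at hb
    rw [hBT]
    exact right_ne_zero_of_mul hb
  have hcomm : ∀ x ∈ E, ∀ w, ρ x (T w) = T (ρ x w) := by
    intro x hx w
    rw [hT, Brauer.normOp, LinearMap.sum_apply, LinearMap.sum_apply, map_sum]
    refine Fintype.sum_equiv
      (Equiv.ofBijective (fun u : (P : Subgroup G) =>
        (⟨x * (u : G) * x⁻¹, hnorm x (hEN hx) _ u.2⟩ : (P : Subgroup G)))
        (Finite.injective_iff_bijective.1 fun a b hab => Subtype.ext
          (by simpa using congrArg Subtype.val hab))) _ _ fun u => ?_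
    simp only [Equiv.ofBijective_apply, ← Module.End.mul_apply, ← map_mul, inv_mul_cancel_right]
  have hfix : ∀ x ∈ E, ρ x (T h) = T h := by
    intro x hx
    obtain ⟨μ, hμ⟩ := hspan (ρ x h)
    rw [← hcomm x hx] at hμ
    have hk0 : T (ρ x h - μ • h) = 0 := by
      rw [map_sub, map_smul, ← hcomm x hx, hμ, sub_self]
    have h1 : B (ρ x (T h)) (ρ x h) = B (T h) h := hBinv x _ _
    have h2 : B (T h) (ρ x h - μ • h) = 0 := by rw [hBT, hk0, map_zero]
    rw [map_sub, map_smul, sub_eq_zero, smul_eq_mul] at h2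
    rw [hμ, map_smul, LinearMap.smul_apply, smul_eq_mul, h2, ← mul_assoc,
      mul_eq_right₀ hlh] at h1
    have hpow : ∀ i : ℕ, ρ (x ^ i) (T h) = μ ^ i • T h := fun i => by
      induction i with
      | zero => rw [pow_zero, map_one, Module.End.one_apply, pow_zero, one_smul]
      | succ i ih =>
        rw [pow_succ, map_mul, Module.End.mul_apply, hμ, map_smul, ih, smul_smul, ← pow_succ']
    have hx1 : x ^ Nat.card E = 1 := by
      exact congrArg Subtype.val (pow_card_eq_one' (x := (⟨x, hx⟩ : E)))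
    have h3 := hpow (Nat.card E)
    rw [hx1, map_one, Module.End.one_apply] at h3
    obtain ⟨d, hd⟩ := hodd
    rw [hd, pow_succ, pow_mul, sq, h1, one_pow, one_mul] at h3
    rw [hμ, ← h3]
  -- the sum over `P E`
  set a : MonoidAlgebra (Block.localRing M) G :=
    ∑ u : (P : Subgroup G), ∑ x : E, MonoidAlgebra.single ((u : G) * (x : G)) 1 with ha
  have hop : op (toF M a) h = (Nat.card E : Block.ResF M) • T h := by
    rw [ha, map_sum, map_sum, LinearMap.sum_apply]
    simp only [map_sum, LinearMap.sum_apply]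
    rw [Finset.sum_comm, Nat.card_eq_fintype_card, Nat.cast_smul_eq_nsmul, ← Finset.card_univ,
      ← Finset.sum_const]
    refine Finset.sum_congr rfl fun x _ => ?_
    rw [← hfix x x.2, hcomm x x.2, hT, Brauer.normOp, LinearMap.sum_apply]
    refine Finset.sum_congr rfl fun u _ => ?_
    rw [← Module.End.mul_apply, ← map_mul, show toF M (MonoidAlgebra.single ((u : G) * (x : G))
      (1 : Block.localRing M)) = MonoidAlgebra.single ((u : G) * (x : G)) 1 by simp]
    rfl
  have hcd : Lattice.cdim ε ({χ} : Set (IrrCharacter G)) (toC M a) = 0 := by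
    set SP : MonoidAlgebra ℂ G := ∑ u : (P : Subgroup G), MonoidAlgebra.single (u : G) 1 with hSP
    set SE : MonoidAlgebra ℂ G := ∑ x : E, MonoidAlgebra.single (x : G) 1 with hSE
    have haC : toC M a = SP * SE := by
      rw [ha, hSP, hSE, map_sum, Finset.sum_mul]
      refine Finset.sum_congr rfl fun u _ => ?_
      rw [map_sum, Finset.mul_sum]
      exact Finset.sum_congr rfl fun x _ => by simp [MonoidAlgebra.single_mul_single]
    have hsq : ∀ Q : Subgroup G, (∑ u : Q, MonoidAlgebra.single (u : G) (1 : ℂ)) *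
        (∑ u : Q, MonoidAlgebra.single (u : G) (1 : ℂ)) =
        (Nat.card Q : ℂ) • ∑ u : Q, MonoidAlgebra.single (u : G) (1 : ℂ) := by
      intro Q
      rw [Finset.sum_mul, Nat.card_eq_fintype_card, Nat.cast_smul_eq_nsmul, ← Finset.card_univ,
        ← Finset.sum_const]
      refine Finset.sum_congr rfl fun u _ => ?_
      rw [Finset.mul_sum]
      exact Fintype.sum_equiv (Equiv.mulLeft u) _ _ fun v => by
        simp [MonoidAlgebra.single_mul_single]
    have hcm : SE * SP = SP * SE := by
      rw [hSE, hSP, Finset.sum_mul, Finset.mul_sum]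
      refine Finset.sum_congr rfl fun x _ => ?_
      rw [Finset.mul_sum, Finset.sum_mul]
      refine Fintype.sum_equiv
        (Equiv.ofBijective (fun u : (P : Subgroup G) =>
          (⟨(x : G) * (u : G) * (x : G)⁻¹, hnorm x (hEN x.2) _ u.2⟩ : (P : Subgroup G)))
          (Finite.injective_iff_bijective.1 fun a b hab => Subtype.ext
            (by simpa using congrArg Subtype.val hab))) _ _ fun u => ?_
      simp [MonoidAlgebra.single_mul_single]
    set c : ℂ := (Nat.card (P : Subgroup G) : ℂ) * (Nat.card E : ℂ) with hc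
    have hc0 : c ≠ 0 := mul_ne_zero (Nat.cast_ne_zero.2 Nat.card_pos.ne')
      (Nat.cast_ne_zero.2 Nat.card_pos.ne')
    have hq : (SP * SE) * (SP * SE) = c • (SP * SE) := by
      calc (SP * SE) * (SP * SE) = SP * (SE * SP) * SE := by simp only [mul_assoc]
        _ = (SP * SP) * (SE * SE) := by rw [hcm]; simp only [mul_assoc]
        _ = c • (SP * SE) := by rw [hsq, hsq, smul_mul_smul_comm, hc]
    have hid : (c⁻¹ • (SP * SE)) * (c⁻¹ • (SP * SE)) = c⁻¹ • (SP * SE) := by
      rw [smul_mul_smul_comm, hq, smul_smul, mul_assoc, inv_mul_cancel₀ hc0, mul_one]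
    have h1 : Lattice.cdim ε ({χ} : Set (IrrCharacter G)) (c⁻¹ • (SP * SE)) = 0 := by
      have h2 := cdim_idem_eq hε hone hid
      have h3 : charLin (χ : G → ℂ) (SP * SE) = 0 := by
        rw [← haC, ha, map_sum, map_sum]
        simp only [map_sum]
        rw [← hsum]
        refine Finset.sum_congr rfl fun u _ => Finset.sum_congr rfl fun x _ => ?_
        rw [show toC M (MonoidAlgebra.single ((u : G) * (x : G)) (1 : Block.localRing M)) =
          MonoidAlgebra.single ((u : G) * (x : G)) 1 by simp, Block.charLin_single, one_mul]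
      rw [map_smul, h3, smul_zero] at h2
      exact_mod_cast h2
    have h2 := Lattice.cdim_mul_le (εG := ε) (S := ({χ} : Set (IrrCharacter G)))
      (algebraMap ℂ (MonoidAlgebra ℂ G) c) (c⁻¹ • (SP * SE))
    rw [h1, ← Algebra.smul_def, smul_smul, mul_inv_cancel₀ hc0, one_smul, ← haC] at h2
    omega
  have h1 := Lattice.rank_op_le (S := ({χ} : Set (IrrCharacter G))) hM hε.eq a
  rw [hcd, Nat.le_zero, Submodule.finrank_eq_zero, LinearMap.range_eq_bot] at h1
  change op (toF M a) = 0 at h1
  rw [h1, LinearMap.zero_apply] at hop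
  exact hh ((smul_eq_zero.1 hop.symm).resolve_left fun h0 =>
    hEp ((CharP.cast_eq_zero_iff (Block.ResF M) p _).1 h0))

end Cfsg.Agent.FGS75.Tree4724
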