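import Cfsg.Agent.FGS75.Tree4724.Defs
import Cfsg.Agent.Char.Virtual
import Cfsg.Agent.Char.Kernel
import Cfsg.Agent.Brauer.CharBasics
import Cfsg.Agent.Lib.CyclicNormal
import Mathlib.Tactic.LinearCombination

/-!
The order of the group from the block data, when the TI complement has odd order.
-/

set_option autoImplicit false

namespace Cfsg.Agent.FGS75.Tree4724

open Cfsg
open scoped Classical ComplexConjugate

universe u

variable {G : Type u} [Group G] [Fintype G] {p : ℕ} [Fact p.Prime] {P : Sylow p G} {E : Subgroup G}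
  {ψ : IrrCharacter G} {C N Y : Finset (IrrCharacter G)}

/-- The elements conjugate to nonidentity elements of `E`. -/
private noncomputable def inSet (E : Subgroup G) : Finset G := Finset.univ.filter fun g => InE E g

/-- The remaining nonidentity elements. -/
private noncomputable def restSet (E : Subgroup G) : Finset G :=
  Finset.univ.filter fun g => g ≠ 1 ∧ ¬ InE E g

private theorem sum_split (E : Subgroup G) (f : G → ℂ) :
    ∑ g, f g = f 1 + ∑ g ∈ inSet E, f g + ∑ g ∈ restSet E, f g := by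
  have h1 : ∀ g, f g = (if g = 1 then f g else 0) + (if InE E g then f g else 0)
      + (if g ≠ 1 ∧ ¬ InE E g then f g else 0) := by
    intro g
    by_cases hg : g = 1
    · simp [hg, InE]
    · by_cases hi : InE E g <;> simp [hg, hi]
  rw [Finset.sum_congr rfl fun g _ => h1 g, Finset.sum_add_distrib, Finset.sum_add_distrib,
    Finset.sum_ite_eq' Finset.univ (1 : G) f, if_pos (Finset.mem_univ _), inSet, restSet,
    Finset.sum_filter, Finset.sum_filter]

private theorem inE_vals (hX : Exc p E ψ C) {g : G} (hg : InE E g) :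
    (ψ : G → ℂ) g = 1 ∧ ∑ c ∈ C, (c : G → ℂ) g = -1 := by
  obtain ⟨hne, h, hh⟩ := hg
  have hx : h * g * h⁻¹ ≠ 1 := fun e => hne (conj_eq_one_iff.1 e)
  refine ⟨(Char.irr_isClassFunction ψ.2 g h).symm.trans (hX.psi_E _ hh hx), ?_⟩
  rw [← hX.C_sum _ hh hx]
  exact Finset.sum_congr rfl fun c _ => (Char.irr_isClassFunction c.2 g h).symm

private theorem inE_zero (hX : Exc p E ψ C) (hB : Blk P E ψ C N Y) {θ : IrrCharacter G}
    (hθ : θ ∈ Y) {g : G} (hg : InE E g) : (θ : G → ℂ) g = 0 := by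
  obtain ⟨hne, h, hh⟩ := hg
  have hx : h * g * h⁻¹ ≠ 1 := fun e => hne (conj_eq_one_iff.1 e)
  rw [← Char.irr_isClassFunction θ.2 g h]
  exact hX.vanish θ (hB.one_not_mem θ (Or.inr (Or.inr hθ))) (fun e => hB.psi_not_mem.2 (e ▸ hθ))
    (fun hc => Finset.disjoint_left.1 hB.disj_CY hc hθ) _ hh hx

/-- Data of one exceptional character: the degree equation and the pointwise square. -/
private theorem square_eq (h : Cfg P E) (hodd : Odd (Nat.card E)) (hX : Exc p E ψ C)
    (hB : Blk P E ψ C N Y) {θ : IrrCharacter G} (hθ : θ ∈ Y) :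
    2 * Nat.card E + 1 = p ∧
      (∀ g, (θ : G → ℂ) g * conj ((θ : G → ℂ) g) = 1 + ∑ c ∈ C, (c : G → ℂ) g) ∧
      ∑ g, (θ : G → ℂ) g * conj ((θ : G → ℂ) g) * conj ((ψ : G → ℂ) g) = 0 := by
  obtain ⟨T, hT⟩ : ∃ T : G → ℂ, T = fun g => (θ : G → ℂ) g * conj ((θ : G → ℂ) g) :=
    ⟨_, rfl⟩
  have hTchar : IsCharacter G T := by
    rw [hT]
    exact Char.isCharacter_mul (Char.isCharacter_of_irr θ.2)
      (Char.isCharacter_conjFun (Char.isCharacter_of_irr θ.2))
  obtain ⟨m, hm, hmi⟩ := Char.isCharacter_exists_coeff hTchar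
  choose d hd0 hd using fun χ : IrrCharacter G => Char.irr_one_pos χ.2
  set one := Char.trivialIrr G with hone
  have hone1 : (one : G → ℂ) = fun _ => 1 := rfl
  have hm1 : m one = 1 := by
    have h1 : classInner T (one : G → ℂ) = classInner (θ : G → ℂ) (θ : G → ℂ) := by
      simp [classInner, hT, hone1]
    rw [hmi, Char.classInner_irr_self θ.2] at h1
    exact_mod_cast h1
  have hmc : ∀ c ∈ C, m c = 1 + m ψ := by
    intro c hc
    have h0 : classInner T (fun g => (c : G → ℂ) g - 1 - (ψ : G → ℂ) g) = 0 := by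
      rw [classInner]
      refine mul_eq_zero_of_right _ (Finset.sum_eq_zero fun g _ => ?_)
      by_cases hg : g = 1
      · subst hg
        rw [hX.C_deg c hc, hX.psi_deg]
        simp
      by_cases hi : InE E g
      · simp only [hT, inE_zero hX hB hθ hi, zero_mul]
      · rw [hX.C_off c hc g hg hi]
        simp
    have e : (fun g => (c : G → ℂ) g - 1 - (ψ : G → ℂ) g) =
        (c : G → ℂ) - (one : G → ℂ) - (ψ : G → ℂ) := rfl
    rw [e, Char.classInner_sub_right, Char.classInner_sub_right, hmi, hmi, hmi, hm1,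
      sub_sub, sub_eq_zero] at h0
    exact_mod_cast h0
  have honeC : one ∉ C := fun hc => hB.one_not_mem one (Or.inl hc) hone1
  have hdC : ∀ c ∈ C, d c = p + 1 := fun c hc => by
    have h1 := (hd c).symm.trans (hX.C_deg c hc)
    exact_mod_cast h1
  have hd1 : d one = 1 := by
    have h1 := (hd one).symm
    rw [hone1] at h1
    exact_mod_cast (show (d one : ℂ) = 1 from h1.symm.symm)
  have hsum : Nat.card E * Nat.card E = ∑ χ, m χ * d χ := by
    have h1 := congrFun hm 1
    rw [Finset.sum_apply] at h1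
    simp only [hT, Pi.smul_apply, hd, map_natCast, nsmul_eq_mul] at h1
    have hθd : Nat.card E = d θ := by exact_mod_cast (hB.Y_deg θ hθ).symm.trans (hd θ)
    rw [hθd]
    exact_mod_cast h1
  set S := insert one C with hS
  have hsplit := Finset.sum_sdiff (f := fun χ => m χ * d χ) (Finset.subset_univ S)
  have hSsum : ∑ χ ∈ S, m χ * d χ = 1 + C.card * ((1 + m ψ) * (p + 1)) := by
    rw [hS, Finset.sum_insert honeC, hm1, hd1, one_mul, Finset.sum_congr rfl
      fun c hc => by rw [hmc c hc, hdC c hc], Finset.sum_const, smul_eq_mul]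
  rw [hSsum, ← hsum] at hsplit
  have hf := hX.card_C
  have hf0 : 1 ≤ C.card := by
    rcases Nat.eq_zero_or_pos C.card with h0 | h0
    · have := h.one_lt; omega
    · exact h0
  obtain ⟨t, ht⟩ := h.dvd
  have hp5 := h.prime_five
  have hpt : p = Nat.card E * t + 1 := by omega
  have hp2 : p = 2 * Nat.card E + 1 := by
    have hle : 1 + C.card * (p + 1) ≤ Nat.card E * Nat.card E := by
      have : C.card * (p + 1) ≤ C.card * ((1 + m ψ) * (p + 1)) :=
        Nat.mul_le_mul_left _ (Nat.le_mul_of_pos_left _ (by omega))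
      omega
    have hple : p ≤ 2 * Nat.card E + 1 := by nlinarith
    rcases t with _ | _ | _ | t
    · omega
    · exfalso
      have hodd' : Odd p := (Fact.out : p.Prime).odd_of_ne_two (by omega)
      obtain ⟨a, ha⟩ := hodd
      obtain ⟨b, hb⟩ := hodd'
      omega
    · omega
    · exfalso
      have := h.one_lt
      nlinarith
  have hEE : Nat.card E * Nat.card E = 1 + C.card * (p + 1) := by rw [← hf, hp2, ← hf]; ring
  have hmψ : m ψ = 0 := by
    by_contra hne
    have : C.card * (p + 1) < C.card * ((1 + m ψ) * (p + 1)) := by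
      exact Nat.mul_lt_mul_of_pos_left (lt_mul_of_one_lt_left (by omega) (by omega)) hf0
    omega
  have hrest : ∀ χ ∉ S, m χ = 0 := by
    intro χ hχ
    have hz : ∑ χ ∈ Finset.univ \ S, m χ * d χ = 0 := by
      rw [hmψ] at hsplit
      simp only [Nat.add_zero, one_mul] at hsplit
      omega
    have h1 := (Finset.sum_eq_zero_iff.1 hz) χ (by simp [hχ])
    rcases Nat.mul_eq_zero.1 h1 with h1 | h1
    · exact h1
    · exact absurd h1 (hd0 χ).ne'
  refine ⟨hp2.symm, fun g => ?_, ?_⟩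
  · have h1 := congrFun hm g
    simp only [hT, Finset.sum_apply, nsmul_eq_mul] at h1
    rw [h1, ← Finset.sum_subset (Finset.subset_univ S) fun χ _ hχ => by simp [hrest χ hχ],
      hS, Finset.sum_insert honeC, hm1, hone1, Nat.cast_one, one_mul]
    congr 1
    exact Finset.sum_congr rfl fun c hc => by rw [hmc c hc, hmψ]; simp
  · have h1 := hmi ψ
    rw [hmψ, Nat.cast_zero, classInner, mul_eq_zero] at h1
    simpa [hT] using h1.resolve_left (inv_ne_zero Char.card_ne_zero_complex)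

/-- The sum of `χ(y) χ(y⁻¹) conj χ(u) / χ(1)` is a nonnegative number. -/
private theorem re_classProduct_nonneg (y u : G) :
    0 ≤ (∑ χ : IrrCharacter G, (χ : G → ℂ) y * conj ((χ : G → ℂ) y) * conj ((χ : G → ℂ) u) /
      (χ : G → ℂ) 1).re := by
  have h1 : ∑ a : G, ∑ χ : IrrCharacter G,
      (χ : G → ℂ) (a * y * a⁻¹ * y⁻¹) * conj ((χ : G → ℂ) u) =
        (Nat.card G : ℂ) * ∑ χ : IrrCharacter G,
          (χ : G → ℂ) y * conj ((χ : G → ℂ) y) * conj ((χ : G → ℂ) u) / (χ : G → ℂ) 1 := by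
    rw [Finset.sum_comm, Finset.mul_sum]
    refine Finset.sum_congr rfl fun χ _ => ?_
    rw [← Finset.sum_mul, Brauer.irr_conj_sum' χ.2, Char.irr_inv χ.2]
    ring
  have h2 : 0 ≤ (∑ a : G, ∑ χ : IrrCharacter G,
      (χ : G → ℂ) (a * y * a⁻¹ * y⁻¹) * conj ((χ : G → ℂ) u)).re := by
    rw [Complex.re_sum]
    refine Finset.sum_nonneg fun a _ => ?_
    rw [Char.sum_irr_mul_conj]
    split_ifs
    · simp
    · simp
  rw [h1, Complex.mul_re, Complex.natCast_re, Complex.natCast_im, zero_mul, sub_zero] at h2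
  exact (mul_nonneg_iff_of_pos_left (Nat.cast_pos.2 Nat.card_pos)).1 h2

private theorem cauchy_step {e f K α S s : ℝ} (he : e = 2 * f + 1) (hf : 1 ≤ f)
    (hK : K = 1 + f * (1 + s)) (hKe : e ≤ K) (hS : K ^ 2 - 2 * K * α + K ≤ f * S)
    (hineq : 0 ≤ 1 + f * (1 + s) ^ 2 / (2 * e + 2) - S / (2 * e) - K / e) : 0 ≤ α := by
  by_contra hα
  push Not at hα
  have he0 : 0 < e := by linarith
  have hf0 : (0 : ℝ) < f := by linarith
  have h1 : f * (1 + s) = K - 1 := by linarith
  have h2 : 0 ≤ 2 * e * (e + 1) * f + e * (K - 1) ^ 2 - (e + 1) * (f * S) - 2 * (e + 1) * f * K := by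
    have h := mul_nonneg (by positivity : (0 : ℝ) ≤ 2 * e * (e + 1) * f) hineq
    have : 2 * e * (e + 1) * f * (1 + f * (1 + s) ^ 2 / (2 * e + 2) - S / (2 * e) - K / e) =
        2 * e * (e + 1) * f + e * (f * (1 + s)) ^ 2 - (e + 1) * (f * S) - 2 * (e + 1) * f * K := by
      field_simp
    rw [this, h1] at h
    exact h
  have h3 : 0 ≤ e * (e ^ 2 - 1) + e * (K - 1) ^ 2 - (e + 1) * (K ^ 2 - 2 * K * α + K)
      - (e ^ 2 - 1) * K := by
    have := mul_le_mul_of_nonneg_left hS (by linarith : (0 : ℝ) ≤ e + 1)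
    have e1 : 2 * e * (e + 1) * f = e * (e ^ 2 - 1) := by rw [he]; ring
    have e2 : 2 * (e + 1) * f * K = (e ^ 2 - 1) * K := by rw [he]; ring
    rw [e1, e2] at h2
    linarith
  have h4 : 0 < e ^ 3 - K ^ 2 - (3 * e + e ^ 2) * K := by
    have : (e + 1) * (2 * K * α) < 0 :=
      mul_neg_of_pos_of_neg (by linarith) (mul_neg_of_pos_of_neg (by linarith) hα)
    nlinarith
  nlinarith [mul_le_mul_of_nonneg_left hKe (by positivity : (0 : ℝ) ≤ 3 * e + e ^ 2),
    sq_nonneg K]

private theorem re_nonneg (h : Cfg P E) (hX : Exc p E ψ C) (hB : Blk P E ψ C N Y)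
    (hodd : Odd (Nat.card E)) {θ : IrrCharacter G} (hθ : θ ∈ Y) {y : G} (hy : ¬ p ∣ orderOf y)
    (hy1 : y ≠ 1) (hyE : ¬ InE E y) (s : ℤ) (hs : (ψ : G → ℂ) y = s) (hs0 : s ≠ 0)
    (hs1 : s ≠ -1) : 0 ≤ ((θ : G → ℂ) y).re := by
  obtain ⟨hp2, hsq, -⟩ := square_eq h hodd hX hB hθ
  obtain ⟨a, ha⟩ : ∃ a : ℂ, a = (θ : G → ℂ) y := ⟨_, rfl⟩
  rw [← ha]
  have hf := hX.card_C
  have hN := hB.card_N
  have hf1 : 1 ≤ C.card := by have := h.one_lt; omega
  have hCy : ∑ c ∈ C, (c : G → ℂ) y = (C.card : ℂ) * (1 + s) := by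
    rw [Finset.sum_congr rfl fun c hc => hX.C_off c hc y hy1 hyE, Finset.sum_const, nsmul_eq_mul,
      hs]
  obtain ⟨K, hK⟩ : ∃ K : ℝ, K = 1 + (C.card : ℝ) * (1 + s) := ⟨_, rfl⟩
  have hKc : (K : ℂ) = 1 + (C.card : ℂ) * (1 + s) := by rw [hK]; push_cast; ring
  have hKsq : Complex.normSq a = K := by
    have := hsq y
    rw [← ha, hCy, Complex.mul_conj, ← hKc] at this
    exact_mod_cast this
  by_cases hsneg : s ≤ -2
  · -- forces `a = 0`
    have hK0 : K ≤ 0 := by
      rw [hK]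
      have h2 : (1 + s : ℝ) ≤ -1 := by
        have : (s : ℝ) ≤ -2 := by exact_mod_cast hsneg
        linarith
      have : (1 : ℝ) ≤ C.card := by exact_mod_cast hf1
      nlinarith
    have : a = 0 := Complex.normSq_eq_zero.1 (le_antisymm (hKsq ▸ hK0) (Complex.normSq_nonneg _))
    simp [this]
  have hs2 : 1 ≤ s := by omega
  obtain ⟨u, hu, hu1⟩ : ∃ u ∈ (P : Subgroup G), u ≠ 1 := by
    by_contra hc
    push Not at hc
    have : (P : Subgroup G) = ⊥ := (Subgroup.eq_bot_iff_forall _).2 hc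
    have h1 := h.cardP
    rw [show Nat.card P = Nat.card (P : Subgroup G) from rfl, this, Subgroup.card_bot] at h1
    exact (Fact.out : p.Prime).one_lt.ne h1
  have hnn := re_classProduct_nonneg y u
  set one := Char.trivialIrr G with hone
  set F : IrrCharacter G → ℂ := fun χ =>
    (χ : G → ℂ) y * conj ((χ : G → ℂ) y) * conj ((χ : G → ℂ) u) / (χ : G → ℂ) 1 with hF
  have honeC : one ∉ C ∪ (N ∪ Y) := fun hc => hB.one_not_mem one
    (by simpa [Finset.mem_union] using hc) rfl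
  have hdisj1 : Disjoint C (N ∪ Y) := Finset.disjoint_union_right.2 ⟨hB.disj_CN, hB.disj_CY⟩
  have hsumF : ∑ χ, F χ = F one + (∑ c ∈ C, F c + (∑ χ ∈ N, F χ + ∑ χ ∈ Y, F χ)) := by
    rw [← Finset.sum_union hB.disj_NY, ← Finset.sum_union hdisj1, ← Finset.sum_insert honeC]
    refine (Finset.sum_subset (Finset.subset_univ _) fun χ _ hχ => ?_).symm
    simp only [Finset.mem_insert, Finset.mem_union, not_or] at hχ
    have hz : (χ : G → ℂ) u = 0 := by
      by_contra hne
      rcases hB.support χ u hu hu1 hne with h' | h' | h' | h'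
      · exact hχ.1 (Subtype.ext h')
      · exact hχ.2.1 h'
      · exact hχ.2.2.1 h'
      · exact hχ.2.2.2 h'
    simp [hF, hz]
  have hF1 : F one = 1 := by simp [hF, hone, Char.trivialIrr]
  have hFC : ∑ c ∈ C, F c =
      (((C.card : ℝ) * (1 + s) ^ 2 / (p + 1) : ℝ) : ℂ) := by
    rw [Finset.sum_congr rfl fun c hc => show F c = (1 + (s : ℂ)) ^ 2 / (p + 1) by
      simp only [hF, hX.C_off c hc y hy1 hyE, hs, hB.C_P c hc u hu hu1, hX.C_deg c hc, map_add,
        map_one, map_intCast]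
      ring, Finset.sum_const, nsmul_eq_mul]
    push_cast
    ring
  have hFN : ∑ χ ∈ N, F χ =
      ((-(∑ χ ∈ N, Complex.normSq ((χ : G → ℂ) y)) / ((p : ℝ) - 1) : ℝ) : ℂ) := by
    rw [Finset.sum_congr rfl fun χ hχ => show F χ =
        -(Complex.normSq ((χ : G → ℂ) y) : ℂ) / ((p : ℂ) - 1) by
      simp only [hF, Complex.mul_conj, hB.N_P χ hχ u hu hu1, hB.N_deg χ hχ, map_neg, map_one]
      ring]
    push_cast
    rw [← Finset.sum_div, Finset.sum_neg_distrib]
  have hrel : ∀ θ' ∈ Y, (θ' : G → ℂ) y = a := fun θ' hθ' => by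
    rw [ha]; exact add_right_cancel ((hB.rel θ' hθ' y hy).trans (hB.rel θ hθ y hy).symm)
  have hFY : ∑ χ ∈ Y, F χ = ((-(K / (Nat.card E : ℝ)) : ℝ) : ℂ) := by
    have hc := congrArg (starRingEnd ℂ) (hB.Y_P u hu hu1)
    rw [map_sum, map_neg, map_one] at hc
    rw [Finset.sum_congr rfl fun χ hχ => show F χ =
        ((K : ℂ) / (Nat.card E : ℂ)) * conj ((χ : G → ℂ) u) by
      simp only [hF, hrel χ hχ, Complex.mul_conj, hKsq, hB.Y_deg χ hχ]
      ring, ← Finset.mul_sum, hc]
    push_cast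
    ring
  change 0 ≤ (∑ χ, F χ).re at hnn
  rw [hsumF, hF1, hFC, hFN, hFY] at hnn
  simp only [Complex.add_re, Complex.one_re, Complex.ofReal_re] at hnn
  have hcs : K ^ 2 - 2 * K * a.re + K ≤
      (N.card : ℝ) * ∑ χ ∈ N, Complex.normSq ((χ : G → ℂ) y) := by
    have hr : ∑ χ ∈ N, (χ : G → ℂ) y = (K : ℂ) - a := by
      have := hB.rel θ hθ y hy
      rw [← ha, hCy, ← hKc] at this
      rw [← this]; ring
    have hns : K ^ 2 - 2 * K * a.re + K = Complex.normSq (∑ χ ∈ N, (χ : G → ℂ) y) := by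
      rw [hr, Complex.normSq_apply]
      have := Complex.normSq_apply a
      simp only [Complex.sub_re, Complex.sub_im, Complex.ofReal_re, Complex.ofReal_im]
      nlinarith [hKsq]
    rw [hns, ← Complex.sq_norm]
    calc ‖∑ χ ∈ N, (χ : G → ℂ) y‖ ^ 2 ≤ (∑ χ ∈ N, ‖(χ : G → ℂ) y‖) ^ 2 := by
          gcongr; exact norm_sum_le _ _
      _ ≤ (N.card : ℝ) * ∑ χ ∈ N, ‖(χ : G → ℂ) y‖ ^ 2 := sq_sum_le_card_mul_sum_sq
      _ = _ := by simp only [Complex.sq_norm]
  have hNC : (N.card : ℝ) = C.card := by exact_mod_cast (show N.card = C.card by omega)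
  rw [hNC] at hcs
  have hfr : (1 : ℝ) ≤ C.card := by exact_mod_cast hf1
  have her : (Nat.card E : ℝ) = 2 * C.card + 1 := by exact_mod_cast hf.symm
  have hpr : (p : ℝ) = 2 * (Nat.card E : ℝ) + 1 := by exact_mod_cast hp2.symm
  have hKe : (Nat.card E : ℝ) ≤ K := by
    rw [her, hK]
    have : (2 : ℝ) ≤ 1 + s := by
      have : (1 : ℝ) ≤ s := by exact_mod_cast hs2
      linarith
    nlinarith
  refine cauchy_step her hfr hK hKe hcs ?_
  rw [hpr] at hnn
  have e1 : (2 * (Nat.card E : ℝ) + 1 + 1) = 2 * (Nat.card E : ℝ) + 2 := by ring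
  have e2 : (2 * (Nat.card E : ℝ) + 1 - 1) = 2 * (Nat.card E : ℝ) := by ring
  rw [e1, e2, neg_div] at hnn
  linarith

theorem order_eq (h : Cfg P E) (hodd : Odd (Nat.card E)) {ψ : IrrCharacter G}
    {C N Y : Finset (IrrCharacter G)} (hX : Exc p E ψ C) (hB : Blk P E ψ C N Y) :
    2 * Nat.card E + 1 = p ∧ Nat.card (Sylow p G) = p + 1 := by
  have hp5 := h.prime_five
  obtain ⟨θ, hθ⟩ : ∃ θ, θ ∈ Y := by
    refine Finset.card_pos.1 (Nat.pos_of_ne_zero fun h0 => ?_)
    have := hB.card_Y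
    rw [h0, zero_mul] at this
    omega
  obtain ⟨hp2, hsq, hψ0⟩ := square_eq h hodd hX hB hθ
  refine ⟨hp2, ?_⟩
  have hf := hX.card_C
  obtain ⟨c, hc⟩ : ∃ c, c ∈ C := by
    refine Finset.card_pos.1 (Nat.pos_of_ne_zero fun h0 => ?_)
    have := h.one_lt
    omega
  choose s hs using hX.psi_int
  set I := inSet E
  set R := restSet E
  have hI : ∀ g ∈ I, InE E g := fun g hg => (Finset.mem_filter.1 hg).2
  have hR : ∀ g ∈ R, g ≠ 1 ∧ ¬ InE E g := fun g hg => (Finset.mem_filter.1 hg).2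
  have hcψ : ∀ g, conj ((ψ : G → ℂ) g) = (ψ : G → ℂ) g := fun g => by
    rw [hs, map_intCast]
  -- the three linear relations
  have hA : (p : ℂ) ^ 2 + I.card + ∑ g ∈ R, (s g : ℂ) ^ 2 = (Nat.card G : ℂ) := by
    have h1 := Char.sum_mul_conj_eq_card_mul_classInner (ψ : G → ℂ) (ψ : G → ℂ)
    rw [Char.classInner_irr_self ψ.2, mul_one, sum_split E, hX.psi_deg,
      Finset.sum_congr rfl fun g hg => show (ψ : G → ℂ) g * conj ((ψ : G → ℂ) g) = 1 by
        rw [(inE_vals hX (hI g hg)).1, map_one, one_mul],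
      Finset.sum_const, nsmul_eq_mul, mul_one, map_natCast,
      Finset.sum_congr rfl fun g _ => show (ψ : G → ℂ) g * conj ((ψ : G → ℂ) g) =
        (s g : ℂ) ^ 2 by rw [hcψ, hs, sq]] at h1
    rw [sq]; exact h1
  have hB' : (p : ℂ) + I.card + ∑ g ∈ R, (s g : ℂ) = 0 := by
    have h1 := Char.irr_sum_eq_zero ψ.2 (fun e => by
      have := congrFun e 1
      rw [hX.psi_deg] at this
      have : p = 1 := by exact_mod_cast this
      omega)
    rw [sum_split E, hX.psi_deg,
      Finset.sum_congr rfl fun g hg => (inE_vals hX (hI g hg)).1,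
      Finset.sum_const, nsmul_eq_mul, mul_one, Finset.sum_congr rfl fun g _ => hs g] at h1
    exact h1
  have hC' : (Nat.card E : ℂ) ^ 2 * p +
      ∑ g ∈ R, (1 + (C.card : ℂ) * (1 + s g)) * (s g : ℂ) = 0 := by
    rw [sum_split E, Finset.sum_eq_zero fun g hg => show (θ : G → ℂ) g * conj ((θ : G → ℂ) g) *
        conj ((ψ : G → ℂ) g) = 0 by rw [inE_zero hX hB hθ (hI g hg)]; simp,
      add_zero, hB.Y_deg θ hθ, hX.psi_deg, map_natCast, map_natCast,
      Finset.sum_congr rfl fun g hg => show (θ : G → ℂ) g * conj ((θ : G → ℂ) g) *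
        conj ((ψ : G → ℂ) g) = (1 + (C.card : ℂ) * (1 + s g)) * (s g : ℂ) by
        rw [hsq, Finset.sum_congr rfl fun c hc => hX.C_off c hc g (hR g hg).1 (hR g hg).2,
          Finset.sum_const, nsmul_eq_mul, hcψ, hs]] at hψ0
    rw [sq]; exact hψ0
  -- the multiplicity of `c` in `θψ`
  obtain ⟨k, hk⟩ := Char.isCharacter_classInner_nat
    (Char.isCharacter_mul (Char.isCharacter_of_irr θ.2) (Char.isCharacter_of_irr ψ.2)) c
  have hK : (Nat.card E : ℂ) * p * (p + 1) + ∑ g ∈ R, (θ : G → ℂ) g * ((s g : ℂ) * (s g + 1)) =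
      (Nat.card G : ℂ) * k := by
    have h1 := Char.sum_mul_conj_eq_card_mul_classInner
      (fun g => (θ : G → ℂ) g * (ψ : G → ℂ) g) (c : G → ℂ)
    have hk' : classInner (fun g => (θ : G → ℂ) g * (ψ : G → ℂ) g) (c : G → ℂ) = k := hk
    rw [hk', sum_split E,
      Finset.sum_eq_zero fun g hg => show (θ : G → ℂ) g * (ψ : G → ℂ) g *
        conj ((c : G → ℂ) g) = 0 by rw [inE_zero hX hB hθ (hI g hg)]; simp,
      add_zero, hB.Y_deg θ hθ, hX.psi_deg, hX.C_real c hc, hX.C_deg c hc,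
      Finset.sum_congr rfl fun g hg => show (θ : G → ℂ) g * (ψ : G → ℂ) g *
        conj ((c : G → ℂ) g) = (θ : G → ℂ) g * ((s g : ℂ) * (s g + 1)) by
        rw [hX.C_real c hc, hX.C_off c hc g (hR g hg).1 (hR g hg).2, hs]; ring] at h1
    exact h1
  obtain ⟨A, hAdef⟩ : ∃ A : ℂ, A = ∑ g ∈ R, (s g : ℂ) ^ 2 := ⟨_, rfl⟩
  obtain ⟨B, hBdef⟩ : ∃ B : ℂ, B = ∑ g ∈ R, (s g : ℂ) := ⟨_, rfl⟩
  have hC'' : (Nat.card E : ℂ) ^ 2 * p + ((1 + (C.card : ℂ)) * B + (C.card : ℂ) * A) = 0 := by
    rw [← hC', hAdef, hBdef, Finset.mul_sum, Finset.mul_sum, ← Finset.sum_add_distrib]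
    congr 1
    exact Finset.sum_congr rfl fun g _ => by ring
  rw [← hAdef] at hA
  rw [← hBdef] at hB'
  have hsumR : ∑ g ∈ R, (s g : ℂ) * (s g + 1) = A + B := by
    rw [hAdef, hBdef, ← Finset.sum_add_distrib]
    exact Finset.sum_congr rfl fun g _ => by ring
  have hfC : 2 * (C.card : ℂ) + 1 = (Nat.card E : ℂ) := by exact_mod_cast hf
  have hpC : (p : ℂ) = 2 * (Nat.card E : ℂ) + 1 := by exact_mod_cast hp2.symm
  have hI' : (Nat.card E : ℂ) * I.card = (C.card : ℂ) * (Nat.card G : ℂ) := by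
    linear_combination hC'' * (-1 : ℂ) + (C.card : ℂ) * hA + (1 + (C.card : ℂ)) * hB'
      + (-(I.card : ℂ)) * hfC + ((-(p : ℂ)) * (C.card : ℂ)) * hpC
      + (-((p : ℂ) * ((Nat.card E : ℂ) + 1))) * hfC
  have hmain : (Nat.card E : ℂ) * (A + B) =
      (Nat.card G : ℂ) - (Nat.card E : ℂ) * p * (p + 1) := by
    linear_combination (Nat.card E : ℂ) * hA + (Nat.card E : ℂ) * hB' - 2 * hI'
      - (Nat.card G : ℂ) * hfC
  have hkey : ∑ g ∈ R, ((Nat.card E : ℂ) - (θ : G → ℂ) g) * ((s g : ℂ) * (s g + 1)) =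
      (Nat.card G : ℂ) * (1 - k) := by
    simp only [sub_mul]
    rw [Finset.sum_sub_distrib, ← Finset.mul_sum, hsumR, hmain]
    linear_combination -hK
  -- signs
  have hss : ∀ g, (0 : ℝ) ≤ (s g : ℝ) * (s g + 1) := fun g => by
    rcases le_or_gt 0 (s g) with hg | hg
    · have : (0 : ℝ) ≤ s g := by exact_mod_cast hg
      positivity
    · have : (s g : ℝ) ≤ -1 := by exact_mod_cast (show s g ≤ -1 by omega)
      nlinarith
  have hre0 : ∀ g ∈ R, 0 ≤ ((θ : G → ℂ) g).re * ((s g : ℝ) * (s g + 1)) := by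
    intro g hg
    by_cases hz : s g = 0 ∨ s g = -1
    · rcases hz with hz | hz <;> simp [hz]
    push Not at hz
    have hreg : ¬ p ∣ orderOf g := fun hd => hz.1 (by
      have := hX.psi_sing g hd
      rw [hs] at this
      exact_mod_cast this)
    exact mul_nonneg (re_nonneg h hX hB hodd hθ hreg (hR g hg).1 (hR g hg).2 (s g) (hs g)
      hz.1 hz.2) (hss g)
  have hrele : ∀ g, ((θ : G → ℂ) g).re ≤ (Nat.card E : ℝ) := fun g => by
    refine (Complex.re_le_norm _).trans ((Char.isCharacter_norm_le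
      (Char.isCharacter_of_irr θ.2) g).trans ?_)
    rw [hB.Y_deg θ hθ]
    simp
  have hk1 : 1 ≤ k := by
    by_contra hk0
    have hk0' : k = 0 := by omega
    rw [hk0', Nat.cast_zero, mul_zero] at hK
    have h1 := congrArg Complex.re hK
    simp only [Complex.add_re, Complex.re_sum, Complex.mul_re, Complex.mul_im, Complex.natCast_re,
      Complex.natCast_im, Complex.one_re, Complex.one_im, Complex.intCast_re, Complex.intCast_im,
      Complex.add_im, Complex.zero_re, mul_zero, zero_mul, sub_zero, add_zero] at h1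
    have h2 := Finset.sum_nonneg hre0
    have h3 : (0 : ℝ) < (Nat.card E : ℝ) * p * (p + 1) := by
      have : (0 : ℝ) < Nat.card E := Nat.cast_pos.2 Nat.card_pos
      have : (0 : ℝ) < p := Nat.cast_pos.2 (by omega)
      positivity
    linarith
  have hzero : ∀ g ∈ R, ((Nat.card E : ℝ) - ((θ : G → ℂ) g).re) * ((s g : ℝ) * (s g + 1)) = 0 := by
    have h1 := congrArg Complex.re hkey
    simp only [Complex.re_sum, Complex.mul_re, Complex.mul_im, Complex.sub_re, Complex.sub_im,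
      Complex.natCast_re, Complex.natCast_im, Complex.one_re, Complex.one_im, Complex.intCast_re,
      Complex.intCast_im, Complex.add_re, Complex.add_im, mul_zero, zero_mul, sub_zero, add_zero]
      at h1
    have h2 : ∀ g ∈ R, 0 ≤ ((Nat.card E : ℝ) - ((θ : G → ℂ) g).re) * ((s g : ℝ) * (s g + 1)) :=
      fun g _ => mul_nonneg (sub_nonneg.2 (hrele g)) (hss g)
    refine (Finset.sum_eq_zero_iff_of_nonneg h2).1 (le_antisymm ?_ (Finset.sum_nonneg h2))
    rw [h1]
    have : (1 : ℝ) ≤ k := by exact_mod_cast hk1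
    exact mul_nonpos_of_nonneg_of_nonpos (Nat.cast_nonneg _) (by linarith)
  -- no element of the kernel
  have hR0 : A + B = 0 := by
    rw [← hsumR]
    refine Finset.sum_eq_zero fun g hg => ?_
    rcases mul_eq_zero.1 (hzero g hg) with hz | hz
    · exfalso
      have hn := Char.isCharacter_norm_le (Char.isCharacter_of_irr θ.2) g
      rw [hB.Y_deg θ hθ] at hn
      simp only [Complex.natCast_re] at hn
      have hre : ((θ : G → ℂ) g).re = (Nat.card E : ℝ) := by linarith
      have him : ((θ : G → ℂ) g).im = 0 := by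
        have h1 := Complex.sq_norm ((θ : G → ℂ) g)
        rw [Complex.normSq_apply, hre] at h1
        have h2 := pow_le_pow_left₀ (norm_nonneg _) hn 2
        exact mul_self_eq_zero.1 (le_antisymm (by nlinarith) (mul_self_nonneg _))
      have heq : (θ : G → ℂ) g = (θ : G → ℂ) 1 := by
        rw [hB.Y_deg θ hθ]; exact Complex.ext (by simpa using hre) (by simpa using him)
      obtain ⟨K, hKn, hKmem⟩ := Char.isCharacter_exists_kernel (Char.isCharacter_of_irr θ.2)
      have := h.simple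
      rcases hKn.eq_bot_or_eq_top with hbot | htop
      · exact (hR g hg).1 (Subgroup.mem_bot.1 (hbot ▸ (hKmem g).2 heq))
      · have hconst : ∀ x, (θ : G → ℂ) x = (Nat.card E : ℂ) := fun x => by
          rw [← hB.Y_deg θ hθ]; exact (hKmem x).1 (htop ▸ Subgroup.mem_top x)
        have h1 := Char.irr_sum_eq_zero θ.2 (hB.one_not_mem θ (Or.inr (Or.inr hθ)))
        rw [Finset.sum_congr rfl fun x _ => hconst x, Finset.sum_const, nsmul_eq_mul] at h1
        rcases mul_eq_zero.1 h1 with h1 | h1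
        · exact Finset.card_ne_zero_of_mem (Finset.mem_univ g) (by exact_mod_cast h1)
        · exact Nat.card_pos.ne' (by exact_mod_cast h1)
    · exact_mod_cast hz
  rw [hR0, mul_zero] at hmain
  have hG : Nat.card G = Nat.card E * p * (p + 1) := by
    exact_mod_cast (sub_eq_zero.1 hmain.symm)
  have hEN : E ≤ Subgroup.normalizer ((P : Subgroup G) : Set G) := h.normP ▸ le_sup_right
  have hNcard : Nat.card (Subgroup.normalizer ((P : Subgroup G) : Set G)) = Nat.card E * p := by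
    rw [← h.normP, sup_comm, CyclicNormal.card_sup_of_disjoint hEN (inf_comm _ _ |>.trans h.disj)]
    rw [show Nat.card (P : Subgroup G) = p from h.cardP]
  have h1 := Subgroup.card_mul_index (Subgroup.normalizer ((P : Subgroup G) : Set G))
  rw [hNcard, hG] at h1
  rw [Sylow.card_eq_index_normalizer P]
  exact Nat.eq_of_mul_eq_mul_left (Nat.mul_pos Nat.card_pos (by omega)) h1

end Cfsg.Agent.FGS75.Tree4724
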