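import Cfsg.Agent.FGS75.Tree4724.Tree
import Cfsg.Agent.BlkChar.PModular
import Cfsg.Agent.FGS75.Tree4724.Basic
import Cfsg.Agent.FGS75.Tree4724.End
import Cfsg.Agent.FGS75.Tree4724.Exc
import Cfsg.Agent.FGS75.Tree4724.Order
import Cfsg.Agent.FGS75.Tree4724.Even

/-!
Assembly.
-/

set_option autoImplicit false
set_option linter.style.haveILetI false

namespace Cfsg.Agent.FGS75.Tree4724

open Cfsg
open scoped Classical

universe u

variable {G : Type u} [Group G] [Fintype G] {p : ℕ} [Fact p.Prime] {P : Sylow p G} {E : Subgroup G}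

/-- The order of a group satisfying the normalized hypotheses. -/
theorem order_of_cfg (h : Cfg P E) :
    2 * Nat.card E + 1 = p ∧ Nat.card (Sylow p G) = p + 1 := by
  rcases Nat.even_or_odd (Nat.card E) with hev | hodd
  · exact even_case h hev
  obtain ⟨ψ, C, hX⟩ := exists_exc h hodd
  obtain ⟨M, hM⟩ := BlkChar.exists_isPModular p (Fact.out : p.Prime)
  haveI : M.IsPrime := Block.isPrime_of_isPModular hM
  haveI := Block.charP_resF hM
  obtain ⟨N, Y, hB⟩ := exists_blk h hodd hM hX
  exact order_eq h hodd hX hB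

end Cfsg.Agent.FGS75.Tree4724
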