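import Cfsg.Agent.FGS75.Tree4724.Defs
import Cfsg.Agent.BlockCount.CyclicSpread
import Cfsg.Agent.S4652

/-!
Characters with the same constant value on a self-centralizing Sylow subgroup of prime order occur
at most once in a projective indecomposable.
-/

set_option autoImplicit false
set_option linter.all false

namespace Cfsg.Agent.FGS75.Tree4724

open Cfsg
open Cfsg.Agent.Block (toF)
open Cfsg.Agent.Brauer.ProjVec (ev)
open Cfsg.Agent.BrauerPairs Cfsg.Agent.BrauerPairs.Nil
open Cfsg.Agent.BlockCount (CycData)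
open Cfsg.Agent.BlkChar.Contrib (mult)
open scoped Classical ComplexConjugate

universe u

variable {G : Type u} [Group G] [Fintype G] {p : ℕ} [Fact p.Prime] {P : Sylow p G}

/-- The difference of the multiplicities of the trivial and of another linear character. -/
private theorem mult_sub {L : Subgroup G} [Fintype L] (hL : Nat.card L = p)
    (hcomm : ∀ a b : L, a * b = b * a) (χ : IrrCharacter G) (s : ℤ)
    (hχ : ∀ g : L, g ≠ 1 → (χ : G → ℂ) g = (s : ℂ)) {η : IrrCharacter L}
    (hη : η ≠ Char.trivialIrr L) :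
    (mult L χ (Char.trivialIrr L) : ℤ) - mult L χ η = s := by
  have hm : ∀ θ : IrrCharacter L,
      classInner (fun g : L => (χ : G → ℂ) g) (θ : L → ℂ) = (mult L χ θ : ℂ) := fun θ =>
    (Char.isCharacter_exists_coeff
      (Char.isCharacter_restrict (Char.isCharacter_of_irr χ.2) L)).choose_spec.2 θ
  have hη1 : (η : L → ℂ) 1 = 1 := CharInd.irr_one_of_comm hcomm η.2
  have hsum : ∑ g : L, (η : L → ℂ) g = 0 :=
    Char.irr_sum_eq_zero η.2 fun h => hη (Subtype.ext h)
  have key : ∑ g : L, ((χ : G → ℂ) g * conj ((Char.trivialIrr L : L → ℂ) g)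
      - (χ : G → ℂ) g * conj ((η : L → ℂ) g)) = (s : ℂ) * (p : ℂ) := by
    calc _ = ∑ g : L, (s : ℂ) * (1 - conj ((η : L → ℂ) g)) := by
          refine Finset.sum_congr rfl fun g _ => ?_
          rw [show ((Char.trivialIrr L : IrrCharacter L) : L → ℂ) g = 1 from rfl, map_one, mul_one]
          by_cases hg : g = 1
          · subst hg; rw [hη1, map_one]; ring
          · rw [hχ g hg]; ring
      _ = _ := by
          rw [← Finset.mul_sum, Finset.sum_sub_distrib, ← map_sum, hsum, map_zero, sub_zero,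
            Finset.sum_const, Finset.card_univ, ← Nat.card_eq_fintype_card, hL]
          simp
  apply Int.cast_injective (α := ℂ)
  push_cast
  rw [← hm, ← hm, classInner, classInner, ← mul_sub, ← Finset.sum_sub_distrib, key, hL]
  have : (p : ℂ) ≠ 0 := Nat.cast_ne_zero.2 (Fact.out : p.Prime).ne_zero
  field_simp

variable {M : Ideal AlgInt} [M.IsPrime] [CharP (Block.ResF M) p]

/-- Characters with the same constant value `1` or `-1` on the nonidentity elements of `P` occur
at most once in a projective indecomposable. -/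
theorem sum_le_one (hM : IsPModular p M) (hP : Nat.card P = p)
    (hC : Subgroup.centralizer ((P : Subgroup G) : Set G) = P)
    {ε : MonoidAlgebra (Block.localRing M) G} (hε : IsIdempotentElem ε)
    (hprim : Brauer.PrimIdem.IsPrim (toF M ε)) (d : IrrCharacter G → ℕ)
    (hd : ∀ χ : IrrCharacter G, ev (χ : G → ℂ) ε = d χ)
    (S : Finset (IrrCharacter G)) (s : ℤ) (hs : s = 1 ∨ s = -1)
    (hS : ∀ χ ∈ S, ∀ x ∈ (P : Subgroup G), x ≠ 1 → (χ : G → ℂ) x = (s : ℂ)) :
    ∑ χ ∈ S, d χ ≤ 1 := by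
  haveI : IsCyclic (P : Subgroup G) := isCyclic_of_prime_card hP
  obtain ⟨x, hx⟩ : ∃ x : G, Subgroup.zpowers x = (P : Subgroup G) :=
    (Subgroup.isCyclic_iff_exists_zpowers_eq_top _).1 inferInstance
  have hxo : orderOf x = p ^ 1 := by rw [pow_one, ← Nat.card_zpowers, hx, hP]
  have hdef : IsDefectGroup p M (princBlk M G).1 (Subgroup.zpowers x) := by
    rw [hx]
    exact (Cfsg.Agent.S4652.result p M hM _).2 ⟨P, rfl⟩
  obtain ⟨e, he⟩ := exists_maxPair_of_isDef (S := pairSys M G) (isDef_of_isDefectGroup hdef)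
  let K : CycData p M G :=
    ⟨princBlk M G, x, 1, e, hM, (isMaximalBrauerPair_iff _ ⟨_, e⟩).2 he, hxo, one_ne_zero⟩
  have hz : K.z = x := by
    rw [CycData.z, show ((p ^ (K.b - 1) : ℕ) : ZMod (p ^ K.b)) = 1 by simp [K]]
    exact K.el_one
  have hC1 : K.C1 = (P : Subgroup G) := by
    show Subgroup.centralizer (Subgroup.zpowers K.z : Set G) = _
    rw [hz, hx, hC]
  have hcard : Nat.card K.C1 = p := by rw [hC1, hP]
  have hmem : ∀ g : K.C1, (g : G) ∈ Subgroup.zpowers x := fun g => by
    rw [hx, ← hC1]; exact g.2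
  have hcomm : ∀ a b : K.C1, a * b = b * a := fun a b =>
    Subtype.ext (K.commute _ (hmem a) _ (hmem b))
  have hirr : Nat.card (IrrCharacter K.C1) = p := by
    have h := Char.sum_irr_degree_sq (G := K.C1)
    rw [Finset.sum_congr rfl fun η _ => by rw [CharInd.irr_one_of_comm hcomm η.2, one_pow],
      hcard, Finset.sum_const, Finset.card_univ, nsmul_eq_mul, mul_one,
      ← Nat.card_eq_fintype_card] at h
    exact_mod_cast h
  have hall : ∀ η : IrrCharacter K.C1, η ∈ K.loc.B.1 := by
    intro η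
    have h : K.loc.B.1 = Set.univ :=
      Set.eq_of_subset_of_ncard_le (Set.subset_univ _) (by
        rw [Set.ncard_univ, hirr, ← Nat.card_coe_set_eq, K.card_block]
        simp [K])
    rw [h]; trivial
  have hcoeff : ∀ (χ : IrrCharacter G) (η : IrrCharacter K.C1),
      K.coeffA χ (K.expo η K.θ₀) = (mult K.C1 χ η : ℤ) := by
    intro χ η
    rw [CycData.coeffA, Finset.sum_eq_single η]
    · rw [if_pos rfl]
    · intro η' _ hne
      exact if_neg fun h => hne (K.expo_injective (hall η') (hall η) K.θ₀_mem h)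
    · intro h; simp [hall η] at h
  obtain ⟨η, hη⟩ : ∃ η : IrrCharacter K.C1, η ≠ Char.trivialIrr K.C1 := by
    haveI : Nontrivial (IrrCharacter K.C1) :=
      Finite.one_lt_card_iff_nontrivial.1 (hirr.symm ▸ (Fact.out : p.Prime).one_lt)
    exact exists_ne _
  have hdiff : ∀ χ ∈ S,
      (K.coeffA χ (K.expo (Char.trivialIrr K.C1) K.θ₀) : ℤ)
        - K.coeffA χ (K.expo η K.θ₀) = s := fun χ hχ => by
    rw [hcoeff, hcoeff]
    exact mult_sub hcard hcomm χ s
      (fun g hg => hS χ hχ g (hC1 ▸ g.2) fun h => hg (Subtype.ext h)) hη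
  have h1 := K.spread hε.eq hprim d hd S (K.expo (Char.trivialIrr K.C1) K.θ₀) (K.expo η K.θ₀)
  have h2 := K.spread hε.eq hprim d hd S (K.expo η K.θ₀) (K.expo (Char.trivialIrr K.C1) K.θ₀)
  have h3 : ∑ χ ∈ S, (d χ : ℤ) * K.coeffA χ (K.expo (Char.trivialIrr K.C1) K.θ₀)
      - ∑ χ ∈ S, (d χ : ℤ) * K.coeffA χ (K.expo η K.θ₀) = s * ((∑ χ ∈ S, d χ : ℕ) : ℤ) := by
    rw [← Finset.sum_sub_distrib, Nat.cast_sum, Finset.mul_sum]
    refine Finset.sum_congr rfl fun χ hχ => ?_
    rw [← mul_sub, hdiff χ hχ, mul_comm]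
  rcases hs with rfl | rfl <;> omega

end Cfsg.Agent.FGS75.Tree4724
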