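import Cfsg.Agent.FGS75.Tree4724.Edges
import Cfsg.Agent.FGS75.Tree4724.Leaf
import Cfsg.Agent.FGS75.Tree4724.Mult

/-!
The Brauer tree count: the exceptional characters of the TI subgroup have valency two, so the only
positive vertices are the principal character and these.
-/

set_option autoImplicit false
set_option linter.style.haveILetI false
set_option linter.unusedSectionVars false

namespace Cfsg.Agent.FGS75.Tree4724

open Cfsg
open Cfsg.Agent.Block (toC toF)
open Cfsg.Agent.Brauer.ProjVec (ev)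
open scoped Classical ComplexConjugate

universe u

/-- Arithmetic of the degree equation. -/
theorem degree_tight {n : Type*} (N : Finset n) (f : n → ℕ) {p d e c : ℕ} (hd : e ≤ d)
    (hf : ∀ i ∈ N, p - 1 ≤ f i) (he : 2 * c + 1 = e) (hN : N.card = c) (hp : 1 ≤ p)
    (h : d + ∑ i ∈ N, f i = 1 + c * (p + 1)) : d = e ∧ ∀ i ∈ N, f i = p - 1 := by
  have h1 : ∑ _i ∈ N, (p - 1) ≤ ∑ i ∈ N, f i := Finset.sum_le_sum hf
  rw [Finset.sum_const, smul_eq_mul, hN] at h1
  have h2 : c * (p - 1) + c * 2 = c * (p + 1) := by rw [← mul_add]; congr 1; omega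
  have h3 : d = e ∧ ∑ i ∈ N, f i = c * (p - 1) := by omega
  refine ⟨h3.1, fun i hi => ?_⟩
  have h4 := (Finset.sum_eq_sum_iff_of_le hf).1 (by rw [h3.2, Finset.sum_const, smul_eq_mul, hN])
  exact (h4 i hi).symm

/-- A positive degree congruent to `-1` is at least `p - 1`. -/
theorem le_of_congr_neg {p d : ℕ} (hd : d ≠ 0) (h : (p : ℤ) ∣ (d : ℤ) - (-1)) : p - 1 ≤ d := by
  rw [sub_neg_eq_add] at h
  have h1 : p ∣ d + 1 := by exact_mod_cast h
  have := Nat.le_of_dvd (by omega) h1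
  omega

/-- A positive degree congruent to `e < p` is at least `e`. -/
theorem le_of_congr_lt {p d e : ℕ} (he : e < p) (h : (p : ℤ) ∣ (d : ℤ) - e) : e ≤ d := by
  by_contra hlt
  push Not at hlt
  have h1 : (p : ℤ) ∣ (e : ℤ) - d := by rw [← neg_sub]; exact h.neg_right
  have h2 := Int.le_of_dvd (by omega) h1
  omega

variable {G : Type u} [Group G] [Fintype G] {p : ℕ} [Fact p.Prime] {P : Sylow p G} {E : Subgroup G}

theorem not_dvd_of_congr_small {p : ℕ} {d a : ℤ} (ha : a ≠ 0) (hlt : |a| < p) (hd : (p : ℤ) ∣ d)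
    (h : (p : ℤ) ∣ d - a) : False := by
  have h1 : (p : ℤ) ∣ a := by simpa using hd.sub h
  exact absurd (Int.le_of_dvd (abs_pos.2 ha) ((dvd_abs _ _).2 h1)) (not_le.2 hlt)

theorem not_inE_P (h : Cfg P E) {x : G} (hx : x ∈ (P : Subgroup G)) (hx1 : x ≠ 1) : ¬ InE E x := by
  rintro ⟨-, g, hg⟩
  have ho : orderOf x = p := ((Nat.dvd_prime (Fact.out : p.Prime)).1
    (h.cardP ▸ Subgroup.orderOf_dvd_natCard _ hx)).resolve_left (by simpa using hx1)
  have h1 : orderOf (g * x * g⁻¹) ∣ Nat.card E := Subgroup.orderOf_dvd_natCard _ hg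
  rw [show g * x * g⁻¹ = (MulAut.conj g).toMonoidHom x from rfl,
    orderOf_injective (MulAut.conj g).toMonoidHom (MulAut.conj g).injective, ho] at h1
  have h2 := Nat.le_of_dvd Nat.card_pos h1
  have := h.prime_five
  have h3 := Nat.le_of_dvd (by omega) h.dvd
  omega

theorem card_E_lt (h : Cfg P E) : Nat.card E < p := by
  have := h.prime_five
  have h3 := Nat.le_of_dvd (by omega) h.dvd
  omega

theorem C_P (h : Cfg P E) {ψ : IrrCharacter G} {C : Finset (IrrCharacter G)} (hX : Exc p E ψ C)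
    {c : IrrCharacter G} (hc : c ∈ C) {x : G} (hx : x ∈ (P : Subgroup G)) (hx1 : x ≠ 1) :
    (c : G → ℂ) x = 1 := by
  have ho : orderOf x = p := ((Nat.dvd_prime (Fact.out : p.Prime)).1
    (h.cardP ▸ Subgroup.orderOf_dvd_natCard _ hx)).resolve_left (by simpa using hx1)
  rw [hX.C_off c hc x hx1 (not_inE_P h hx hx1), hX.psi_sing x (dvd_of_eq ho.symm), add_zero]

/-- The exceptional characters sum to zero over `P E`. -/
theorem sum_PE (h : Cfg P E) {ψ : IrrCharacter G} {C : Finset (IrrCharacter G)} (hX : Exc p E ψ C)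
    {c : IrrCharacter G} (hc : c ∈ C) :
    ∑ u : (P : Subgroup G), ∑ x : E, (c : G → ℂ) ((u : G) * (x : G)) = 0 := by
  rw [Finset.sum_comm, ← Finset.sum_filter_add_sum_filter_not Finset.univ (fun x : E => x ≠ 1)]
  have hconj : ∀ x : E, x ≠ 1 → ∀ u : (P : Subgroup G),
      (c : G → ℂ) ((u : G) * (x : G)) = (c : G → ℂ) (x : G) := by
    intro x hx u
    have hx1 : (x : G) ≠ 1 := fun e => hx (Subtype.ext e)
    have hn : (x : G) ∈ Subgroup.normalizer ((P : Subgroup G) : Set G) := h.le_normalizer x.2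
    let f : ↥(P : Subgroup G) → ↥(P : Subgroup G) := fun v =>
      ⟨(v : G) * ((x : G) * (v : G)⁻¹ * (x : G)⁻¹),
        mul_mem v.2 ((Subgroup.mem_normalizer_iff.1 hn _).1 (inv_mem v.2))⟩
    have hinj : Function.Injective f := by
      intro v w hvw
      have e := congrArg Subtype.val hvw
      simp only [f] at e
      have e2 : (x : G) * ((v : G)⁻¹ * (w : G)) * (x : G)⁻¹ = (v : G)⁻¹ * (w : G) := by
        calc (x : G) * ((v : G)⁻¹ * (w : G)) * (x : G)⁻¹
            = ((x : G) * (v : G)⁻¹ * (x : G)⁻¹) * ((x : G) * (w : G)⁻¹ * (x : G)⁻¹)⁻¹ := by group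
          _ = ((v : G)⁻¹ * ((v : G) * ((x : G) * (v : G)⁻¹ * (x : G)⁻¹))) *
              ((x : G) * (w : G)⁻¹ * (x : G)⁻¹)⁻¹ := by group
          _ = ((v : G)⁻¹ * ((w : G) * ((x : G) * (w : G)⁻¹ * (x : G)⁻¹))) *
              ((x : G) * (w : G)⁻¹ * (x : G)⁻¹)⁻¹ := by rw [e]
          _ = (v : G)⁻¹ * (w : G) := by group
      exact Subtype.ext (inv_mul_eq_one.1
        (h.fpf x x.2 hx1 _ (mul_mem (inv_mem v.2) w.2) e2))
    obtain ⟨v, hv⟩ := Finite.injective_iff_surjective.1 hinj u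
    rw [show (u : G) * (x : G) = (v : G) * (x : G) * (v : G)⁻¹ by
      rw [← hv]; simp only [f]; group]
    exact Char.irr_isClassFunction c.2 _ _
  rw [Finset.sum_congr rfl fun x hx => Finset.sum_congr rfl fun u _ =>
    hconj x (Finset.mem_filter.1 hx).2 u,
    show (Finset.univ.filter fun x : E => ¬ x ≠ 1) = {1} by ext x; simp, Finset.sum_singleton]
  simp only [Finset.sum_const, Finset.card_univ, nsmul_eq_mul, ← Finset.mul_sum, hX.C_E c hc,
    OneMemClass.coe_one, mul_one]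
  rw [← Finset.add_sum_erase _ _ (Finset.mem_univ (1 : (P : Subgroup G))),
    Finset.sum_congr rfl fun u hu => C_P h hX hc u.2
      (fun e => (Finset.mem_erase.1 hu).1 (Subtype.ext e)),
    Finset.sum_const, Finset.card_erase_of_mem (Finset.mem_univ _), Finset.card_univ,
    OneMemClass.coe_one, hX.C_deg c hc, nsmul_eq_mul, mul_one, ← Nat.card_eq_fintype_card]
  rw [show Nat.card ((P : Subgroup G)) = p from h.cardP, Nat.cast_sub (Fact.out : p.Prime).one_le]
  push_cast
  ring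

variable {M : Ideal AlgInt} [M.IsPrime] [CharP (Block.ResF M) p]

theorem exists_blk (h : Cfg P E) (hodd : Odd (Nat.card E)) (hM : IsPModular p M)
    {ψ : IrrCharacter G} {C : Finset (IrrCharacter G)} (hX : Exc p E ψ C) :
    ∃ N Y : Finset (IrrCharacter G), Blk P E ψ C N Y := by
  set e := Nat.card E with hedef
  have hp5 := h.prime_five
  have hep : e < p := card_E_lt h
  have he3 : 3 ≤ e := by obtain ⟨k, hk⟩ := hodd; have := h.one_lt; omega
  obtain ⟨X, Y, sgn, ε, hdisj, hmem, hXcard, hYcard, h1X, hsgn1, hεs, hXd, hYd, hYsum, hrel⟩ :=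
    SmallGroups.OrderP.exists_block_data hM P h.cardP e h.relIndex_eq
  obtain ⟨u, hu, hu1⟩ : ∃ u ∈ (P : Subgroup G), u ≠ 1 := by
    obtain ⟨u, ho, hPu⟩ := Brauer.OrderP.exists_gen P h.cardP
    exact ⟨u, hPu ▸ Subgroup.mem_zpowers u, fun e => by
      rw [e, orderOf_one] at ho; exact (Fact.out : p.Prime).ne_one ho.symm⟩
  have hdeg : ∀ χ : IrrCharacter G, (χ : G → ℂ) 1 = (charDegree (χ : G → ℂ) : ℂ) ∧
      charDegree (χ : G → ℂ) ≠ 0 := fun χ => BlockVal.irr_one_eq_charDegree χ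
  have hdivY : p - 1 = e * ((p - 1) / e) := (Nat.mul_div_cancel' h.dvd).symm
  -- the TI characters are positive nonexceptional
  have hCX : ∀ c ∈ C, c ∈ X ∧ sgn c = 1 := by
    intro c hc
    have hcB := h.mem_principal_of_ne_zero hM hu hu1 c (by rw [C_P h hX hc hu hu1]; exact one_ne_zero)
    have hcd : charDegree (c : G → ℂ) = p + 1 := by
      have := hX.C_deg c hc
      rw [(hdeg c).1] at this
      exact_mod_cast this
    rcases (hmem c).1 hcB with hcX | hcY
    · refine ⟨hcX, ?_⟩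
      have h1 := (hXd c hcX).2.2 u hu hu1
      rw [C_P h hX hc hu hu1] at h1
      exact_mod_cast h1.symm
    · exfalso
      have h1 := hYd c hcY
      rw [hcd] at h1
      push_cast at h1
      have h2 : (p : ℤ) ∣ ε * e - 1 := by
        have := (dvd_refl (p : ℤ)).sub h1
        rwa [show (p : ℤ) - ((p : ℤ) + 1 - ε * e) = ε * e - 1 by ring] at this
      have hne : ε * (e : ℤ) - 1 ≠ 0 := by rcases hεs with r | r <;> subst r <;> omega
      refine absurd (Int.le_of_dvd (abs_pos.2 hne) ((dvd_abs _ _).2 h2)) (not_le.2 ?_)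
      rw [abs_lt]
      have hep2 : e + 1 < p := by
        have h5 : 2 ∣ p - 1 := by
          rcases (Fact.out : p.Prime).eq_two_or_odd with r | r <;> omega
        have h6 : e ≠ p - 1 := fun r => by obtain ⟨k, hk⟩ := hodd; omega
        omega
      rcases hεs with r | r <;> subst r <;> omega
  -- projective vectors
  have hB : IsPBlock M (principalBlock M G) := BrauerPairs.isPBlock_principalBlock G
  obtain ⟨r, d, ep, hep', hprim, hev, hout, hind, hgen, mj, hmj, hdg⟩ :=
    Brauer.ProjVec.exists_system hM hB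
  have hprim' : ∀ j, Brauer.PrimIdem.IsPrim (toF M (ep j)) := fun j => (hprim j).1
  have hrelv : ∀ j, ∀ θ ∈ Y, ε * (d j θ : ℤ) = ∑ χ ∈ X, sgn χ * (d j χ : ℤ) := by
    intro j θ hθ
    have h0 := ev_sum_eq_zero_of_regular hM (hep' j).eq
      (fun χ => (if χ = θ then (ε : ℂ) else 0) - if χ ∈ X then (sgn χ : ℂ) else 0) fun g hg => by
        simp only [sub_mul, ite_mul, zero_mul, Finset.sum_sub_distrib, Finset.sum_ite_eq',
          Finset.mem_univ, if_true, Finset.sum_ite_mem, Finset.univ_inter]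
        rw [hrel θ hθ g hg, sub_self]
    simp only [sub_mul, ite_mul, zero_mul, Finset.sum_sub_distrib, Finset.sum_ite_eq',
      Finset.mem_univ, if_true, Finset.sum_ite_mem, Finset.univ_inter, hev, sub_eq_zero] at h0
    exact_mod_cast h0
  have hinjX : ∀ n : Fin r → ℤ, (∀ χ ∈ X, ∑ j, n j * (d j χ : ℤ) = 0) → n = 0 := by
    intro n hn
    refine hind n fun χ => ?_
    by_cases hχ : χ ∈ principalBlock M G
    · rcases (hmem χ).1 hχ with hχX | hχY
      · exact hn χ hχX
      · have h1 : ε * ∑ j, n j * (d j χ : ℤ) = 0 := by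
          rw [Finset.mul_sum, Finset.sum_congr rfl fun j _ => by
            rw [mul_left_comm, hrelv j χ hχY, Finset.mul_sum], Finset.sum_comm]
          refine Finset.sum_eq_zero fun x hx => ?_
          rw [Finset.sum_congr rfl fun j _ => by rw [mul_left_comm], ← Finset.mul_sum, hn x hx,
            mul_zero]
        exact (mul_eq_zero.1 h1).resolve_left (by rcases hεs with r | r <;> subst r <;> norm_num)
    · exact Finset.sum_eq_zero fun j _ => by rw [hout j χ hχ]; simp
  have hr : r ≤ e := by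
    let L : (Fin r → ℤ) →ₗ[ℤ] (X → ℤ) :=
      { toFun := fun n x => ∑ j, n j * (d j x.1 : ℤ)
        map_add' := fun a b => funext fun x => by simp [add_mul, Finset.sum_add_distrib]
        map_smul' := fun a b => funext fun x => by simp [Finset.mul_sum, mul_assoc] }
    have h1 := LinearMap.finrank_le_finrank_of_injective (f := L)
      ((injective_iff_map_eq_zero _).2 fun n hn => hinjX n fun χ hχ => congrFun hn ⟨χ, hχ⟩)
    simpa [Module.finrank_pi, hXcard] using h1
  -- signs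
  set Xp := X.filter (fun χ => sgn χ = 1) with hXp
  set Xn := X.filter (fun χ => ¬ sgn χ = 1) with hXn
  have hneg : ∀ χ ∈ Xn, sgn χ = -1 := fun χ hχ =>
    (hXd χ (Finset.mem_filter.1 hχ).1).1.resolve_left (Finset.mem_filter.1 hχ).2
  have hle : ∀ j, ∑ χ ∈ Xp, d j χ ≤ 1 ∧ ∑ χ ∈ Xn, d j χ ≤ 1 := fun j =>
    ⟨sum_le_one hM h.cardP h.centP (hep' j) (hprim' j) (d j) (hev j) Xp 1 (Or.inl rfl)
      fun χ hχ x hx hx1 => by
        rw [(hXd χ (Finset.mem_filter.1 hχ).1).2.2 x hx hx1, (Finset.mem_filter.1 hχ).2],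
    sum_le_one hM h.cardP h.centP (hep' j) (hprim' j) (d j) (hev j) Xn (-1) (Or.inr rfl)
      fun χ hχ x hx hx1 => by
        rw [(hXd χ (Finset.mem_filter.1 hχ).1).2.2 x hx hx1, hneg χ hχ]⟩
  have hsplit : ∀ j, ∑ χ ∈ X, sgn χ * (d j χ : ℤ) =
      (∑ χ ∈ Xp, d j χ : ℕ) - ((∑ χ ∈ Xn, d j χ : ℕ) : ℤ) := by
    intro j
    rw [← Finset.sum_filter_add_sum_filter_not X (fun χ => sgn χ = 1), Nat.cast_sum, Nat.cast_sum,
      sub_eq_add_neg, ← Finset.sum_neg_distrib]
    congr 1
    · exact Finset.sum_congr rfl fun χ hχ => by rw [(Finset.mem_filter.1 hχ).2, one_mul]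
    · exact Finset.sum_congr rfl fun χ hχ => by rw [hneg χ hχ, neg_one_mul]
  have hnz : ∀ j, ∑ χ ∈ Xp, d j χ ≠ 0 ∨ ∑ χ ∈ Xn, d j χ ≠ 0 := by
    intro j
    by_contra hcon
    push Not at hcon
    simp only [Finset.sum_eq_zero_iff] at hcon
    have := congrFun (hinjX (Pi.single j 1) fun χ hχ => by
      rw [Finset.sum_eq_single j (fun i _ hi => by simp [Pi.single_eq_of_ne hi]) (by simp)]
      by_cases hs : sgn χ = 1
      · simp [hcon.1 χ (Finset.mem_filter.2 ⟨hχ, hs⟩)]
      · simp [hcon.2 χ (Finset.mem_filter.2 ⟨hχ, hs⟩)]) j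
    simp at this
  -- valencies
  have hval1 : ∀ χ ∈ principalBlock M G, 1 ≤ ∑ j, d j χ := by
    intro χ hχ
    by_contra hcon
    push Not at hcon
    rw [Nat.lt_one_iff, Finset.sum_eq_zero_iff] at hcon
    exact Char.irr_one_ne_zero χ.2 (by
      rw [hdg χ hχ]
      exact Finset.sum_eq_zero fun j hj => by rw [hcon j hj]; simp)
  have hval2 : ∀ c ∈ C, 2 ≤ ∑ j, d j c := by
    intro c hc
    obtain ⟨hcX, hcs⟩ := hCX c hc
    have hcB : c ∈ principalBlock M G := (hmem c).2 (Or.inl hcX)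
    by_contra hcon
    push Not at hcon
    have h1 := hval1 c hcB
    obtain ⟨j0, -, hj0⟩ := Finset.exists_ne_zero_of_sum_ne_zero (by omega : ∑ j, d j c ≠ 0)
    rw [← Finset.add_sum_erase _ _ (Finset.mem_univ j0)] at hcon
    have hone : d j0 c = 1 := by omega
    have hz : ∑ j ∈ Finset.univ.erase j0, d j c = 0 := by omega
    have hother : ∀ j, j ≠ j0 → d j c = 0 := fun j hj =>
      Finset.sum_eq_zero_iff.1 hz j (Finset.mem_erase.2 ⟨hj, Finset.mem_univ _⟩)
    have hpE : ¬ p ∣ Nat.card E := fun hd => by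
      have := Nat.le_of_dvd Nat.card_pos hd
      omega
    obtain ⟨f, hf, hfp, hf0, hne⟩ := exists_second hM hp5 h.cardP h.centP E h.le_normalizer
      h.cyclicE hodd hpE c (hX.C_deg c hc) (hX.C_real c hc) (fun x hx hx1 => C_P h hX hc hx hx1)
      (sum_PE h hX hc) (hep' j0) (hprim' j0) (by rw [hev, hone, Nat.cast_one])
    refine hne (equivalent_of_values hM hB hep' hprim' hev hind hgen hcB hone hother
      (fun g hg hgp n hn => ?_) hf hfp hf0)
    have hnat : ∀ χ : IrrCharacter G, ∃ m : ℕ, ev (χ : G → ℂ) g = m := fun χ =>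
      Brauer.ProjVec.exists_nat_ev (Char.isCharacter_of_irr χ.2) hg
    choose dg hdgv using hnat
    have hb := sum_le_one hM h.cardP h.centP hg hgp dg hdgv {c} 1 (Or.inl rfl)
      fun χ hχ x hx hx1 => by
        rw [Finset.mem_singleton] at hχ
        subst hχ
        rw [C_P h hX hc hx hx1, Int.cast_one]
    rw [Finset.sum_singleton] at hb
    have : n = dg c := by have := hn.symm.trans (hdgv c); exact_mod_cast this
    omega
  -- the count
  have h1Xp : Char.trivialIrr G ∈ Xp := Finset.mem_filter.2 ⟨h1X, hsgn1⟩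
  have h1C : Char.trivialIrr G ∉ C := fun hc => by
    have h2 : ((Char.trivialIrr G : IrrCharacter G) : G → ℂ) 1 = 1 := rfl
    rw [hX.C_deg _ hc] at h2
    simp at h2
    exact (Fact.out : p.Prime).ne_zero h2
  set S := insert (Char.trivialIrr G) C with hS
  have hSsub : S ⊆ Xp := Finset.insert_subset h1Xp fun c hc =>
    Finset.mem_filter.2 (hCX c hc)
  have hlow : e + (Xp \ S).card ≤ ∑ j, ∑ χ ∈ Xp, d j χ := by
    rw [Finset.sum_comm, ← Finset.sum_sdiff hSsub, hS, Finset.sum_insert h1C]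
    have a1 := hval1 (Char.trivialIrr G) ((hmem _).2 (Or.inl h1X))
    have a2 := Finset.sum_le_sum (s := C) (fun c hc => hval2 c hc)
    have a3 := Finset.sum_le_sum (s := Xp \ insert (Char.trivialIrr G) C) fun χ hχ =>
      hval1 χ ((hmem χ).2 (Or.inl (Finset.mem_filter.1 (Finset.mem_sdiff.1 hχ).1).1))
    simp only [Finset.sum_const, smul_eq_mul, mul_one] at a2 a3
    have := hX.card_C
    omega
  have hεone : ε = 1 := by
    refine hεs.resolve_right fun hε => ?_
    obtain ⟨θ, hθ⟩ : Y.Nonempty := Finset.card_pos.1 (by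
      rw [hYcard]; exact Nat.div_pos (by omega) (by omega))
    have hsum : ∀ j, ∑ χ ∈ Xp, d j χ + d j θ = 1 := by
      intro j
      have h1 := hrelv j θ hθ
      rw [hsplit, hε] at h1
      have := hle j
      have := hnz j
      omega
    have h2 := Finset.sum_congr (rfl : (Finset.univ : Finset (Fin r)) = _) fun j _ => hsum j
    rw [Finset.sum_add_distrib, Finset.sum_const, Finset.card_univ, Fintype.card_fin, smul_eq_mul,
      mul_one] at h2
    have := hval1 θ ((hmem θ).2 (Or.inr hθ))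
    omega
  subst hεone
  have hup : ∑ j, ∑ χ ∈ Xp, d j χ ≤ r := by
    refine (Finset.sum_le_sum fun j _ => (hle j).1).trans ?_
    simp
  have hS_eq : Xp = S := (Finset.Subset.antisymm hSsub (Finset.sdiff_eq_empty_iff_subset.1
    (Finset.card_eq_zero.1 (by omega)))).symm
  have hNcard : 2 * Xn.card + 1 = e := by
    have h1 := Finset.card_filter_add_card_filter_not (s := X) (fun χ => sgn χ = 1)
    rw [← hXp, ← hXn, hS_eq, hS, Finset.card_insert_of_notMem h1C, hXcard] at h1
    have := hX.card_C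
    omega
  have hX1 : ∀ χ ∈ X, ∀ x ∈ (P : Subgroup G), x ≠ 1 → (χ : G → ℂ) x ≠ 0 := fun χ hχ x hx hx1 => by
    rw [(hXd χ hχ).2.2 x hx hx1]
    rcases (hXd χ hχ).1 with s | s <;> simp [s]
  have hNne : ∀ χ ∈ Xn, χ ∉ S := fun χ hχ hS' =>
    (Finset.mem_filter.1 hχ).2 (Finset.mem_filter.1 (hS_eq ▸ hS' : χ ∈ Xp)).2
  -- degrees
  obtain ⟨θ0, hθ0⟩ : Y.Nonempty := Finset.card_pos.1 (by
    rw [hYcard]; exact Nat.div_pos (by omega) (by omega))
  have hregone : ¬ p ∣ orderOf (1 : G) := by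
    rw [orderOf_one]; exact (Fact.out : p.Prime).not_dvd_one
  have hrel' : ∀ θ ∈ Y, ∀ g : G, ¬ p ∣ orderOf g →
      (θ : G → ℂ) g + ∑ χ ∈ Xn, (χ : G → ℂ) g = 1 + ∑ c ∈ C, (c : G → ℂ) g := by
    intro θ hθ g hg
    have h1 := hrel θ hθ g hg
    rw [Int.cast_one, one_mul, ← Finset.sum_filter_add_sum_filter_not X (fun χ => sgn χ = 1),
      ← hXp, ← hXn, hS_eq, hS, Finset.sum_insert h1C, hsgn1, Int.cast_one, one_mul,
      show ((Char.trivialIrr G : IrrCharacter G) : G → ℂ) g = 1 from rfl,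
      Finset.sum_congr (s₁ := C) rfl (fun c hc =>
        show (sgn c : ℂ) * (c : G → ℂ) g = (c : G → ℂ) g by rw [(hCX c hc).2, Int.cast_one, one_mul]),
      Finset.sum_congr (s₁ := Xn) rfl (fun χ hχ =>
        show (sgn χ : ℂ) * (χ : G → ℂ) g = -(χ : G → ℂ) g by
          rw [hneg χ hχ, Int.cast_neg, Int.cast_one, neg_one_mul]), Finset.sum_neg_distrib] at h1
    rw [h1]; ring
  have htight : ∀ θ ∈ Y, charDegree (θ : G → ℂ) = e ∧
      ∀ χ ∈ Xn, charDegree (χ : G → ℂ) = p - 1 := by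
    intro θ hθ
    refine degree_tight Xn _ (c := C.card) (le_of_congr_lt hep ?_) (fun χ hχ => ?_) hX.card_C
      (by have := hX.card_C; omega) (by omega) ?_
    · have := hYd θ hθ; rwa [one_mul] at this
    · exact le_of_congr_neg (hdeg χ).2 (by
        have := (hXd χ (Finset.mem_filter.1 hχ).1).2.1; rwa [hneg χ hχ] at this)
    · have h1 := hrel' θ hθ 1 hregone
      rw [(hdeg θ).1, Finset.sum_congr rfl fun χ _ => (hdeg χ).1,
        Finset.sum_congr rfl fun c hc => hX.C_deg c hc, Finset.sum_const, nsmul_eq_mul] at h1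
      exact_mod_cast h1
  refine ⟨Xn, Y, ⟨hNcard, ?_, ?_, ?_, ?_, ?_, ⟨?_, ?_⟩, ?_, ?_,
    fun c hc x hx hx1 => C_P h hX hc hx hx1, ?_, ?_, hrel', ?_⟩⟩
  · rw [hYcard, ← hedef, mul_comm]; exact hdivY.symm
  · exact Finset.disjoint_left.2 fun c hc hN => hNne c hN (Finset.mem_insert_of_mem hc)
  · exact Finset.disjoint_left.2 fun c hc hY => Finset.disjoint_left.1 hdisj (hCX c hc).1 hY
  · exact Finset.disjoint_left.2 fun c hN hY =>
      Finset.disjoint_left.1 hdisj (Finset.mem_filter.1 hN).1 hY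
  · rintro χ (hχ | hχ | hχ) h1
    · exact h1C ((show χ = Char.trivialIrr G from Subtype.ext h1) ▸ hχ)
    · exact hNne χ hχ ((show χ = Char.trivialIrr G from Subtype.ext h1) ▸
        Finset.mem_insert_self _ _)
    · exact Finset.disjoint_left.1 hdisj h1X ((show χ = Char.trivialIrr G from Subtype.ext h1) ▸ hχ)
  · intro hψ
    exact hX1 ψ (Finset.mem_filter.1 hψ).1 u hu hu1 (hX.psi_sing u (dvd_of_eq
      (((Nat.dvd_prime (Fact.out : p.Prime)).1 (h.cardP ▸ Subgroup.orderOf_dvd_natCard _ hu)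
        ).resolve_left (by simpa using hu1)).symm))
  · intro hψ
    have h1 := (htight ψ hψ).1
    have h2 := hX.psi_deg
    rw [(hdeg ψ).1, Nat.cast_inj] at h2
    omega
  · intro χ hχ
    rw [(hdeg χ).1, (htight θ0 hθ0).2 χ hχ, Nat.cast_sub (by omega : 1 ≤ p), Nat.cast_one]
  · intro χ hχ x hx hx1
    rw [(hXd χ (Finset.mem_filter.1 hχ).1).2.2 x hx hx1, hneg χ hχ]
    norm_num
  · intro θ hθ
    rw [(hdeg θ).1, (htight θ hθ).1]
  · intro x hx hx1
    rw [hYsum x hx hx1]
    norm_num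
  · intro χ x hx hx1 hne
    rcases (hmem χ).1 (h.mem_principal_of_ne_zero hM hx hx1 χ hne) with hχ | hχ
    · by_cases hs : sgn χ = 1
      · have : χ ∈ S := hS_eq ▸ Finset.mem_filter.2 ⟨hχ, hs⟩
        rcases Finset.mem_insert.1 this with r | r
        · exact Or.inl (by rw [r]; rfl)
        · exact Or.inr (Or.inl r)
      · exact Or.inr (Or.inr (Or.inl (Finset.mem_filter.2 ⟨hχ, hs⟩)))
    · exact Or.inr (Or.inr (Or.inr hχ))

end Cfsg.Agent.FGS75.Tree4724
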